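import Mathlib
import Cfsg.Agent.Helper90.HTDefs
import Cfsg.Agent.Helper90.BGChain

set_option autoImplicit false

/-! CALL S5953 piece HFIX (helper34). -/

namespace Cfsg.Agent.Helper34.HT5953

open Module Polynomial Cfsg.Agent.Helper90.HT

section geom

variable {F : Type*} [Field F] {V : Type*} [AddCommGroup V] [Module F V] [FiniteDimensional F V]
  (σ : F →+* F) (h : V → V → F)

/-- HFIX: fixed space and its complement. -/
theorem ht_fix (hh : IsHerm σ h) (hnd : ∀ v, (∀ w, h v w = 0) → v = 0)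
    (T : Module.End F V) (hT : HPres h T) (r : ℕ) (hrF : (r : F) ≠ 0) (hTr : T ^ r = 1) :
    (LinearMap.range (T - 1)).map T ≤ LinearMap.range (T - 1) ∧
    IsCompl (LinearMap.ker (T - 1)) (LinearMap.range (T - 1)) ∧
    (∀ u ∈ LinearMap.ker (T - 1), ∀ v ∈ LinearMap.range (T - 1), h u v = 0) ∧
    (∀ u ∈ LinearMap.range (T - 1), ∀ v ∈ LinearMap.ker (T - 1), h u v = 0) ∧
    HNondegOn h (LinearMap.ker (T - 1)) ∧ HNondegOn h (LinearMap.range (T - 1)) := by
  have hkr : LinearMap.ker (T - 1) ⊓ LinearMap.range (T - 1) = ⊥ :=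
    Cfsg.Agent.Helper90.BG.ker_inf_range T r hrF hTr
  have hmemk : ∀ u, u ∈ LinearMap.ker (T - 1) ↔ T u = u := by
    intro u
    rw [LinearMap.mem_ker, LinearMap.sub_apply, Module.End.one_apply, sub_eq_zero]
  have hsup : LinearMap.ker (T - 1) ⊔ LinearMap.range (T - 1) = ⊤ := by
    apply Submodule.eq_top_of_finrank_eq
    have h1 := Submodule.finrank_sup_add_finrank_inf_eq (LinearMap.ker (T - 1))
      (LinearMap.range (T - 1))
    rw [hkr, finrank_bot, add_zero] at h1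
    rw [h1, add_comm, LinearMap.finrank_range_add_finrank_ker]
  have ho1 : ∀ u ∈ LinearMap.ker (T - 1), ∀ v ∈ LinearMap.range (T - 1), h u v = 0 := by
    intro u hu v hv
    obtain ⟨w, rfl⟩ := hv
    rw [hmemk] at hu
    have h1 : h u (T w) = h (T u) (T w) := by rw [hu]
    rw [LinearMap.sub_apply, Module.End.one_apply, hh.sub_right, h1, hT u w, sub_self]
  have ho2 : ∀ u ∈ LinearMap.range (T - 1), ∀ v ∈ LinearMap.ker (T - 1), h u v = 0 := by
    intro u hu v hv
    obtain ⟨w, rfl⟩ := hu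
    rw [hmemk] at hv
    have h1 : h (T w) v = h (T w) (T v) := by rw [hv]
    rw [LinearMap.sub_apply, Module.End.one_apply, hh.sub_left, h1, hT w v, sub_self]
  have hdec : ∀ x : V, ∃ k ∈ LinearMap.ker (T - 1), ∃ ρ ∈ LinearMap.range (T - 1), k + ρ = x := by
    intro x
    have : x ∈ LinearMap.ker (T - 1) ⊔ LinearMap.range (T - 1) := by
      rw [hsup]; exact Submodule.mem_top
    exact Submodule.mem_sup.mp this
  refine ⟨?_, ⟨disjoint_iff.mpr hkr, codisjoint_iff.mpr hsup⟩, ho1, ho2, ?_, ?_⟩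
  · rintro _ ⟨_, ⟨w, rfl⟩, rfl⟩
    refine ⟨T w, ?_⟩
    simp [LinearMap.sub_apply]
  · intro v hv hvw
    apply hnd
    intro x
    obtain ⟨k, hk, ρ, hρ, rfl⟩ := hdec x
    rw [hh.add_right, hvw k hk, ho1 v hv ρ hρ, add_zero]
  · intro v hv hvw
    apply hnd
    intro x
    obtain ⟨k, hk, ρ, hρ, rfl⟩ := hdec x
    rw [hh.add_right, hvw ρ hρ, ho2 v hv k hk, add_zero]

end geom

end Cfsg.Agent.Helper34.HT5953
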