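/-
helper34: CALL S5956 piece ATOMINV.
-/
import Mathlib
import Cfsg.Agent.Helper13.TKDefs

set_option autoImplicit false

namespace Cfsg.Agent.Helper34.TI5956

open Module Polynomial
open Cfsg.Agent.Helper42.SpForm Cfsg.Agent.Helper42.SpGroup Cfsg.Agent.Helper42.SpModels
open Cfsg.Agent.Helper13.TIsp Cfsg.Agent.Helper90.BG
open Cfsg.Agent.Helper11.TI5955 Cfsg.Agent.Helper58.TI5955 Cfsg.Agent.Helper59.TI5955
open Cfsg.Agent.Helper51.TI5955 Cfsg.Agent.Helper70.TI5955
open Cfsg.Agent.Helper39.TI5961 Cfsg.Agent.Helper58.TI5961 Cfsg.Agent.Helper59.TI5961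
open Cfsg.Agent.Helper60.TI5961 Cfsg.Agent.Helper31.TI5961 Cfsg.Agent.Helper19.TI5961

section geom

variable {F : Type*} [Field F] {V : Type*} [AddCommGroup V] [Module F V] [FiniteDimensional F V]
  (B : LinearMap.BilinForm F V)

/-- A pair with nonzero pairing spans a nondegenerate plane. -/
theorem atom_inv_pair (halt : ∀ v, B v v = 0) (v w : V) (hvw : B v w ≠ 0) :
    NondegOn B (Submodule.span F ({v, w} : Set V)) ∧
      finrank F (Submodule.span F ({v, w} : Set V)) = 2 := by
  have hskew : ∀ x y : V, B x y = - B y x := skew_of_alt B halt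
  have hmem : ∀ x ∈ Submodule.span F ({v, w} : Set V), ∃ a b : F, x = a • v + b • w := by
    intro x hx
    rw [Submodule.mem_span_pair] at hx
    obtain ⟨a, b, rfl⟩ := hx
    exact ⟨a, b, rfl⟩
  have hvE : v ∈ Submodule.span F ({v, w} : Set V) := Submodule.subset_span (by simp)
  have hwE : w ∈ Submodule.span F ({v, w} : Set V) := Submodule.subset_span (by simp)
  have hzero : ∀ a b : F, (∀ y ∈ Submodule.span F ({v, w} : Set V), B (a • v + b • w) y = 0) →
      a = 0 ∧ b = 0 := by
    intro a b h
    have h1 := h w hwE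
    have h2 := h v hvE
    simp only [map_add, LinearMap.add_apply, map_smul, LinearMap.smul_apply, halt, smul_eq_mul,
      mul_zero, add_zero, zero_add] at h1 h2
    rw [hskew w v] at h2
    constructor
    · exact (mul_eq_zero.mp h1).resolve_right hvw
    · exact (mul_eq_zero.mp h2).resolve_right (neg_ne_zero.mpr hvw)
  refine ⟨?_, ?_⟩
  · intro x hx hxy
    obtain ⟨a, b, rfl⟩ := hmem x hx
    obtain ⟨ha, hb⟩ := hzero a b hxy
    rw [ha, hb, zero_smul, zero_smul, add_zero]
  · have hli : LinearIndependent F ![v, w] := by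
      rw [LinearIndependent.pair_iff]
      intro a b hab
      apply hzero a b
      intro y _
      rw [hab, map_zero, LinearMap.zero_apply]
    have h := finrank_span_eq_card hli
    rw [Fintype.card_fin] at h
    have hr : Set.range ![v, w] = ({v, w} : Set V) := by
      simp [Matrix.range_cons, Matrix.range_empty, Set.pair_comm]
    rw [hr] at h
    exact h

/-- The `ε`-eigenspace part of `E` for an involution `T` (`ε = ± 1`, `T ^ 2 = 1`). -/
theorem atom_inv_eig (halt : ∀ v, B v v = 0) (h2 : (2 : F) ≠ 0) (T : Module.End F V)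
    (hT : Preserves B T) (hT2 : T ^ 2 = 1) (E : Submodule F V) (hET : E.map T ≤ E)
    (hE : NondegOn B E) (ε : F) (hε : ε * ε = 1)
    (hne : ∃ v ∈ E, T v + ε • v ≠ 0) :
    ∃ Z : Submodule F V, Z ≤ E ∧ Z.map T ≤ Z ∧ NondegOn B Z ∧ finrank F Z = 2 := by
  have hTT : ∀ v, T (T v) = v := by
    intro v
    have h := congrArg (fun S : Module.End F V => S v) hT2
    simpa [pow_two] using h
  -- the eigenspace
  let P : Submodule F V := E ⊓ LinearMap.ker (T - ε • (1 : Module.End F V))
  have hPmem : ∀ v, v ∈ P ↔ v ∈ E ∧ T v = ε • v := by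
    intro v
    simp only [P, Submodule.mem_inf, LinearMap.mem_ker, LinearMap.sub_apply, LinearMap.smul_apply,
      Module.End.one_apply, sub_eq_zero]
  have hTE : ∀ v ∈ E, T v ∈ E := fun v hv => hET ⟨v, hv, rfl⟩
  -- projection
  have hproj : ∀ v ∈ E, T v + ε • v ∈ P := by
    intro v hv
    rw [hPmem]
    refine ⟨E.add_mem (hTE v hv) (E.smul_mem _ hv), ?_⟩
    rw [map_add, map_smul, hTT, smul_add, smul_smul, hε, one_smul, add_comm]
  have hP0 : P ≠ ⊥ := by
    obtain ⟨v, hv, hne⟩ := hne
    intro h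
    have := hproj v hv
    rw [h, Submodule.mem_bot] at this
    exact hne this
  have hεne : ε ≠ 0 := by
    rintro rfl
    simp at hε
  have hPnd : NondegOn B P := by
    intro u hu h
    obtain ⟨huE, huT⟩ := (hPmem u).mp hu
    apply hE u huE
    intro w hw
    have h1 := h _ (hproj w hw)
    rw [map_add, map_smul, smul_eq_mul] at h1
    -- B u (T w) = B (T u) (T (T w)) = ε B u w... use B (T u) (T w) = B u w
    have h3 : B u (T w) = ε * B u w := by
      have h4 : B (T u) (T (T w)) = B u (T w) := hT u (T w)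
      rw [hTT, huT, map_smul, LinearMap.smul_apply, smul_eq_mul] at h4
      have h5 : B u (T w) = ε * (ε * B u (T w)) := by
        rw [← mul_assoc, hε, one_mul]
      have h6 : B (T u) (T w) = B u w := hT u w
      rw [huT, map_smul, LinearMap.smul_apply, smul_eq_mul] at h6
      rw [h5, h6]
    rw [h3] at h1
    have h7 : (2 : F) * (ε * B u w) = 0 := by linear_combination h1
    rcases mul_eq_zero.mp h7 with h8 | h8
    · exact absurd h8 h2
    · exact (mul_eq_zero.mp h8).resolve_left hεne
  obtain ⟨Z, hZP, hZnd, hZ2⟩ := atom_c B halt P hPnd hP0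
  refine ⟨Z, fun z hz => ((hPmem z).mp (hZP hz)).1, ?_, hZnd, hZ2⟩
  rintro _ ⟨z, hz, rfl⟩
  rw [((hPmem z).mp (hZP hz)).2]
  exact Z.smul_mem _ hz

/-- ATOMINV (case c): an invariant nondegenerate plane for `T ^ 2 = ± 1`, char `≠ 2`.
`T ^ 2 = 1`: `E = (E ⊓ ker (T - 1)) ⊕ (E ⊓ ker (T + 1))` orthogonal, take `atom_c` in a nonzero one.
`T ^ 2 = -1`: some `v ∈ E` has `B v (T v) ≠ 0` (polarize), take `span {v, T v}`. -/
theorem atom_inv (halt : ∀ v, B v v = 0) (h2 : (2 : F) ≠ 0) (T : Module.End F V)
    (hT : Preserves B T) (hT2 : T ^ 2 = 1 ∨ T ^ 2 = -1) (E : Submodule F V) (hET : E.map T ≤ E)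
    (hE : NondegOn B E) (hE0 : E ≠ ⊥) :
    ∃ Z : Submodule F V, Z ≤ E ∧ Z.map T ≤ Z ∧ NondegOn B Z ∧ finrank F Z = 2 := by
  have hskew : ∀ x y : V, B x y = - B y x := skew_of_alt B halt
  have hTE : ∀ v ∈ E, T v ∈ E := fun v hv => hET ⟨v, hv, rfl⟩
  obtain ⟨v, hvE, hv0⟩ := Submodule.exists_mem_ne_zero_of_ne_bot hE0
  rcases hT2 with hT2 | hT2
  · by_cases hc : T v + (1 : F) • v = 0
    · -- then T v = - v, so T v + (-1) • v = -2 v ≠ 0
      apply atom_inv_eig B halt h2 T hT hT2 E hET hE (-1) (by ring)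
      refine ⟨v, hvE, ?_⟩
      intro h
      have h3 : (2 : F) • v = 0 := by
        have : (2 : F) • v = (T v + (1 : F) • v) - (T v + (-1 : F) • v) := by
          rw [two_smul]; simp only [one_smul, neg_smul]; abel
        rw [this, hc, h, sub_zero]
      exact hv0 ((smul_eq_zero.mp h3).resolve_left h2)
    · exact atom_inv_eig B halt h2 T hT hT2 E hET hE 1 (by ring) ⟨v, hvE, hc⟩
  · have hTT : ∀ x, T (T x) = -x := by
      intro x
      have h := congrArg (fun S : Module.End F V => S x) hT2
      simpa [pow_two] using h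
    have hex : ∃ x ∈ E, B x (T x) ≠ 0 := by
      by_contra hcon
      push Not at hcon
      -- polarisation: B u (T w) = 0 for all u w in E
      have hpol : ∀ u ∈ E, ∀ w ∈ E, B u (T w) = 0 := by
        intro u hu w hw
        have h1 := hcon (u + w) (E.add_mem hu hw)
        simp only [map_add, LinearMap.add_apply, hcon u hu, hcon w hw, zero_add, add_zero] at h1
        have h3 : B w (T u) = B u (T w) := by
          have h4 : B (T w) (T (T u)) = B w (T u) := hT w (T u)
          rw [hTT, map_neg, hskew (T w) u] at h4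
          rw [← h4, neg_neg]
        rw [h3] at h1
        have h5 : (2 : F) * B u (T w) = 0 := by linear_combination h1
        exact (mul_eq_zero.mp h5).resolve_left h2
      apply hv0
      apply hE v hvE
      intro w hw
      have h1 := hpol v hvE (-(T w)) (E.neg_mem (hTE w hw))
      rw [map_neg, hTT, neg_neg] at h1
      exact h1
    obtain ⟨x, hxE, hx⟩ := hex
    obtain ⟨hnd, hfr⟩ := atom_inv_pair B halt x (T x) hx
    refine ⟨Submodule.span F ({x, T x} : Set V), ?_, ?_, hnd, hfr⟩
    · rw [Submodule.span_le]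
      intro y hy
      rcases hy with rfl | rfl
      · exact hxE
      · exact hTE _ hxE
    · rw [Submodule.map_span, Submodule.span_le]
      rintro _ ⟨y, hy, rfl⟩
      rcases hy with rfl | rfl
      · exact Submodule.subset_span (by simp)
      · rw [hTT]
        exact Submodule.neg_mem _ (Submodule.subset_span (by simp))

end geom

end Cfsg.Agent.Helper34.TI5956
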