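import Mathlib
import Cfsg.Agent.Helper27.SameOrderA
import Cfsg.Agent.Helper20.NsePAIR
import Cfsg.Agent.Helper80.NseORB

/-!
# CALL S3431, PIECE NO25 (helper27)

No group has an elementary abelian subgroup of order 25, exactly 15 involutions and at most 24
elements of order 10.  `nse_no_25_core` takes the orbit-counting divisibility (PIECE ORB) as a
hypothesis.
-/

set_option autoImplicit false

namespace Cfsg.Agent.Helper34

open Cfsg.Agent.Helper27.SO

variable {H : Type*} [Group H] [Finite H]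

theorem nse_no_25_core (P : Subgroup H) (hP : Nat.card P = 25) (hexp : ∀ g ∈ P, g ^ 5 = 1)
    (h2 : sc H 2 = 15) (h10 : sc H 10 ≤ 24)
    (hORB : Nat.card P ∣ 1 * Nat.card {t : H // orderOf t = 2 ∧
      Nat.card {x : H // x ∈ P ∧ Commute x t} = 1}) : False := by
  classical
  -- no involution has trivial centralizer in `P`
  have h0 : Nat.card {t : H // orderOf t = 2 ∧
      Nat.card {x : H // x ∈ P ∧ Commute x t} = 1} = 0 := by
    have hle : Nat.card {t : H // orderOf t = 2 ∧
        Nat.card {x : H // x ∈ P ∧ Commute x t} = 1} ≤ sc H 2 := by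
      unfold sc
      let ψ : {t : H // orderOf t = 2 ∧ Nat.card {x : H // x ∈ P ∧ Commute x t} = 1} →
          {t : H // orderOf t = 2} := fun t => ⟨t.1, t.2.1⟩
      have hψ : Function.Injective ψ := by
        intro a b hab
        have h1 : (ψ a).1 = (ψ b).1 := congrArg Subtype.val hab
        exact Subtype.ext h1
      exact Nat.card_le_card_of_injective ψ hψ
    rw [hP, one_mul] at hORB
    rw [h2] at hle
    obtain ⟨k, hk⟩ := hORB
    omega
  -- every involution commutes with some `g ≠ 1` of `P`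
  have hex : ∀ t : {t : H // orderOf t = 2}, ∃ g : H, g ∈ P ∧ g ≠ 1 ∧ Commute g t.1 := by
    intro t
    by_contra hcon
    push Not at hcon
    have h1 : Nat.card {x : H // x ∈ P ∧ Commute x t.1} = 1 := by
      rw [Nat.card_eq_one_iff_unique]
      refine ⟨⟨?_⟩, ⟨⟨1, P.one_mem, Commute.one_left _⟩⟩⟩
      rintro ⟨a, ha1, ha2⟩ ⟨b, hb1, hb2⟩
      apply Subtype.ext
      show a = b
      have ha : a = 1 := by
        by_contra h
        exact hcon a ha1 h ha2
      have hb : b = 1 := by
        by_contra h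
        exact hcon b hb1 h hb2
      rw [ha, hb]
    have hne : Nonempty {t : H // orderOf t = 2 ∧
        Nat.card {x : H // x ∈ P ∧ Commute x t} = 1} := ⟨⟨t.1, t.2, h1⟩⟩
    have hpos : 0 < Nat.card {t : H // orderOf t = 2 ∧
        Nat.card {x : H // x ∈ P ∧ Commute x t} = 1} := Nat.card_pos
    omega
  choose g hgP hg1 hgc using hex
  have hord : ∀ t, orderOf (g t) = 5 := by
    intro t
    have h1 := orderOf_dvd_of_pow_eq_one (hexp (g t) (hgP t))
    rcases (Nat.dvd_prime (by norm_num : Nat.Prime 5)).mp h1 with h | h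
    · exact absurd (orderOf_eq_one_iff.mp h) (hg1 t)
    · exact h
  have hcop : ∀ i : Fin 4, Nat.Coprime 5 (i.1 + 1) := by decide
  let φ : {t : H // orderOf t = 2} × Fin 4 →
      {x : H × H // orderOf x.1 = 2 ∧ orderOf x.2 = 5 ∧ Commute x.1 x.2} :=
    fun ti => ⟨(ti.1.1, g ti.1 ^ (ti.2.1 + 1)), ti.1.2, by
      show orderOf (g ti.1 ^ (ti.2.1 + 1)) = 5
      rw [Nat.Coprime.orderOf_pow (by rw [hord]; exact hcop ti.2), hord], by
      show Commute ti.1.1 (g ti.1 ^ (ti.2.1 + 1))
      exact ((hgc ti.1).symm).pow_right _⟩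
  have hφ : Function.Injective φ := by
    rintro ⟨t, i⟩ ⟨t', j⟩ hij
    have h1 : ((t : H), g t ^ (i.1 + 1)) = ((t' : H), g t' ^ (j.1 + 1)) :=
      congrArg Subtype.val hij
    have h2' : (t : H) = t' := (Prod.ext_iff.mp h1).1
    have h3 : t = t' := Subtype.ext h2'
    subst h3
    have h4 : g t ^ (i.1 + 1) = g t ^ (j.1 + 1) := (Prod.ext_iff.mp h1).2
    rw [pow_inj_mod, hord] at h4
    have hi := i.2
    have hj := j.2
    have h5 : i.1 = j.1 := by omega
    rw [Fin.ext h5]
  have hcard := Nat.card_le_card_of_injective φ hφ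
  rw [Nat.card_prod, Nat.card_eq_fintype_card (α := Fin 4), Fintype.card_fin] at hcard
  have hpair := Cfsg.Agent.Helper20.sc_mul_eq_card_pairs (H := H) (a := 2) (b := 5) (by norm_num)
  have h2' : Nat.card {t : H // orderOf t = 2} = 15 := h2
  have h10' : sc H (2 * 5) ≤ 24 := h10
  rw [hpair] at h10'
  rw [h2'] at hcard
  omega

/-- PIECE NO25 -/
theorem nse_no_25 (P : Subgroup H) (hP : Nat.card P = 25) (hexp : ∀ g ∈ P, g ^ 5 = 1)
    (h5 : sc H 5 = 24) (h2 : sc H 2 = 15) (h10 : sc H 10 ≤ 24) : False :=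
  nse_no_25_core P hP hexp h2 h10 (Cfsg.Agent.Helper80.card_centralizer_class_dvd P 2 1)

end Cfsg.Agent.Helper34
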