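import Mathlib
import Cfsg.Agent.Helper9.OrdTools
import Cfsg.Agent.S0985

/-!
# CALL S0496 (helper27), piece TWO

No simple group has order `2^a * 15` with `a ≥ 4`; in particular none of order 240, 480, 960.
-/

set_option autoImplicit false

namespace Cfsg.Agent.Helper34

open Cfsg.Agent.Helper9

variable {G : Type*} [Group G] [Finite G] [IsSimpleGroup G]

/-- No simple group of order `2^a * 15`, `a ≥ 4`. -/
theorem o1092_two_pow_15 (a : ℕ) (ha : 4 ≤ a) (h : Nat.card G = 2 ^ a * 15) : False := by
  have : Fact (Nat.Prime 2) := ⟨Nat.prime_two⟩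
  have h16 : 16 ≤ 2 ^ a := by
    calc 16 = 2 ^ 4 := by norm_num
      _ ≤ 2 ^ a := Nat.pow_le_pow_right (by norm_num) ha
  have hG240 : 240 ≤ Nat.card G := by rw [h]; omega
  -- a proper subgroup has index `> 5`
  have hidx : ∀ H : Subgroup G, H ≠ ⊤ → 5 < H.index := by
    intro H hH
    by_contra hle
    push Not at hle
    have h1 := OrdTools.card_dvd_factorial_index H hH
    have h2 : (H.index).factorial ∣ (5).factorial := Nat.factorial_dvd_factorial hle
    have h3 := Nat.le_of_dvd (by decide) (h1.trans h2)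
    have h5 : (5).factorial = 120 := by decide
    omega
  have hPc : ∀ P : Sylow 2 G, Nat.card (P : Subgroup G) = 2 ^ a :=
    fun P => OrdTools.sylow_card a 15 h (by norm_num) P
  have hPidx : ∀ P : Sylow 2 G, (P : Subgroup G).index = 15 := by
    intro P
    have h1 := (P : Subgroup G).card_mul_index
    rw [hPc, h] at h1
    exact Nat.eq_of_mul_eq_mul_left (by positivity) h1
  obtain ⟨P0⟩ := (inferInstance : Nonempty (Sylow 2 G))
  obtain ⟨hdvd, -, hne1, -⟩ :=
    OrdTools.sylow_num P0 (by rw [hPc]; omega) (by rw [hPc, h]; omega)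
  rw [hPidx] at hdvd
  -- `n_2 = 15`
  have hn15 : Nat.card (Sylow 2 G) = 15 := by
    have h1 : Nat.card (Sylow 2 G) =
        (Subgroup.normalizer ((P0 : Subgroup G) : Set G)).index :=
      Sylow.card_eq_index_normalizer P0
    have hNtop : Subgroup.normalizer ((P0 : Subgroup G) : Set G) ≠ ⊤ := by
      intro htop
      rw [htop, Subgroup.index_top] at h1
      exact hne1 h1
    have h2 := hidx _ hNtop
    rw [← h1] at h2
    have hle := Nat.le_of_dvd (by norm_num) hdvd
    generalize Nat.card (Sylow 2 G) = n at hdvd h2 hle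
    interval_cases n <;> first | rfl | (exfalso; revert hdvd; decide)
  have hmod4 : ¬ Nat.card (Sylow 2 G) ≡ 1 [MOD 2 ^ 2] := by rw [hn15]; decide
  obtain ⟨P, R, hPR, hle⟩ := Cfsg.Agent.S0985.result 2 2 hmod4
  have hle2 : ((R : Subgroup G).subgroupOf (P : Subgroup G)).index ≤ 2 := by simpa using hle
  -- `D = R ⊓ P`
  have hDP : (R : Subgroup G) ⊓ (P : Subgroup G) ≤ (P : Subgroup G) := inf_le_right
  have hDR : (R : Subgroup G) ⊓ (P : Subgroup G) ≤ (R : Subgroup G) := inf_le_left
  have hcm : Nat.card ↥((R : Subgroup G) ⊓ (P : Subgroup G)) *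
      ((R : Subgroup G).subgroupOf (P : Subgroup G)).index = 2 ^ a := by
    have h1 := ((R : Subgroup G).subgroupOf (P : Subgroup G)).card_mul_index
    rw [hPc, ← Subgroup.inf_subgroupOf_right (R : Subgroup G) (P : Subgroup G),
      Nat.card_congr (Subgroup.subgroupOfEquivOfLe hDP).toEquiv] at h1
    rw [← Subgroup.inf_subgroupOf_right (R : Subgroup G) (P : Subgroup G)]
    exact h1
  have hi2 : ((R : Subgroup G).subgroupOf (P : Subgroup G)).index = 2 := by
    have h0 : ((R : Subgroup G).subgroupOf (P : Subgroup G)).index ≠ 0 := by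
      intro h0
      rw [h0, mul_zero] at hcm
      omega
    have h1 : ((R : Subgroup G).subgroupOf (P : Subgroup G)).index ≠ 1 := by
      intro h1
      rw [h1, mul_one] at hcm
      have hDeqP : (R : Subgroup G) ⊓ (P : Subgroup G) = (P : Subgroup G) :=
        Subgroup.eq_of_le_of_card_ge hDP (by rw [hcm, hPc])
      have hPleR : (P : Subgroup G) ≤ (R : Subgroup G) := by
        rw [← hDeqP]; exact hDR
      have hPeqR : (P : Subgroup G) = (R : Subgroup G) :=
        Subgroup.eq_of_le_of_card_ge hPleR (by rw [hPc, hPc])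
      exact hPR (Sylow.ext hPeqR)
    omega
  rw [hi2] at hcm
  have hPN : (P : Subgroup G) ≤
      Subgroup.normalizer ((((R : Subgroup G) ⊓ (P : Subgroup G) : Subgroup G)) : Set G) :=
    OrdTools.le_normalizer_of_card_two_mul hDP (by rw [hPc]; omega)
  have hRN : (R : Subgroup G) ≤
      Subgroup.normalizer ((((R : Subgroup G) ⊓ (P : Subgroup G) : Subgroup G)) : Set G) :=
    OrdTools.le_normalizer_of_card_two_mul hDR (by rw [hPc]; omega)
  by_cases hNtop : Subgroup.normalizer
      ((((R : Subgroup G) ⊓ (P : Subgroup G) : Subgroup G)) : Set G) = ⊤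
  · -- `D` is normal
    have hnorm : ((R : Subgroup G) ⊓ (P : Subgroup G)).Normal :=
      Subgroup.normalizer_eq_top_iff.mp hNtop
    rcases hnorm.eq_bot_or_eq_top with hbot | htop
    · rw [hbot, Subgroup.card_bot] at hcm
      omega
    · rw [htop, Subgroup.card_top, h] at hcm
      omega
  · have h2 := hidx _ hNtop
    have h3 : (Subgroup.normalizer
        ((((R : Subgroup G) ⊓ (P : Subgroup G) : Subgroup G)) : Set G)).index ∣ 15 := by
      rw [← hPidx P]; exact Subgroup.index_dvd_of_le hPN
    have h4 : (Subgroup.normalizer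
        ((((R : Subgroup G) ⊓ (P : Subgroup G) : Subgroup G)) : Set G)).index = 15 := by
      have hle := Nat.le_of_dvd (by norm_num) h3
      generalize (Subgroup.normalizer
        ((((R : Subgroup G) ⊓ (P : Subgroup G) : Subgroup G)) : Set G)).index = n at h2 h3 hle
      interval_cases n <;> first | rfl | (exfalso; revert h3; decide)
    have h5 := (Subgroup.normalizer
        ((((R : Subgroup G) ⊓ (P : Subgroup G) : Subgroup G)) : Set G)).card_mul_index
    rw [h4, h] at h5
    have h6 : Nat.card ↥(Subgroup.normalizer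
        ((((R : Subgroup G) ⊓ (P : Subgroup G) : Subgroup G)) : Set G)) = 2 ^ a :=
      Nat.eq_of_mul_eq_mul_right (by norm_num) h5
    have hPeq : (P : Subgroup G) = Subgroup.normalizer
        ((((R : Subgroup G) ⊓ (P : Subgroup G) : Subgroup G)) : Set G) :=
      Subgroup.eq_of_le_of_card_ge hPN (by rw [h6, hPc])
    have hReq : (R : Subgroup G) = Subgroup.normalizer
        ((((R : Subgroup G) ⊓ (P : Subgroup G) : Subgroup G)) : Set G) :=
      Subgroup.eq_of_le_of_card_ge hRN (by rw [h6, hPc])
    exact hPR (Sylow.ext (hPeq.trans hReq.symm))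

/-- PIECE TWO -/
theorem no_simple_240 (hG : ¬ IsMulCommutative G) (h : Nat.card G = 240) : False :=
  o1092_two_pow_15 4 (by norm_num) (h.trans (by norm_num))

/-- PIECE TWO -/
theorem no_simple_480 (hG : ¬ IsMulCommutative G) (h : Nat.card G = 480) : False :=
  o1092_two_pow_15 5 (by norm_num) (h.trans (by norm_num))

/-- PIECE TWO -/
theorem no_simple_960 (hG : ¬ IsMulCommutative G) (h : Nat.card G = 960) : False :=
  o1092_two_pow_15 6 (by norm_num) (h.trans (by norm_num))

end Cfsg.Agent.Helper34
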