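import Mathlib
import Cfsg.Prelude.Def_LieExceptional

set_option autoImplicit false

namespace Cfsg.Agent.Helper34

open Cfsg

/-- PIECE ZAS3 of CALL S0508. -/
theorem bswd_zas3 {G : Type*} [Group G] [Finite G] [IsSimpleGroup G] (Q : Subgroup G)
    (hQ : ∀ x ∈ Q, x ≠ 1 → Subgroup.centralizer ({x} : Set G) = Q)
    (hcardN : 2 * Nat.card ↥(Subgroup.normalizer (Q : Set G)) = Nat.card ↥Q * (Nat.card ↥Q - 1))
    (hq : 5 ≤ Nat.card ↥Q)
    (hcardΩ : Nat.card (G ⧸ Subgroup.normalizer (Q : Set G)) = Nat.card ↥Q + 1)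
    (hreg : ∀ y z : G ⧸ Subgroup.normalizer (Q : Set G), y ≠ QuotientGroup.mk 1 →
      z ≠ QuotientGroup.mk 1 → ∃! u : Q, (u : G) • y = z)
    (h2 : MulAction.IsMultiplyPretransitive G (G ⧸ Subgroup.normalizer (Q : Set G)) 2) :
    Cfsg.IsZassenhausGroup G (G ⧸ Subgroup.normalizer (Q : Set G)) := by
  classical
  set N : Subgroup G := Subgroup.normalizer (Q : Set G) with hNdef
  set x0 : G ⧸ N := QuotientGroup.mk 1 with hx0
  have hstab : ∀ g : G, g • x0 = x0 ↔ g ∈ N := by
    intro g
    have h := MulAction.stabilizer_quotient N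
    constructor
    · intro hg
      have : g ∈ MulAction.stabilizer G ((1 : G) : G ⧸ N) := hg
      rwa [h] at this
    · intro hg
      have : g ∈ MulAction.stabilizer G ((1 : G) : G ⧸ N) := by rw [h]; exact hg
      exact this
  have hQN : Q ≤ N := Subgroup.le_normalizer
  have hfin : Finite (G ⧸ N) := inferInstance
  -- a point different from x0
  have hex1 : ∃ x1 : G ⧸ N, x1 ≠ x0 := by
    by_contra hcon
    push Not at hcon
    have : Nat.card (G ⧸ N) ≤ 1 := by
      rw [Finite.card_le_one_iff_subsingleton]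
      exact ⟨fun a b => by rw [hcon a, hcon b]⟩
    omega
  obtain ⟨x1, hx1⟩ := hex1
  -- a non-identity element of Q
  have hexu : ∃ u : G, u ∈ Q ∧ u ≠ 1 := by
    by_contra hcon
    push Not at hcon
    have : Nat.card Q ≤ 1 := by
      rw [Finite.card_le_one_iff_subsingleton]
      exact ⟨fun a b => Subtype.ext (by rw [hcon a a.2, hcon b b.2])⟩
    omega
  obtain ⟨u0, hu0Q, hu01⟩ := hexu
  refine ⟨?_, h2, ?_, ?_, ?_⟩
  · -- faithful
    constructor
    intro g₁ g₂ h
    have hker : (MulAction.toPermHom G (G ⧸ N)).ker = ⊥ := by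
      rcases (MulAction.toPermHom G (G ⧸ N)).normal_ker.eq_bot_or_eq_top with h0 | h0
      · exact h0
      · exfalso
        obtain ⟨g, hg⟩ := MulAction.exists_smul_eq G x0 x1
        have hgk : g ∈ (MulAction.toPermHom G (G ⧸ N)).ker := by rw [h0]; trivial
        rw [MonoidHom.mem_ker] at hgk
        have : g • x0 = x0 := by
          have := congrArg (fun σ : Equiv.Perm (G ⧸ N) => σ x0) hgk
          simpa using this
        exact hx1 (hg ▸ this)
    have hinj : Function.Injective (MulAction.toPermHom G (G ⧸ N)) :=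
      (MonoidHom.ker_eq_bot_iff _).mp hker
    apply hinj
    ext a
    simpa using h a
  · -- three points
    intro g a b c hab hbc hac hga hgb hgc
    obtain ⟨h, hh⟩ := MulAction.exists_smul_eq G a x0
    set g' : G := h * g * h⁻¹ with hg'
    have hfix : ∀ y : G ⧸ N, g • y = y → g' • (h • y) = h • y := by
      intro y hy
      rw [hg', mul_smul, mul_smul, inv_smul_smul, hy]
    have hg'0 : g' • x0 = x0 := by rw [← hh]; exact hfix a hga
    have hg'N : g' ∈ N := (hstab g').mp hg'0
    have hb0 : h • b ≠ x0 := by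
      rw [← hh]; intro hcon; exact hab ((MulAction.injective h hcon).symm)
    have hc0 : h • c ≠ x0 := by
      rw [← hh]; intro hcon; exact hac ((MulAction.injective h hcon).symm)
    have hbc' : h • b ≠ h • c := fun hcon => hbc (MulAction.injective h hcon)
    obtain ⟨u, hu, huniq⟩ := hreg (h • b) (h • c) hb0 hc0
    have hu1 : (u : G) ≠ 1 := by
      intro hcon
      rw [hcon, one_smul] at hu
      exact hbc' hu
    have hconjQ : g' * (u : G) * g'⁻¹ ∈ Q := (Subgroup.mem_normalizer_iff.mp hg'N (u : G)).mp u.2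
    have hconj : (g' * (u : G) * g'⁻¹) • (h • b) = h • c := by
      rw [mul_smul, mul_smul]
      have : g'⁻¹ • (h • b) = h • b := by
        rw [inv_smul_eq_iff]; exact (hfix b hgb).symm
      rw [this, hu]
      exact hfix c hgc
    have heq : (⟨g' * (u : G) * g'⁻¹, hconjQ⟩ : Q) = u := huniq ⟨_, hconjQ⟩ hconj
    have heq' : g' * (u : G) * g'⁻¹ = (u : G) := congrArg Subtype.val heq
    have hg'C : g' ∈ Subgroup.centralizer ({(u : G)} : Set G) := by
      rw [Subgroup.mem_centralizer_iff]
      intro x hx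
      rw [Set.mem_singleton_iff] at hx
      rw [hx]
      have := heq'
      rw [mul_inv_eq_iff_eq_mul] at this
      exact this.symm
    rw [hQ (u : G) u.2 hu1] at hg'C
    obtain ⟨v, hv, hvuniq⟩ := hreg (h • b) (h • b) hb0 hb0
    have e1 : (⟨g', hg'C⟩ : Q) = v := hvuniq ⟨g', hg'C⟩ (hfix b hgb)
    have e2 : (1 : Q) = v := hvuniq 1 (by simp)
    have hg'1 : g' = 1 := by
      have := e1.trans e2.symm
      exact congrArg Subtype.val this
    have : g = h⁻¹ * g' * h := by rw [hg']; group
    rw [this, hg'1]; group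
  · -- two points
    have hexd : ∃ d : G, d ∈ N ∧ d ∉ Q := by
      by_contra hcon
      push Not at hcon
      have hle : N ≤ Q := hcon
      have hcard : Nat.card N ≤ Nat.card Q := Nat.card_le_card_of_injective (Subgroup.inclusion hle)
        (Subgroup.inclusion_injective hle)
      have h3 : 3 ≤ Nat.card Q - 1 := by omega
      have : Nat.card Q * 3 ≤ Nat.card Q * (Nat.card Q - 1) := Nat.mul_le_mul_left _ h3
      omega
    obtain ⟨d, hdN, hdQ⟩ := hexd
    have hd0 : d • x0 = x0 := (hstab d).mpr hdN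
    have hdx1 : d • x1 ≠ x0 := by
      intro hcon
      rw [← hd0] at hcon
      exact hx1 (MulAction.injective d hcon)
    obtain ⟨u, hu, -⟩ := hreg (d • x1) x1 hdx1 hx1
    refine ⟨(u : G) * d, ?_, x0, x1, hx1.symm, ?_, ?_⟩
    · intro hcon
      have : d = (u : G)⁻¹ := eq_inv_of_mul_eq_one_right hcon
      exact hdQ (this ▸ Q.inv_mem u.2)
    · rw [mul_smul, hd0]
      exact (hstab _).mpr (hQN u.2)
    · rw [mul_smul]; exact hu
  · -- normal subgroups
    intro N' hN' htr
    rcases hN'.eq_bot_or_eq_top with h0 | h0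
    · exfalso
      obtain ⟨g, hg⟩ := htr.exists_smul_eq x0 x1
      have hg1 : (g : G) = 1 := by
        have hgm : (g : G) ∈ (⊥ : Subgroup G) := h0 ▸ g.2
        exact Subgroup.mem_bot.mp hgm
      have : (g : G) • x0 = x1 := hg
      rw [hg1, one_smul] at this
      exact hx1 this.symm
    · refine ⟨x0, ?_⟩
      intro hcon
      have hmem : (⟨u0, by rw [h0]; trivial⟩ : N') ∈ (⊥ : Subgroup N') := by
        rw [← hcon, MulAction.mem_stabilizer_iff]
        exact (hstab u0).mpr (hQN hu0Q)
      rw [Subgroup.mem_bot] at hmem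
      exact hu01 (congrArg Subtype.val hmem)

end Cfsg.Agent.Helper34
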