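import Mathlib
import Cfsg.Prelude.Def_GeometricClasses
import Cfsg.Prelude.Def_ClassicalGeometry
import Cfsg.Agent.Helper13.TIBad
import Cfsg.Agent.Helper70.TISCAL

set_option autoImplicit false

namespace Cfsg.Agent.Helper34

open Matrix Module

/-- PIECE ODD (BRIDGE is a hypothesis; uses Helper13 bad_ab, Helper70 sp_nonscalar) -/
theorem c3e_odd {F : Type*} [Field F] [Fintype F] (p : ℕ) [Fact p.Prime] [CharP F p] (r : ℕ)
    [Fact r.Prime] (hr2 : 2 < r) (hrp : r ≠ p) (i c : ℕ)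
    (hi : i = orderOf ((Fintype.card F : ℕ) : ZMod r)) (hc : c = if Even i then i else 2 * i)
    (d e' : ℕ) (hd : 1 ≤ d) (hdim : 2 * d = c + 2 * e')
    (hb : ∀ g : Matrix.symplecticGroup (Fin d) F, ∃ G : GL (Fin d ⊕ Fin d) F,
      G ∈ Cfsg.spGL d F ∧ (G : Matrix (Fin d ⊕ Fin d) (Fin d ⊕ Fin d) F) = g.1) :
    ∃ x : GL (Fin d ⊕ Fin d) F, x ∈ Cfsg.spGL d F ∧
      ((x ^ r : GL (Fin d ⊕ Fin d) F) : Matrix (Fin d ⊕ Fin d) (Fin d ⊕ Fin d) F) = 1 ∧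
      (∀ z : F, (x : Matrix (Fin d ⊕ Fin d) (Fin d ⊕ Fin d) F) ≠ z • 1) ∧
      Module.finrank F (LinearMap.ker
        (Matrix.toLin' (x : Matrix (Fin d ⊕ Fin d) (Fin d ⊕ Fin d) F) - 1)) = 2 * e' := by
  classical
  obtain ⟨g, hg1, hg2, hg3⟩ := Cfsg.Agent.Helper13.TIsp.bad_ab F p r hr2 hrp i c hi hc d 1 e'
    le_rfl (by omega)
  obtain ⟨G, hGmem, hGeq⟩ := hb g
  have hodd : Odd r := (Fact.out : r.Prime).odd_of_ne_two (by omega)
  refine ⟨G, hGmem, ?_, ?_, ?_⟩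
  · rw [Units.val_pow_eq_pow_val, hGeq]
    have h3 : Cfsg.Agent.Helper42.SpGroup.toEnd (g ^ r)
        = Cfsg.Agent.Helper42.SpGroup.toEnd (1 : Matrix.symplecticGroup (Fin d) F) := by
      rw [Cfsg.Agent.Helper42.SpGroup.toEnd_pow, hg1, Cfsg.Agent.Helper42.SpGroup.toEnd_one]
    have h4 := Cfsg.Agent.Helper42.SpGroup.toEnd_injective h3
    have h5 := congrArg (fun y : Matrix.symplecticGroup (Fin d) F =>
      (y : Matrix (Fin d ⊕ Fin d) (Fin d ⊕ Fin d) F)) h4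
    simpa using h5
  · intro z hz
    exact Cfsg.Agent.Helper70.TI5955.sp_nonscalar d hd r hodd g hg1 hg2 z (by rw [← hGeq]; exact hz)
  · rw [hGeq]
    exact hg3

end Cfsg.Agent.Helper34
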