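import Mathlib
import Cfsg.Prelude.Def_GeometricClasses
import Cfsg.Prelude.Def_ClassicalGeometry
import Cfsg.Agent.Helper94.SpGen

set_option autoImplicit false

namespace Cfsg.Agent.Helper34

open Matrix Module

/-- PIECE TV -/
theorem c3e_tv {F : Type*} [Field F] (p : ℕ) [Fact p.Prime] [CharP F p] (d : ℕ) (hd : 1 ≤ d) :
    ∃ t : GL (Fin d ⊕ Fin d) F, t ∈ Cfsg.spGL d F ∧
      ((t ^ p : GL (Fin d ⊕ Fin d) F) : Matrix (Fin d ⊕ Fin d) (Fin d ⊕ Fin d) F) = 1 ∧
      (∀ z : F, (t : Matrix (Fin d ⊕ Fin d) (Fin d ⊕ Fin d) F) ≠ z • 1) ∧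
      Module.finrank F (LinearMap.ker
        (Matrix.toLin' (t : Matrix (Fin d ⊕ Fin d) (Fin d ⊕ Fin d) F) - 1)) = 2 * d - 1 := by
  classical
  let i0 : Fin d := ⟨0, hd⟩
  set u : Fin d ⊕ Fin d → F := Pi.single (Sum.inl i0) 1 with hu
  set v : Fin d ⊕ Fin d → F := Pi.single (Sum.inr i0) 1 with hv
  have hu0 : u ≠ 0 := by
    intro h
    have h1 := congrFun h (Sum.inl i0)
    simp [hu] at h1
  have hvu : Cfsg.sympForm d F v u = 1 := by
    rw [Helper94.symp_explicit]
    simp [hu, hv, Pi.single_apply]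
  have huu : Cfsg.sympForm d F u u = 0 := Helper94.symp_self u
  set t : GL (Fin d ⊕ Fin d) F := Helper94.stGL u 1 with ht
  have hpow : ∀ n : ℕ, t ^ n = Helper94.stGL u (n : F) := by
    intro n
    induction n with
    | zero =>
      apply Helper94.gl_ext
      intro x
      rw [pow_zero, Helper94.stGL_mulVec]
      simp
    | succ n ih =>
      apply Helper94.gl_ext
      intro x
      rw [pow_succ, ih, Helper94.gl_mul_mulVec, ht, Helper94.stGL_mulVec, Helper94.stGL_mulVec,
        Helper94.stGL_mulVec, Helper94.sf_add_left, Helper94.sf_smul_left, huu]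
      push_cast
      module
  refine ⟨t, Helper94.stGL_mem u 1, ?_, ?_, ?_⟩
  · rw [hpow p, CharP.cast_eq_zero]
    have h1 : Helper94.stGL u (0 : F) = 1 := by
      apply Helper94.gl_ext
      intro x
      rw [Helper94.stGL_mulVec]
      simp
    rw [h1, Units.val_one]
  · intro z hz
    have h1 := congrArg (fun M => M *ᵥ u) hz
    simp only [ht, Helper94.stGL_mulVec, huu, mul_zero, zero_smul, add_zero, Matrix.smul_mulVec,
      Matrix.one_mulVec] at h1
    have hz1 : z = 1 := by
      have h2 := congrFun h1 (Sum.inl i0)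
      simp [hu] at h2
      exact h2.symm
    have h3 := congrArg (fun M => M *ᵥ v) hz
    simp only [ht, Helper94.stGL_mulVec, hvu, hz1, one_smul, Matrix.one_mulVec, mul_one] at h3
    exact hu0 (by simpa using h3)
  · set φ : (Fin d ⊕ Fin d → F) →ₗ[F] F := (Helper94.sympB d F).flip u with hφ
    have hφx : ∀ x, φ x = Cfsg.sympForm d F x u := fun x => by
      rw [hφ, LinearMap.flip_apply, Helper94.sympB_apply]
    have hφ0 : φ ≠ 0 := by
      intro h
      have h1 := hφx v
      rw [h, hvu] at h1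
      simp at h1
    have hker : LinearMap.ker
        (Matrix.toLin' (t : Matrix (Fin d ⊕ Fin d) (Fin d ⊕ Fin d) F) - 1) = LinearMap.ker φ := by
      ext x
      rw [LinearMap.mem_ker, LinearMap.mem_ker, LinearMap.sub_apply, Matrix.toLin'_apply, ht,
        Helper94.stGL_mulVec, hφx]
      simp [hu0]
    rw [hker]
    have h1 := Module.Dual.finrank_ker_add_one_of_ne_zero hφ0
    have h2 : Module.finrank F (Fin d ⊕ Fin d → F) = 2 * d := by
      rw [Module.finrank_fintype_fun_eq_card]
      simp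
      ring
    omega

end Cfsg.Agent.Helper34
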