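/-
Helper34 library: piece P4 ("Lemma W") of CALL S4460 (helper15, Isaacs 12.15).
Everything lives in `namespace Cfsg.Agent.Helper34`.
-/
import Mathlib
import Cfsg.Prelude.Def_Characters
import Cfsg.Agent.Helper75.ConjFun

set_option autoImplicit false

namespace Cfsg.Agent.Helper34

open Cfsg

universe u

/-- the conjugate `μ^g : x ↦ μ (g x g⁻¹)` of a linear character of a normal subgroup -/
noncomputable def lwCj {G : Type u} [Group G] (N : Subgroup G) [hN : N.Normal] (g : G)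
    (μ : N →* ℂˣ) : N →* ℂˣ where
  toFun x := μ ⟨g * x * g⁻¹, hN.conj_mem x x.2 g⟩
  map_one' := by
    have : (⟨g * ((1 : N) : G) * g⁻¹, hN.conj_mem _ (1 : N).2 g⟩ : N) = 1 := by
      apply Subtype.ext; simp
    rw [this, map_one]
  map_mul' x y := by
    rw [← map_mul]
    congr 1
    apply Subtype.ext
    simp [mul_assoc]

theorem lwCj_apply {G : Type u} [Group G] (N : Subgroup G) [hN : N.Normal] (g : G)
    (μ : N →* ℂˣ) (x : N) : lwCj N g μ x = μ ⟨g * x * g⁻¹, hN.conj_mem x x.2 g⟩ := rfl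

/-- FACT 1 of Lemma W: if `g ∉ N` fixes `ψ` and `ψ·ν`, then `ψ·ν = ψ`. -/
theorem lw_fact1 {G : Type u} [Group G] [Finite G] (N K : Subgroup G) [hN : N.Normal]
    [hK : K.Normal]
    (hfpf : ∀ g : G, g ∉ N → ∀ μ : N →* ℂˣ, (∀ x : N, (x : G) ∈ K → μ x = 1) →
      Helper75.conjFun N g (fun x => ((μ x : ℂˣ) : ℂ)) = (fun x => ((μ x : ℂˣ) : ℂ)) → μ = 1)
    (ψ : N → ℂ) (g : G) (hg : g ∉ N) (hgψ : Helper75.conjFun N g ψ = ψ)
    (ν : N →* ℂˣ) (hν : ∀ x : N, (x : G) ∈ K → ν x = 1)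
    (hgν : Helper75.conjFun N g (fun x => ψ x * ((ν x : ℂˣ) : ℂ)) =
      fun x => ψ x * ((ν x : ℂˣ) : ℂ)) :
    ∀ x : N, ψ x * ((ν x : ℂˣ) : ℂ) = ψ x := by
  classical
  have hψg : ∀ x : N, ψ ⟨g * x * g⁻¹, hN.conj_mem x x.2 g⟩ = ψ x := fun x => congrFun hgψ x
  have hνg : ∀ x : N, ψ x * ((ν ⟨g * x * g⁻¹, hN.conj_mem x x.2 g⟩ : ℂˣ) : ℂ) =
      ψ x * ((ν x : ℂˣ) : ℂ) := by
    intro x
    have h := congrFun hgν x
    simp only [Helper75.conjFun_apply] at h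
    rw [hψg x] at h
    exact h
  -- the key injectivity
  have hinj : ∀ μ₁ μ₂ : N →* ℂˣ, (∀ x : N, (x : G) ∈ K → μ₁ x = 1) →
      (∀ x : N, (x : G) ∈ K → μ₂ x = 1) →
      lwCj N g μ₁ * μ₁⁻¹ = lwCj N g μ₂ * μ₂⁻¹ → μ₁ = μ₂ := by
    intro μ₁ μ₂ h1 h2 h
    have hpt : ∀ x : N, (μ₁ * μ₂⁻¹) ⟨g * x * g⁻¹, hN.conj_mem x x.2 g⟩ = (μ₁ * μ₂⁻¹) x := by
      intro x
      have hx := DFunLike.congr_fun h x
      simp only [MonoidHom.mul_apply, MonoidHom.inv_apply, lwCj_apply] at hx ⊢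
      set A := μ₁ ⟨g * x * g⁻¹, hN.conj_mem x x.2 g⟩
      set B := μ₁ x
      set C := μ₂ ⟨g * x * g⁻¹, hN.conj_mem x x.2 g⟩
      set D := μ₂ x
      have hA : A = C * D⁻¹ * B := by rw [← hx]; simp
      rw [hA]
      calc C * D⁻¹ * B * C⁻¹ = (C * C⁻¹) * (B * D⁻¹) := by ac_rfl
        _ = B * D⁻¹ := by rw [mul_inv_cancel, one_mul]
    have h3 := hfpf g hg (μ₁ * μ₂⁻¹)
      (by intro x hx; rw [MonoidHom.mul_apply, MonoidHom.inv_apply, h1 x hx, h2 x hx]; simp)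
      (by
        funext x
        rw [Helper75.conjFun_apply]
        exact congrArg Units.val (hpt x))
    exact mul_inv_eq_one.mp h3
  let U : Subgroup (N →* ℂˣ) :=
    { carrier := {μ | (∀ x : N, (x : G) ∈ K → μ x = 1) ∧
        ∀ x : N, ψ x * ((μ x : ℂˣ) : ℂ) = ψ x}
      one_mem' := ⟨fun x _ => rfl, fun x => by simp⟩
      mul_mem' := by
        rintro a b ⟨ha1, ha2⟩ ⟨hb1, hb2⟩
        refine ⟨fun x hx => by rw [MonoidHom.mul_apply, ha1 x hx, hb1 x hx, one_mul], fun x => ?_⟩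
        rw [MonoidHom.mul_apply, Units.val_mul, ← mul_assoc, ha2 x, hb2 x]
      inv_mem' := by
        rintro a ⟨ha1, ha2⟩
        refine ⟨fun x hx => by rw [MonoidHom.inv_apply, ha1 x hx, inv_one], fun x => ?_⟩
        rw [MonoidHom.inv_apply]
        have h := ha2 x
        calc ψ x * (((a x)⁻¹ : ℂˣ) : ℂ)
            = (ψ x * ((a x : ℂˣ) : ℂ)) * (((a x)⁻¹ : ℂˣ) : ℂ) := by rw [h]
          _ = ψ x := by rw [mul_assoc, ← Units.val_mul, mul_inv_cancel, Units.val_one, mul_one] }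
  have hUmem : ∀ μ : N →* ℂˣ, μ ∈ U ↔ ((∀ x : N, (x : G) ∈ K → μ x = 1) ∧
        ∀ x : N, ψ x * ((μ x : ℂˣ) : ℂ) = ψ x) := fun μ => Iff.rfl
  have hcjU : ∀ u : N →* ℂˣ, u ∈ U → lwCj N g u * u⁻¹ ∈ U := by
    intro u hu
    apply U.mul_mem _ (U.inv_mem hu)
    rw [hUmem] at hu ⊢
    refine ⟨fun x hx => ?_, fun x => ?_⟩
    · rw [lwCj_apply]
      exact hu.1 _ (hK.conj_mem (x : G) hx g)
    · rw [lwCj_apply]
      have h := hu.2 ⟨g * x * g⁻¹, hN.conj_mem x x.2 g⟩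
      rw [hψg x] at h
      exact h
  have hνU : lwCj N g ν * ν⁻¹ ∈ U := by
    rw [hUmem]
    refine ⟨fun x hx => ?_, fun x => ?_⟩
    · rw [MonoidHom.mul_apply, MonoidHom.inv_apply, hν x hx, lwCj_apply,
        hν _ (hK.conj_mem (x : G) hx g)]
      simp
    · rw [MonoidHom.mul_apply, MonoidHom.inv_apply, Units.val_mul, ← mul_assoc, lwCj_apply,
        hνg x, mul_assoc, ← Units.val_mul, mul_inv_cancel, Units.val_one, mul_one]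
  let f : U → U := fun u => ⟨lwCj N g (u : N →* ℂˣ) * (u : N →* ℂˣ)⁻¹, hcjU u u.2⟩
  have hfinj : Function.Injective f := by
    intro a b hab
    apply Subtype.ext
    exact hinj a b ((hUmem _).mp a.2).1 ((hUmem _).mp b.2).1 (congrArg Subtype.val hab)
  have hfsurj : Function.Surjective f := Finite.injective_iff_surjective.mp hfinj
  obtain ⟨u, hu⟩ := hfsurj ⟨_, hνU⟩
  have huν : (u : N →* ℂˣ) = ν := hinj u ν ((hUmem _).mp u.2).1 hν (congrArg Subtype.val hu)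
  intro x
  rw [← huν]
  exact ((hUmem _).mp u.2).2 x

/-- P4. "Lemma W". -/
theorem cd3_lemmaW {G : Type u} [Group G] [Finite G] (N K : Subgroup G) [N.Normal] [K.Normal]
    (hKN : K ≤ N) (hab : ∀ x y : G, x * y * x⁻¹ * y⁻¹ ∈ N)
    (hfpf : ∀ g : G, g ∉ N → ∀ μ : N →* ℂˣ, (∀ x : N, (x : G) ∈ K → μ x = 1) →
      Helper75.conjFun N g (fun x => ((μ x : ℂˣ) : ℂ)) = (fun x => ((μ x : ℂˣ) : ℂ)) → μ = 1)
    (ψ : N → ℂ) (hψ : IsClassFunction N ψ)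
    (hfix : ∀ μ : N →* ℂˣ, (∀ x : N, (x : G) ∈ K → μ x = 1) →
      ∃ g : G, g ∉ N ∧ Helper75.conjFun N g (fun x => ψ x * ((μ x : ℂˣ) : ℂ)) =
        fun x => ψ x * ((μ x : ℂˣ) : ℂ))
    (μ : N →* ℂˣ) (hμ : ∀ x : N, (x : G) ∈ K → μ x = 1) (x : N) :
    ψ x * ((μ x : ℂˣ) : ℂ) = ψ x := by
  have hN : N.Normal := inferInstance
  have hK : K.Normal := inferInstance
  -- g₁ fixes ψ
  obtain ⟨g₁, hg₁N, hg₁⟩ := hfix 1 (fun x _ => rfl)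
  have hg₁ψ : Helper75.conjFun N g₁ ψ = ψ := by
    have e : (fun x : N => ψ x * (((1 : N →* ℂˣ) x : ℂˣ) : ℂ)) = ψ := by
      funext x; simp
    rw [e] at hg₁
    exact hg₁
  -- g₂ fixes ψ·μ
  obtain ⟨g₂, hg₂N, hg₂⟩ := hfix μ hμ
  have hg₂pt : ∀ y : N, ψ ⟨g₂ * y * g₂⁻¹, hN.conj_mem y y.2 g₂⟩ *
      ((μ ⟨g₂ * y * g₂⁻¹, hN.conj_mem y y.2 g₂⟩ : ℂˣ) : ℂ) = ψ y * ((μ y : ℂˣ) : ℂ) :=
    fun y => congrFun hg₂ y
  -- ν := μ * (μ^g₂)⁻¹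
  set ν : N →* ℂˣ := μ * (lwCj N g₂ μ)⁻¹ with hνdef
  have hνK : ∀ y : N, (y : G) ∈ K → ν y = 1 := by
    intro y hy
    rw [hνdef, MonoidHom.mul_apply, MonoidHom.inv_apply, lwCj_apply, hμ y hy,
      hμ _ (hK.conj_mem (y : G) hy g₂)]
    simp
  have hψg₂ : Helper75.conjFun N g₂ ψ = fun y => ψ y * ((ν y : ℂˣ) : ℂ) := by
    funext y
    have key : ∀ (a : ℂ) (b : ℂˣ), a = a * (b : ℂ) * ((b⁻¹ : ℂˣ) : ℂ) := by
      intro a b
      rw [mul_assoc, ← Units.val_mul, mul_inv_cancel, Units.val_one, mul_one]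
    rw [Helper75.conjFun_apply, hνdef, MonoidHom.mul_apply, MonoidHom.inv_apply, lwCj_apply,
      Units.val_mul, ← mul_assoc, ← hg₂pt y]
    exact key _ _
  -- g₁ fixes ψ^g₂
  have hg₁fix : Helper75.conjFun N g₁ (Helper75.conjFun N g₂ ψ) = Helper75.conjFun N g₂ ψ := by
    funext y
    rw [Helper75.conjFun_apply, Helper75.conjFun_apply, Helper75.conjFun_apply]
    have h1 : ψ ⟨g₂ * y * g₂⁻¹, hN.conj_mem y y.2 g₂⟩ =
        ψ ⟨g₁ * (g₂ * y * g₂⁻¹) * g₁⁻¹, hN.conj_mem _ (hN.conj_mem y y.2 g₂) g₁⟩ :=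
      (congrFun hg₁ψ ⟨g₂ * y * g₂⁻¹, hN.conj_mem y y.2 g₂⟩).symm
    rw [h1]
    set n : N := ⟨g₂ * g₁ * g₂⁻¹ * g₁⁻¹, hab g₂ g₁⟩ with hn
    have h2 := hψ ⟨g₁ * (g₂ * y * g₂⁻¹) * g₁⁻¹, hN.conj_mem _ (hN.conj_mem y y.2 g₂) g₁⟩ n
    rw [← h2]
    congr 1
    apply Subtype.ext
    simp only [Subgroup.coe_mul, Subgroup.coe_inv, hn]
    group
  have hg₁ν : Helper75.conjFun N g₁ (fun y => ψ y * ((ν y : ℂˣ) : ℂ)) =
      fun y => ψ y * ((ν y : ℂˣ) : ℂ) := by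
    rw [← hψg₂]; exact hg₁fix
  have hψν := lw_fact1 N K hfpf ψ g₁ hg₁N hg₁ψ ν hνK hg₁ν
  have hg₂ψ : Helper75.conjFun N g₂ ψ = ψ := by
    rw [hψg₂]; funext y; exact hψν y
  exact lw_fact1 N K hfpf ψ g₂ hg₂N hg₂ψ μ hμ hg₂ x

end Cfsg.Agent.Helper34
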