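-- helper34, CALL S3795 piece GRP (helper63): the three-layer linear statement implies the
-- three-layer group statement (translation via the module of additive functions on `V`).
import Cfsg.Agent.Helper63.Gross2Defs

set_option autoImplicit false

namespace Cfsg.Agent.Helper34

open Cfsg.Agent.Helper63.Gross2
open Module Cfsg.Agent.Helper63.ProjRep Cfsg.Agent.Helper63.Shult
  Cfsg.Agent.Helper63.AddCharRep Cfsg.Agent.Helper63 Cfsg.Agent.Helper63.Gross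

universe u

/-- PIECE GRP of CALL S3795. -/
theorem group_of_lin (HL : LinStmt.{u}) : GroupStmt.{u} := by
  intro G _ _ ℓ q r hℓ hq hr hℓ2 hq2 hr2 hℓq hqr σ n hσ hfpf Q R V hVc hVe hQV hRV hQp hRp hRQ
    hσQ hσR hσV
  have : Fact ℓ.Prime := ⟨hℓ⟩
  have hcomm : ∀ a b : ↥V, a * b = b * a := fun a b => Subtype.ext (hVc a a.2 b b.2)
  have hexp : ∀ a : ↥V, a ^ ℓ = 1 := by
    intro a
    apply Subtype.ext
    rw [Subgroup.coe_pow]
    exact hVe a a.2
  obtain ⟨K, _, _, _, hK⟩ : ∃ (K : Type) (_ : Field K) (_ : IsAlgClosed K) (_ : CharP K ℓ),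
      True := ⟨AlgebraicClosure (ZMod ℓ), inferInstance, inferInstance, inferInstance, trivial⟩
  have hqK : (q : K) ≠ 0 := by
    intro h
    have h1 := (CharP.cast_eq_zero_iff K ℓ q).mp h
    exact hℓq ((Nat.prime_dvd_prime_iff_eq hℓ hq).mp h1)
  have h2K : (2 : K) ≠ 0 := by
    intro h
    have h0 : ((2 : ℕ) : K) = 0 := by
      rw [Nat.cast_ofNat]
      exact h
    have h1 := (CharP.cast_eq_zero_iff K ℓ 2).mp h0
    exact hℓ2 ((Nat.prime_dvd_prime_iff_eq hℓ Nat.prime_two).mp h1)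
  have hσVs := symm_mem_of_finite σ V hσV
  -- the operator induced by `σ`
  obtain ⟨τm, hτm⟩ : ∃ τm : ↥V →* ↥V, ∀ a, ((τm a : ↥V) : G) = σ.symm a :=
    ⟨(σ.symm.toMonoidHom.comp V.subtype).codRestrict V (fun a => hσVs a a.2), fun a => rfl⟩
  obtain ⟨τp, hτp⟩ : ∃ τp : ↥V →* ↥V, ∀ a, ((τp a : ↥V) : G) = σ a :=
    ⟨(σ.toMonoidHom.comp V.subtype).codRestrict V (fun a => hσV a a.2), fun a => rfl⟩
  have hτpm : ∀ a, τp (τm a) = a := by
    intro a
    apply Subtype.ext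
    rw [hτp, hτm, MulEquiv.apply_symm_apply]
  have hτmp : ∀ a, τm (τp a) = a := by
    intro a
    apply Subtype.ext
    rw [hτm, hτp, MulEquiv.symm_apply_apply]
  obtain ⟨ξ, hξdef⟩ : ∃ ξ : Module.End K ↥(addChar V K), ξ = pullOp V K τm := ⟨_, rfl⟩
  obtain ⟨ξi, hξidef⟩ : ∃ ξi : Module.End K ↥(addChar V K), ξi = pullOp V K τp := ⟨_, rfl⟩
  have hξval : ∀ (f : ↥(addChar V K)) (a : ↥V),
      ((ξ f : ↥(addChar V K)) : ↥V → K) a = (f : ↥V → K) (τm a) := by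
    intro f a
    rw [hξdef]
    rfl
  have hξival : ∀ (f : ↥(addChar V K)) (a : ↥V),
      ((ξi f : ↥(addChar V K)) : ↥V → K) a = (f : ↥V → K) (τp a) := by
    intro f a
    rw [hξidef]
    rfl
  have hξ : ξ * ξi = 1 := by
    apply LinearMap.ext
    intro f
    apply Subtype.ext
    funext a
    rw [Module.End.mul_apply, hξval, hξival, hτpm]
    rfl
  have hξ' : ξi * ξ = 1 := by
    apply LinearMap.ext
    intro f
    apply Subtype.ext
    funext a
    rw [Module.End.mul_apply, hξival, hξval, hτmp]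
    rfl
  have hξk : ∀ (k : ℕ) (f : ↥(addChar V K)) (a b : ↥V), (b : G) = ((σ⁻¹) ^ k) (a : G) →
      (((ξ ^ k) f : ↥(addChar V K)) : ↥V → K) a = (f : ↥V → K) b := by
    intro k
    induction k with
    | zero =>
      intro f a b hb
      have hab : b = a := by
        apply Subtype.ext
        rw [hb, pow_zero, MulAut.one_apply]
      rw [hab, pow_zero, Module.End.one_apply]
    | succ k ih =>
      intro f a b hb
      rw [pow_succ' ξ, Module.End.mul_apply, hξval]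
      apply ih
      rw [hb, hτm, pow_succ, MulAut.mul_apply]
      rfl
  have hξN : ξ ^ 2 ^ (n + 1) = 1 := by
    apply LinearMap.ext
    intro f
    apply Subtype.ext
    funext a
    rw [hξk (2 ^ (n + 1)) f a a (by rw [inv_pow, hσ, inv_one, MulAut.one_apply])]
    rfl
  have hfixξ : ∀ f : ↥(addChar V K), ξ f = f → f = 0 := by
    intro f hf
    have hf' : ∀ a : ↥V, (f : ↥V → K) (τm a) = (f : ↥V → K) a := by
      intro a
      rw [← hξval, hf]
    apply Subtype.ext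
    funext c
    obtain ⟨y, hy, hcy⟩ := Fpf4.fpf_surj_on σ.toMonoidHom hfpf V hσV c c.2
    have h1 : c = (⟨y, hy⟩ : ↥V)⁻¹ * τp ⟨y, hy⟩ := by
      apply Subtype.ext
      rw [Subgroup.coe_mul, Subgroup.coe_inv, hτp]
      exact hcy
    have h2 := hf' (τp ⟨y, hy⟩)
    rw [hτmp] at h2
    show (f : ↥V → K) c = 0
    rw [h1, f.2, addChar_inv, ← h2, neg_add_cancel]
  -- the linear group
  obtain ⟨xu, hxuval, hxuinv⟩ : ∃ xu : (Module.End K ↥(addChar V K))ˣ,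
      (xu : Module.End K ↥(addChar V K)) = ξ ∧
      ((xu⁻¹ : (Module.End K ↥(addChar V K))ˣ) : Module.End K ↥(addChar V K)) = ξi :=
    ⟨⟨ξ, ξi, hξ, hξ'⟩, rfl, rfl⟩
  have hxuN : xu ^ 2 ^ (n + 1) = 1 := by
    apply Units.ext
    rw [Units.val_pow_eq_pow_val, hxuval, hξN, Units.val_one]
  have hxufix : ∀ v : ↥(addChar V K), (xu : Module.End K ↥(addChar V K)) v = v → v = 0 := by
    intro f hf
    rw [hxuval] at hf
    exact hfixξ f hf
  -- `σ` preserves the normalizer of `V`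
  have hσN : ∀ g ∈ Subgroup.normalizer (V : Set G), σ g ∈ Subgroup.normalizer (V : Set G) := by
    intro g hg
    rw [Subgroup.mem_normalizer_iff] at hg ⊢
    intro h
    constructor
    · intro hh
      have h1 := (hg (σ.symm h)).mp (hσVs h hh)
      have h2 := hσV _ h1
      rw [map_mul, map_mul, map_inv, MulEquiv.apply_symm_apply] at h2
      exact h2
    · intro hh
      have h1 := hσVs _ hh
      have h2 : σ.symm (σ g * h * (σ g)⁻¹) = g * σ.symm h * g⁻¹ := by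
        rw [map_mul, map_mul, map_inv, MulEquiv.symm_apply_apply]
      rw [h2] at h1
      have h3 := hσV _ ((hg (σ.symm h)).mpr h1)
      rw [MulEquiv.apply_symm_apply] at h3
      exact h3
  obtain ⟨ρ, hρdef⟩ : ∃ ρ : ↥(Subgroup.normalizer (V : Set G)) →*
      (Module.End K ↥(addChar V K))ˣ, ρ = (rho V K).toHomUnits := ⟨_, rfl⟩
  have hρval : ∀ g, ((ρ g : (Module.End K ↥(addChar V K))ˣ) : Module.End K ↥(addChar V K)) =
      rho V K g := by
    intro g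
    rw [hρdef]
    rfl
  have hρapp : ∀ (s : ↥(Subgroup.normalizer (V : Set G))) (f : ↥(addChar V K)) (a : ↥V),
      ((((ρ s : (Module.End K ↥(addChar V K))ˣ) : Module.End K ↥(addChar V K)) f :
        ↥(addChar V K)) : ↥V → K) a = (f : ↥V → K) (conjV s a) := by
    intro s f a
    rw [hρval]
    rfl
  let sN : ↥(Subgroup.normalizer (V : Set G)) → ↥(Subgroup.normalizer (V : Set G)) :=
    fun s => ⟨σ s, hσN s s.2⟩
  have hconj : ∀ s : ↥(Subgroup.normalizer (V : Set G)), xu * ρ s * xu⁻¹ = ρ (sN s) := by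
    intro s
    apply Units.ext
    apply LinearMap.ext
    intro f
    apply Subtype.ext
    funext a
    rw [Units.val_mul, Units.val_mul, hxuval, hxuinv, Module.End.mul_apply,
      Module.End.mul_apply, hξval, hρapp, hξival, hρapp]
    refine congrArg (f : ↥V → K) ?_
    apply Subtype.ext
    rw [hτp, conjV_coe, conjV_coe, hτm]
    show σ (((s : G))⁻¹ * σ.symm (a : G) * (s : G)) = (σ (s : G))⁻¹ * (a : G) * σ (s : G)
    rw [map_mul, map_mul, map_inv, MulEquiv.apply_symm_apply]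
  have hconjk : ∀ (k : ℕ) (s : ↥(Subgroup.normalizer (V : Set G))),
      xu ^ k * ρ s * (xu ^ k)⁻¹ = ρ (sN^[k] s) := by
    intro k
    induction k with
    | zero =>
      intro s
      simp
    | succ k ih =>
      intro s
      have h1 : xu ^ (k + 1) * ρ s * (xu ^ (k + 1))⁻¹ =
          xu * (xu ^ k * ρ s * (xu ^ k)⁻¹) * xu⁻¹ := by
        rw [pow_succ' xu]
        group
      rw [h1, ih, hconj, Function.iterate_succ_apply']
  have hsNk : ∀ (k : ℕ) (s : ↥(Subgroup.normalizer (V : Set G))),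
      ((sN^[k] s : ↥(Subgroup.normalizer (V : Set G))) : G) = (σ ^ k) (s : G) := by
    intro k
    induction k with
    | zero =>
      intro s
      simp
    | succ k ih =>
      intro s
      rw [Function.iterate_succ_apply', pow_succ' σ, MulAut.mul_apply, ← ih]
  have hker : ∀ s : ↥(Subgroup.normalizer (V : Set G)),
      (s : G) ∈ Subgroup.centralizer (V : Set G) → ρ s = 1 := by
    intro s h
    rw [Subgroup.mem_centralizer_iff] at h
    apply Units.ext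
    apply LinearMap.ext
    intro f
    apply Subtype.ext
    funext a
    rw [hρapp]
    have h1 : conjV s a = a := by
      apply Subtype.ext
      rw [conjV_coe]
      show ((s : G))⁻¹ * (a : G) * (s : G) = a
      rw [mul_assoc, h a a.2, ← mul_assoc, inv_mul_cancel, one_mul]
    rw [h1]
    rfl
  -- the images of `Q` and `R`
  obtain ⟨Qb, hQmem⟩ : ∃ Qb : Subgroup (Module.End K ↥(addChar V K))ˣ,
      ∀ y, y ∈ Qb ↔ ∃ t : ↥(Subgroup.normalizer (V : Set G)), (t : G) ∈ Q ∧ ρ t = y := by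
    refine ⟨(Q.subgroupOf _).map ρ, ?_⟩
    intro y
    rw [Subgroup.mem_map]
    constructor
    · rintro ⟨t, ht, rfl⟩
      exact ⟨t, Subgroup.mem_subgroupOf.mp ht, rfl⟩
    · rintro ⟨t, ht, rfl⟩
      exact ⟨t, Subgroup.mem_subgroupOf.mpr ht, rfl⟩
  obtain ⟨Rb, hRmem⟩ : ∃ Rb : Subgroup (Module.End K ↥(addChar V K))ˣ,
      ∀ y, y ∈ Rb ↔ ∃ t : ↥(Subgroup.normalizer (V : Set G)), (t : G) ∈ R ∧ ρ t = y := by
    refine ⟨(R.subgroupOf _).map ρ, ?_⟩
    intro y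
    rw [Subgroup.mem_map]
    constructor
    · rintro ⟨t, ht, rfl⟩
      exact ⟨t, Subgroup.mem_subgroupOf.mp ht, rfl⟩
    · rintro ⟨t, ht, rfl⟩
      exact ⟨t, Subgroup.mem_subgroupOf.mpr ht, rfl⟩
  have hfin : ∀ X : Subgroup (Module.End K ↥(addChar V K))ˣ,
      (∀ y ∈ X, ∃ t : ↥(Subgroup.normalizer (V : Set G)), ρ t = y) → Finite ↥X := by
    intro X hX
    have hle : X ≤ ρ.range := by
      intro y hy
      obtain ⟨t, ht⟩ := hX y hy
      exact ⟨t, ht⟩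
    have : Finite ↥ρ.range := Finite.of_surjective ρ.rangeRestrict ρ.rangeRestrict_surjective
    exact Finite.of_injective (Subgroup.inclusion hle) (Subgroup.inclusion_injective hle)
  have finQ : Finite ↥Qb := hfin Qb (fun y hy => by
    obtain ⟨t, _, ht⟩ := (hQmem y).mp hy
    exact ⟨t, ht⟩)
  have finR : Finite ↥Rb := hfin Rb (fun y hy => by
    obtain ⟨t, _, ht⟩ := (hRmem y).mp hy
    exact ⟨t, ht⟩)
  have pQ : IsPGroup q ↥Qb := by
    rintro ⟨y, hy⟩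
    obtain ⟨t, ht, rfl⟩ := (hQmem y).mp hy
    obtain ⟨k, hk⟩ := hQp t ht
    refine ⟨k, Subtype.ext ?_⟩
    rw [Subgroup.coe_pow, Subgroup.coe_one]
    show ρ t ^ q ^ k = 1
    rw [← map_pow]
    apply hker
    rw [Subgroup.coe_pow]
    exact hk
  have pR : IsPGroup r ↥Rb := by
    rintro ⟨y, hy⟩
    obtain ⟨t, ht, rfl⟩ := (hRmem y).mp hy
    obtain ⟨k, hk⟩ := hRp t ht
    refine ⟨k, Subtype.ext ?_⟩
    rw [Subgroup.coe_pow, Subgroup.coe_one]
    show ρ t ^ r ^ k = 1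
    rw [← map_pow]
    apply hker
    rw [Subgroup.coe_pow]
    exact hk
  have hxQ : ∀ g ∈ Qb, xu * g * xu⁻¹ ∈ Qb := by
    intro y hy
    obtain ⟨t, ht, rfl⟩ := (hQmem y).mp hy
    rw [hconj]
    exact (hQmem _).mpr ⟨sN t, hσQ t ht, rfl⟩
  have hxR : ∀ g ∈ Rb, xu * g * xu⁻¹ ∈ Rb := by
    intro y hy
    obtain ⟨t, ht, rfl⟩ := (hRmem y).mp hy
    rw [hconj]
    exact (hRmem _).mpr ⟨sN t, hσR t ht, rfl⟩
  have hRQb : ∀ g ∈ Rb, ∀ s ∈ Qb, g * s * g⁻¹ ∈ Qb := by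
    intro y hy z hz
    obtain ⟨t, ht, rfl⟩ := (hRmem y).mp hy
    obtain ⟨s, hs, rfl⟩ := (hQmem z).mp hz
    refine (hQmem _).mpr ⟨t * s * t⁻¹, hRQ t ht s hs, ?_⟩
    rw [map_mul, map_mul, map_inv]
  intro g hg s hs a ha
  obtain ⟨gN, hgN⟩ : ∃ gN : ↥(Subgroup.normalizer (V : Set G)), (gN : G) = g :=
    ⟨⟨g, hRV hg⟩, rfl⟩
  obtain ⟨sN', hsN'⟩ : ∃ sN' : ↥(Subgroup.normalizer (V : Set G)), (sN' : G) = s :=
    ⟨⟨s, hQV hs⟩, rfl⟩
  have h1 := HL K ↥(addChar V K) q r hq hr hq2 hr2 hqr hqK h2K n xu hxuN hxufix Qb Rb finQ finR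
    pQ pR hxQ hxR hRQb (ρ gN) ((hRmem _).mpr ⟨gN, hgN ▸ hg, rfl⟩) (ρ sN')
    ((hQmem _).mpr ⟨sN', hsN' ▸ hs, rfl⟩)
  rw [hconjk] at h1
  have h2 : ρ ((gN⁻¹ * sN^[2 ^ n] gN) * sN' * (gN⁻¹ * sN^[2 ^ n] gN)⁻¹ * sN'⁻¹) = 1 := by
    have h3 : ρ ((gN⁻¹ * sN^[2 ^ n] gN) * sN' * (gN⁻¹ * sN^[2 ^ n] gN)⁻¹ * sN'⁻¹) =
        ((ρ gN)⁻¹ * ρ (sN^[2 ^ n] gN)) * ρ sN' * ((ρ gN)⁻¹ * ρ (sN^[2 ^ n] gN))⁻¹ *
          (ρ sN')⁻¹ := by
      simp only [map_mul, map_inv]
    rw [h3, h1]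
    group
  have h3 : rho V K ((gN⁻¹ * sN^[2 ^ n] gN) * sN' * (gN⁻¹ * sN^[2 ^ n] gN)⁻¹ * sN'⁻¹) = 1 := by
    rw [← hρval, h2]
    rfl
  have h4 := commute_of_rho_eq_one hcomm hexp _ h3 ⟨a, ha⟩
  have h5 : (((gN⁻¹ * sN^[2 ^ n] gN) * sN' * (gN⁻¹ * sN^[2 ^ n] gN)⁻¹ * sN'⁻¹ :
      ↥(Subgroup.normalizer (V : Set G))) : G) =
      (g⁻¹ * (σ ^ 2 ^ n) g) * s * (g⁻¹ * (σ ^ 2 ^ n) g)⁻¹ * s⁻¹ := by
    simp only [Subgroup.coe_mul, Subgroup.coe_inv, hsNk, hgN, hsN']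
  rw [h5] at h4
  exact h4.symm

end Cfsg.Agent.Helper34
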