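import Mathlib
import Cfsg.Agent.Helper90.HTDefs

set_option autoImplicit false

/-! CALL S5953 piece HCYC (helper34). -/

namespace Cfsg.Agent.Helper34.HT5953

open Module Polynomial Cfsg.Agent.Helper90.HT

section geom

variable {F : Type*} [Field F] {V : Type*} [AddCommGroup V] [Module F V] [FiniteDimensional F V]
  (σ : F →+* F) (h : V → V → F)

omit [FiniteDimensional F V] in
theorem ht_cyc_pres (T : Module.End F V) (hT : HPres h T) (a : ℕ) (x y : V) :
    h ((T ^ a) x) ((T ^ a) y) = h x y := by
  induction a generalizing x y with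
  | zero => simp
  | succ n ih => rw [pow_succ, Module.End.mul_apply, Module.End.mul_apply, ih, hT]

/-- HCYC: the cyclic subspace of `v` is totally isotropic (`T ^ r = z`, any scalar `z`). -/
theorem ht_cyc (hh : IsHerm σ h) (T : Module.End F V) (hT : HPres h T) (r : ℕ) (hr : Odd r)
    (z : F) (hTr : T ^ r = z • (1 : Module.End F V)) (v : V)
    (hv : ∀ j ∈ Finset.range ((r + 1) / 2), h v ((T ^ j) v) = 0) :
    HTI h (Submodule.span F (Set.range fun j : ℕ => (T ^ j) v)) ∧
      (Submodule.span F (Set.range fun j : ℕ => (T ^ j) v)).map T ≤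
        Submodule.span F (Set.range fun j : ℕ => (T ^ j) v) := by
  have hrpos : 0 < r := hr.pos
  have h1 : ∀ j, j < r → h v ((T ^ j) v) = 0 := by
    intro j hj
    by_cases hle : j < (r + 1) / 2
    · exact hv j (Finset.mem_range.mpr hle)
    · have hrj : r - j ∈ Finset.range ((r + 1) / 2) := by
        obtain ⟨k, rfl⟩ := hr
        rw [Finset.mem_range]
        have : (2 * k + 1 + 1) / 2 = k + 1 := by omega
        rw [this] at hle ⊢
        omega
      have h2 := hv (r - j) hrj
      have h3 := ht_cyc_pres h T hT (r - j) v ((T ^ j) v)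
      rw [← Module.End.mul_apply, ← pow_add, Nat.sub_add_cancel hj.le, hTr,
        LinearMap.smul_apply, Module.End.one_apply, hh.smul_right] at h3
      rw [← h3, hh.symm v ((T ^ (r - j)) v), h2, map_zero, mul_zero]
  have h2 : ∀ j, h v ((T ^ j) v) = 0 := by
    intro j
    have : T ^ j = z ^ (j / r) • T ^ (j % r) := by
      conv_lhs => rw [← Nat.div_add_mod j r, pow_add, pow_mul, hTr, _root_.smul_pow, one_pow,
        smul_mul_assoc, one_mul]
    rw [this, LinearMap.smul_apply, hh.smul_right, h1 _ (Nat.mod_lt _ hrpos), mul_zero]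
  have h3 : ∀ a b, h ((T ^ a) v) ((T ^ b) v) = 0 := by
    have key : ∀ a b, a ≤ b → h ((T ^ a) v) ((T ^ b) v) = 0 := by
      intro a b hab
      obtain ⟨c, rfl⟩ := Nat.exists_eq_add_of_le hab
      rw [pow_add, Module.End.mul_apply, ht_cyc_pres h T hT]
      exact h2 c
    intro a b
    rcases le_total a b with hab | hab
    · exact key a b hab
    · exact hh.eq_zero_symm (key b a hab)
  refine ⟨?_, ?_⟩
  · intro u hu w hw
    induction hu using Submodule.span_induction with
    | mem x hx =>
      obtain ⟨a, rfl⟩ := hx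
      induction hw using Submodule.span_induction with
      | mem y hy => obtain ⟨b, rfl⟩ := hy; exact h3 a b
      | zero => exact hh.zero_right _
      | add y z _ _ hy hz => rw [hh.add_right, hy, hz, add_zero]
      | smul c y _ hy => rw [hh.smul_right, hy, mul_zero]
    | zero => exact hh.zero_left _
    | add x y _ _ hx hy => rw [hh.add_left, hx, hy, add_zero]
    | smul c x _ hx => rw [hh.smul_left, hx, mul_zero]
  · rw [Submodule.map_span]
    apply Submodule.span_mono
    rintro _ ⟨_, ⟨j, rfl⟩, rfl⟩
    exact ⟨j + 1, by simp [pow_succ']⟩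

end geom

end Cfsg.Agent.Helper34.HT5953
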