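/-
Helper34 library: five standalone pieces of CALL S2951 round 3 (helper11): SY, TC, C8, NX, I2.
Everything lives in `namespace Cfsg.Agent.Helper34`.
-/
import Mathlib
import Cfsg.Prelude.Def_JComponents

set_option autoImplicit false

namespace Cfsg.Agent.Helper34

variable {G : Type*} [Group G]

/-- `|H| * |K : H| = |K|` for subgroups `H ≤ K`. -/
theorem j2951_card_mul_relIndex {H K : Subgroup G} (h : H ≤ K) :
    Nat.card H * H.relIndex K = Nat.card K := by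
  have := Subgroup.relIndex_mul_relIndex ⊥ H K bot_le h
  rwa [Subgroup.relIndex_bot_left, Subgroup.relIndex_bot_left] at this

/-- PIECE SY -/
theorem eq_of_isSylowTwoIn [Finite G] {T L R : Subgroup G} (h : Cfsg.IsSylowTwoIn T L)
    (hR2 : IsPGroup 2 R) (hTR : T ≤ R) (hRL : R ≤ L) : R = T := by
  obtain ⟨hTL, hT2, hodd⟩ := h
  have hmul : T.relIndex R * R.relIndex L = T.relIndex L := Subgroup.relIndex_mul_relIndex T R L hTR hRL
  have hodd' : Odd (T.relIndex R) := by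
    rw [← hmul] at hodd
    exact (Nat.odd_mul.mp hodd).1
  have hdvd : T.relIndex R ∣ Nat.card R := Subgroup.relIndex_dvd_card T R
  obtain ⟨n, hn⟩ := IsPGroup.iff_card.mp hR2
  rw [hn] at hdvd
  obtain ⟨k, hk, hk'⟩ := (Nat.dvd_prime_pow Nat.prime_two).mp hdvd
  have hk0 : k = 0 := by
    by_contra hne
    rw [hk'] at hodd'
    have : Even (2 ^ k) := (Nat.even_pow' hne).mpr even_two
    exact (Nat.not_even_iff_odd.mpr hodd') this
  have h1 : T.relIndex R = 1 := by rw [hk', hk0, pow_zero]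
  exact le_antisymm (Subgroup.relIndex_eq_one.mp h1) hTR

/-- PIECE I2: index bookkeeping for a 2-group `T`, `Q ≤ T` of index 2 -/
theorem card_of_relIndex_two [Finite G] (Q T S : Subgroup G) (hS : IsPGroup 2 S) (hQT : Q ≤ T)
    (hTS : T ≤ S) (hne : T ≠ S) (hidx : Q.relIndex T = 2) :
    Nat.card T = 2 * Nat.card Q ∧ 4 * Nat.card Q ≤ Nat.card S := by
  have h1 : Nat.card T = 2 * Nat.card Q := by
    rw [← hidx, mul_comm]
    exact (j2951_card_mul_relIndex hQT).symm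
  refine ⟨h1, ?_⟩
  have hdvd : Nat.card T ∣ Nat.card S := Subgroup.card_dvd_of_le hTS
  obtain ⟨k, hk⟩ := hdvd
  have hSpos : 0 < Nat.card S := Nat.card_pos
  have hk1 : k ≠ 1 := by
    intro hk1
    rw [hk1, mul_one] at hk
    exact hne (Subgroup.eq_of_le_of_card_ge hTS hk.le)
  have hk0 : k ≠ 0 := by
    intro hk0
    rw [hk0, mul_zero] at hk
    omega
  have hk2 : 2 ≤ k := by omega
  calc 4 * Nat.card Q = Nat.card T * 2 := by rw [h1]; ring
    _ ≤ Nat.card T * k := Nat.mul_le_mul_left _ hk2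
    _ = Nat.card S := hk.symm

/-- PIECE NX -/
theorem exists_norm_sq [Finite G] (T S : Subgroup G) (hS : IsPGroup 2 S) (hTS : T ≤ S)
    (hne : T ≠ S) : ∃ x ∈ S, x ∈ Subgroup.normalizer (T : Set G) ∧ x ∉ T ∧ x * x ∈ T := by
  have hp2 : Fact (Nat.Prime 2) := ⟨Nat.prime_two⟩
  have hnil : Group.IsNilpotent ↥S := hS.isNilpotent
  have nc : NormalizerCondition ↥S := Group.normalizerCondition_of_isNilpotent
  have hlt : T.subgroupOf S < ⊤ := by
    rw [lt_top_iff_ne_top]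
    intro h
    exact hne (le_antisymm hTS (Subgroup.subgroupOf_eq_top.mp h))
  have h1 := nc (T.subgroupOf S) hlt
  obtain ⟨y, hyN, hyT⟩ := SetLike.exists_of_lt h1
  rw [← Subgroup.subgroupOf_normalizer_eq hTS, Subgroup.mem_subgroupOf] at hyN
  have hyT' : (y : G) ∉ T := fun hK => hyT (Subgroup.mem_subgroupOf.mpr hK)
  obtain ⟨k, hk⟩ := hS y
  have hk' : (y : G) ^ 2 ^ k = 1 := by simpa using congrArg Subtype.val hk
  have hex : ∃ j : ℕ, (y : G) ^ 2 ^ j ∈ T := ⟨k, by rw [hk']; exact T.one_mem⟩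
  classical
  have hj := Nat.find_spec hex
  have hj0 : Nat.find hex ≠ 0 := by
    intro h0
    rw [h0] at hj
    simp only [pow_zero, pow_one] at hj
    exact hyT' hj
  obtain ⟨m, hm⟩ := Nat.exists_eq_succ_of_ne_zero hj0
  have hmin : (y : G) ^ 2 ^ m ∉ T := Nat.find_min hex (by omega)
  refine ⟨(y : G) ^ 2 ^ m, S.pow_mem y.2 _, (Subgroup.normalizer (T : Set G)).pow_mem hyN _, hmin, ?_⟩
  have e : (y : G) ^ 2 ^ m * (y : G) ^ 2 ^ m = (y : G) ^ 2 ^ (Nat.find hex) := by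
    rw [hm, ← pow_add, Nat.succ_eq_add_one, pow_succ]
    congr 1
    ring
  rw [e]
  exact hj

/-- if `V` normalizes `W`, every element of `V ⊔ W` is a product `w * v`. -/
theorem j2951_exists_mul {V W : Subgroup G} (hn : V ≤ Subgroup.normalizer (W : Set G))
    {x : G} (hx : x ∈ V ⊔ W) : ∃ w ∈ W, ∃ v ∈ V, x = w * v := by
  let M : Subgroup G :=
    { carrier := {x | ∃ w ∈ W, ∃ v ∈ V, x = w * v}
      one_mem' := ⟨1, W.one_mem, 1, V.one_mem, by simp⟩
      mul_mem' := by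
        rintro _ _ ⟨k₁, hk₁, j₁, hj₁, rfl⟩ ⟨k₂, hk₂, j₂, hj₂, rfl⟩
        refine ⟨k₁ * (j₁ * k₂ * j₁⁻¹), W.mul_mem hk₁ ?_, j₁ * j₂, V.mul_mem hj₁ hj₂, by group⟩
        exact (Subgroup.mem_normalizer_iff.mp (hn hj₁) k₂).mp hk₂
      inv_mem' := by
        rintro _ ⟨k, hk, j, hj, rfl⟩
        refine ⟨j⁻¹ * k⁻¹ * j⁻¹⁻¹, ?_, j⁻¹, V.inv_mem hj, by group⟩
        exact (Subgroup.mem_normalizer_iff.mp (hn (V.inv_mem hj)) k⁻¹).mp (W.inv_mem hk) }
  have hle : V ⊔ W ≤ M := by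
    apply sup_le
    · intro v hv
      exact ⟨1, W.one_mem, v, hv, by simp⟩
    · intro w hw
      exact ⟨w, hw, 1, V.one_mem, by simp⟩
  exact hle hx

/-- PIECE C8 -/
theorem card_sup_eight (V W : Subgroup G) (hW4 : Nat.card W = 4)
    (hn : V ≤ Subgroup.normalizer (W : Set G)) (z₁ : G) (hz₁ : ∀ z, z ∈ V ↔ z = 1 ∨ z = z₁)
    (hz₁W : z₁ ∉ W) : Nat.card (V ⊔ W : Subgroup G) = 8 := by
  have hz1V : z₁ ∈ V := (hz₁ z₁).mpr (Or.inr rfl)
  have hz1ne : z₁ ≠ 1 := fun h => hz₁W (h ▸ W.one_mem)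
  have hsq : z₁ * z₁ = 1 := by
    rcases (hz₁ (z₁ * z₁)).mp (V.mul_mem hz1V hz1V) with h | h
    · exact h
    · exact absurd (by simpa using h) hz1ne
  have hidx : W.relIndex (V ⊔ W) = 2 := by
    rw [Subgroup.relIndex_eq_two_iff]
    refine ⟨z₁, (le_sup_left : V ≤ V ⊔ W) hz1V, ?_⟩
    intro b hb
    obtain ⟨w, hw, v, hv, rfl⟩ := j2951_exists_mul hn hb
    rcases (hz₁ v).mp hv with rfl | rfl
    · right
      refine ⟨by simpa using hw, ?_⟩
      intro h
      have : z₁ ∈ W := by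
        have := W.mul_mem (W.inv_mem hw) h
        simpa [mul_assoc] using this
      exact hz₁W this
    · left
      refine ⟨?_, ?_⟩
      · have : w * v * v = w := by rw [mul_assoc, hsq, mul_one]
        rw [this]
        exact hw
      · intro h
        have : v ∈ W := by
          have := W.mul_mem (W.inv_mem hw) h
          simpa [mul_assoc] using this
        exact hz₁W this
  have := j2951_card_mul_relIndex (le_sup_right : W ≤ V ⊔ W)
  rw [hidx, hW4] at this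
  omega

/-- PIECE TC -/
theorem two_complements (Z₀ Z₁ Z₂ : Subgroup G) (w₁ w₂ : G)
    (hcomm : ∀ a ∈ Z₀, ∀ b ∈ Z₀, a * b = b * a) (hsq : ∀ a ∈ Z₀, a * a = 1)
    (h1 : Z₁ ≤ Z₀) (h2 : Z₂ ≤ Z₀) (hdisj : Z₁ ⊓ Z₂ = ⊥)
    (hw₁ : w₁ ∈ Z₀) (hw₁' : w₁ ∉ Z₁) (hw₂ : w₂ ∈ Z₀) (hw₂' : w₂ ∉ Z₂)
    (hd₁ : ∀ z ∈ Z₀, z ∈ Z₁ ∨ z * w₁ ∈ Z₁) (hd₂ : ∀ z ∈ Z₀, z ∈ Z₂ ∨ z * w₂ ∈ Z₂) :
    (Z₁ = ⊥ ∧ Z₂ = ⊥ ∧ Nat.card Z₀ = 2) ∨
    (∃ z₁ z₂ : G, z₁ ≠ 1 ∧ z₂ ≠ 1 ∧ z₁ ≠ z₂ ∧ (∀ z, z ∈ Z₁ ↔ z = 1 ∨ z = z₁) ∧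
      (∀ z, z ∈ Z₂ ↔ z = 1 ∨ z = z₂) ∧ Nat.card Z₀ = 4) := by
  classical
  have hw1ne : w₁ ≠ 1 := fun h => hw₁' (h ▸ Z₁.one_mem)
  have hw2ne : w₂ ≠ 1 := fun h => hw₂' (h ▸ Z₂.one_mem)
  have hinv : ∀ a ∈ Z₀, a⁻¹ = a := fun a ha => inv_eq_of_mul_eq_one_left (hsq a ha)
  -- uniqueness of nontrivial elements
  have huniq : ∀ (X Y : Subgroup G) (w : G), X ⊓ Y = ⊥ → X ≤ Z₀ → (∀ z ∈ Z₀, z ∈ Y ∨ z * w ∈ Y) →
      ∀ a ∈ X, ∀ b ∈ X, a ≠ 1 → b ≠ 1 → a = b := by
    intro X Y w hXY hX hd a ha b hb ha1 hb1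
    have haY : a ∉ Y := fun h => ha1 (by
      have : a ∈ X ⊓ Y := ⟨ha, h⟩
      rw [hXY] at this
      exact Subgroup.mem_bot.mp this)
    have hbY : b ∉ Y := fun h => hb1 (by
      have : b ∈ X ⊓ Y := ⟨hb, h⟩
      rw [hXY] at this
      exact Subgroup.mem_bot.mp this)
    have h1 : a * w ∈ Y := (hd a (hX ha)).resolve_left haY
    have h2 : b * w ∈ Y := (hd b (hX hb)).resolve_left hbY
    have h3 : a * b⁻¹ ∈ Y := by
      have := Y.mul_mem h1 (Y.inv_mem h2)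
      simpa [mul_assoc] using this
    have h4 : a * b⁻¹ ∈ X ⊓ Y := ⟨X.mul_mem ha (X.inv_mem hb), h3⟩
    rw [hXY] at h4
    exact mul_inv_eq_one.mp (Subgroup.mem_bot.mp h4)
  have hu1 := huniq Z₁ Z₂ w₂ hdisj h1 hd₂
  have hu2 := huniq Z₂ Z₁ w₁ (by rw [inf_comm]; exact hdisj) h2 hd₁
  -- if one of them is trivial, so is the other
  have htriv : ∀ (X Y : Subgroup G) (w w' : G), X = ⊥ → Y ≤ Z₀ → (∀ z ∈ Z₀, z ∈ X ∨ z * w ∈ X) →
      w ∈ Z₀ → w' ∈ Z₀ → w' ∉ Y → Y = ⊥ := by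
    intro X Y w w' hX hY hd hw hw' hw'Y
    have hZ0 : ∀ z ∈ Z₀, z = 1 ∨ z = w := by
      intro z hz
      rcases hd z hz with h | h
      · left
        rw [hX] at h
        exact Subgroup.mem_bot.mp h
      · right
        rw [hX] at h
        have h' : z * w = 1 := Subgroup.mem_bot.mp h
        have : z = w⁻¹ := eq_inv_of_mul_eq_one_left h'
        rw [this, hinv w hw]
    rw [eq_bot_iff]
    intro y hy
    rw [Subgroup.mem_bot]
    rcases hZ0 y (hY hy) with h | h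
    · exact h
    · exfalso
      rcases hZ0 w' hw' with h' | h'
      · exact hw'Y (h' ▸ Y.one_mem)
      · exact hw'Y (by rw [h', ← h]; exact hy)
  by_cases hZ1 : Z₁ = ⊥
  · left
    have hZ2 : Z₂ = ⊥ := htriv Z₁ Z₂ w₁ w₂ hZ1 h2 hd₁ hw₁ hw₂ hw₂'
    refine ⟨hZ1, hZ2, ?_⟩
    have hset : (Z₀ : Set G) = ((({1, w₁} : Finset G)) : Set G) := by
      ext z
      simp only [SetLike.mem_coe, Finset.coe_insert, Finset.coe_singleton, Set.mem_insert_iff,
        Set.mem_singleton_iff]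
      constructor
      · intro hz
        rcases hd₁ z hz with h | h
        · left
          rw [hZ1] at h
          exact Subgroup.mem_bot.mp h
        · right
          rw [hZ1] at h
          have h' : z * w₁ = 1 := Subgroup.mem_bot.mp h
          have : z = w₁⁻¹ := eq_inv_of_mul_eq_one_left h'
          rw [this, hinv w₁ hw₁]
      · rintro (rfl | rfl)
        · exact Z₀.one_mem
        · exact hw₁
    have hc : Nat.card Z₀ = Nat.card ((Z₀ : Set G)) := rfl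
    rw [hc, hset, Nat.card_coe_set_eq, Set.ncard_coe_finset]
    rw [Finset.card_insert_of_notMem (by simpa using hw1ne.symm), Finset.card_singleton]
  · right
    have hZ2 : Z₂ ≠ ⊥ := by
      intro hZ2
      exact hZ1 (htriv Z₂ Z₁ w₂ w₁ hZ2 h1 hd₂ hw₂ hw₁ hw₁')
    obtain ⟨z₁, hz₁1⟩ := (Subgroup.ne_bot_iff_exists_ne_one).mp hZ1
    obtain ⟨z₂, hz₂1⟩ := (Subgroup.ne_bot_iff_exists_ne_one).mp hZ2
    have hz₁1' : (z₁ : G) ≠ 1 := fun h => hz₁1 (Subtype.ext h)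
    have hz₂1' : (z₂ : G) ≠ 1 := fun h => hz₂1 (Subtype.ext h)
    have hmem1 : ∀ z, z ∈ Z₁ ↔ z = 1 ∨ z = (z₁ : G) := by
      intro z
      constructor
      · intro hz
        by_cases hz1 : z = 1
        · exact Or.inl hz1
        · exact Or.inr (hu1 z hz z₁ z₁.2 hz1 hz₁1')
      · rintro (rfl | rfl)
        · exact Z₁.one_mem
        · exact z₁.2
    have hmem2 : ∀ z, z ∈ Z₂ ↔ z = 1 ∨ z = (z₂ : G) := by
      intro z
      constructor
      · intro hz
        by_cases hz1 : z = 1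
        · exact Or.inl hz1
        · exact Or.inr (hu2 z hz z₂ z₂.2 hz1 hz₂1')
      · rintro (rfl | rfl)
        · exact Z₂.one_mem
        · exact z₂.2
    have hne12 : (z₁ : G) ≠ z₂ := by
      intro h
      have : (z₁ : G) ∈ Z₁ ⊓ Z₂ := ⟨z₁.2, by rw [h]; exact z₂.2⟩
      rw [hdisj] at this
      exact hz₁1' (Subgroup.mem_bot.mp this)
    refine ⟨z₁, z₂, hz₁1', hz₂1', hne12, hmem1, hmem2, ?_⟩
    have hz1Z0 : (z₁ : G) ∈ Z₀ := h1 z₁.2
    have hset : (Z₀ : Set G) = ((({1, (z₁ : G), w₁, (z₁ : G) * w₁} : Finset G)) : Set G) := by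
      ext z
      simp only [SetLike.mem_coe, Finset.coe_insert, Finset.coe_singleton, Set.mem_insert_iff,
        Set.mem_singleton_iff]
      constructor
      · intro hz
        rcases hd₁ z hz with h | h
        · rcases (hmem1 z).mp h with h | h
          · exact Or.inl h
          · exact Or.inr (Or.inl h)
        · rcases (hmem1 _).mp h with h | h
          · right; right; left
            have : z = w₁⁻¹ := eq_inv_of_mul_eq_one_left h
            rw [this, hinv w₁ hw₁]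
          · right; right; right
            have : z = (z₁ : G) * w₁⁻¹ := eq_mul_inv_of_mul_eq h
            rw [this, hinv w₁ hw₁]
      · rintro (rfl | rfl | rfl | rfl)
        · exact Z₀.one_mem
        · exact hz1Z0
        · exact hw₁
        · exact Z₀.mul_mem hz1Z0 hw₁
    have hc : Nat.card Z₀ = Nat.card ((Z₀ : Set G)) := rfl
    rw [hc, hset, Nat.card_coe_set_eq, Set.ncard_coe_finset]
    have hw1z1 : w₁ ≠ (z₁ : G) := fun h => hw₁' (h ▸ z₁.2)
    have hzw : (z₁ : G) * w₁ ≠ w₁ := by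
      intro h
      exact hz₁1' (by simpa using h)
    have hzw1 : (z₁ : G) * w₁ ≠ 1 := by
      intro h
      have : (z₁ : G) = w₁⁻¹ := eq_inv_of_mul_eq_one_left h
      rw [hinv w₁ hw₁] at this
      exact hw1z1 this.symm
    have hzwz : (z₁ : G) * w₁ ≠ (z₁ : G) := by
      intro h
      exact hw1ne (by simpa using h)
    rw [Finset.card_insert_of_notMem, Finset.card_insert_of_notMem, Finset.card_insert_of_notMem,
      Finset.card_singleton]
    · simpa using hzw.symm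
    · simp only [Finset.mem_insert, Finset.mem_singleton, not_or]
      exact ⟨hw1z1.symm, hzwz.symm⟩
    · simp only [Finset.mem_insert, Finset.mem_singleton, not_or]
      exact ⟨hz₁1'.symm, hw1ne.symm, hzw1.symm⟩

end Cfsg.Agent.Helper34
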