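/-
Helper library of seat helper34: basic lemmas for a fixed-point-free action of the symmetric
group of degree 3 (internal form: a homomorphism `ρ` from `Perm (Fin 3)` into the ambient
finite group).  Namespace `Cfsg.Agent.Helper34.S3`.
-/
import Cfsg.Agent.Helper35.Glauberman
import Cfsg.Agent.Helper35.CoprimeGen2
import Cfsg.Agent.Helper35.CoprimeSylow

set_option autoImplicit false

namespace Cfsg.Agent.Helper34.S3

open Subgroup

universe u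

variable {Γ : Type u} [Group Γ]

/-- the 3-cycle -/
def c3 : Equiv.Perm (Fin 3) := Equiv.swap 0 1 * Equiv.swap 1 2
/-- a transposition -/
def t2 : Equiv.Perm (Fin 3) := Equiv.swap 0 1

theorem c3_pow : c3 ^ 3 = 1 := by decide
theorem t2_sq : t2 * t2 = 1 := by decide
theorem t2_c3 : t2 * c3 * t2⁻¹ = c3⁻¹ := by decide
theorem perm_gen (σ : Equiv.Perm (Fin 3)) :
    ∃ i : Fin 3, ∃ j : Fin 2, σ = c3 ^ (i : ℕ) * t2 ^ (j : ℕ) := by
  revert σ; decide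

section rho

variable (ρ : Equiv.Perm (Fin 3) →* Γ)

theorem rx3 : ρ c3 ^ 3 = 1 := by rw [← map_pow, c3_pow, map_one]
theorem ry2 : ρ t2 * ρ t2 = 1 := by rw [← map_mul, t2_sq, map_one]
theorem ryinv : (ρ t2)⁻¹ = ρ t2 := inv_eq_of_mul_eq_one_right (ry2 ρ)
theorem rel1 : ρ t2 * ρ c3 * (ρ t2)⁻¹ = (ρ c3)⁻¹ := by
  rw [← map_inv, ← map_mul, ← map_mul, t2_c3, map_inv]
theorem rel2 : (ρ t2)⁻¹ * ρ c3 * ρ t2 = (ρ c3)⁻¹ := by
  have h := rel1 ρ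
  rw [ryinv] at h ⊢
  exact h
theorem xinv : (ρ c3)⁻¹ = ρ c3 * ρ c3 := by
  apply inv_eq_of_mul_eq_one_right
  have h := rx3 ρ
  rw [pow_succ, pow_two] at h
  rw [← mul_assoc]; exact h
theorem rho_eq (σ : Equiv.Perm (Fin 3)) : ∃ i j : ℕ, ρ σ = ρ c3 ^ i * ρ t2 ^ j := by
  obtain ⟨i, j, h⟩ := perm_gen σ
  exact ⟨i, j, by rw [h, map_mul, map_pow, map_pow]⟩

theorem comm_all {g : Γ} (hx : ρ c3 * g = g * ρ c3) (hy : ρ t2 * g = g * ρ t2) :
    ∀ σ, ρ σ * g = g * ρ σ := by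
  intro σ
  obtain ⟨i, j, h⟩ := rho_eq ρ σ
  rw [h]
  have h1 : Commute (ρ c3) g := hx
  have h2 : Commute (ρ t2) g := hy
  exact ((h1.pow_left i).mul_left (h2.pow_left j)).eq

theorem inv_all {H : Subgroup Γ} (hx : ρ c3 ∈ normalizer (H : Set Γ))
    (hy : ρ t2 ∈ normalizer (H : Set Γ)) : ∀ σ, ρ σ ∈ normalizer (H : Set Γ) := by
  intro σ
  obtain ⟨i, j, h⟩ := rho_eq ρ σ
  rw [h]
  exact mul_mem (pow_mem hx i) (pow_mem hy j)

/-- conjugation by `y` preserves commuting with `x` -/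
theorem comm_conj_y {g : Γ} (hg : ρ c3 * g = g * ρ c3) :
    ρ c3 * (ρ t2 * g * (ρ t2)⁻¹) = (ρ t2 * g * (ρ t2)⁻¹) * ρ c3 := by
  have h2 := rel2 ρ
  have hg' : (ρ c3)⁻¹ * g = g * (ρ c3)⁻¹ := (Commute.inv_left (show Commute (ρ c3) g from hg)).eq
  calc ρ c3 * (ρ t2 * g * (ρ t2)⁻¹)
      = ρ t2 * ((ρ t2)⁻¹ * ρ c3 * ρ t2) * g * (ρ t2)⁻¹ := by group
    _ = ρ t2 * ((ρ c3)⁻¹ * g) * (ρ t2)⁻¹ := by rw [h2, mul_assoc (ρ t2)]
    _ = ρ t2 * (g * (ρ c3)⁻¹) * (ρ t2)⁻¹ := by rw [hg']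
    _ = ρ t2 * g * ((ρ t2)⁻¹ * ρ c3 * ρ t2) * (ρ t2)⁻¹ := by rw [h2]; group
    _ = (ρ t2 * g * (ρ t2)⁻¹) * ρ c3 := by group

/-- `y (x g x⁻¹) y⁻¹ = x (x (y g y⁻¹) x⁻¹) x⁻¹` -/
theorem conjYX (g : Γ) : ρ t2 * (ρ c3 * g * (ρ c3)⁻¹) * (ρ t2)⁻¹
    = ρ c3 * (ρ c3 * (ρ t2 * g * (ρ t2)⁻¹) * (ρ c3)⁻¹) * (ρ c3)⁻¹ := by
  have h1 := rel1 ρ
  have h3 := xinv ρ
  calc ρ t2 * (ρ c3 * g * (ρ c3)⁻¹) * (ρ t2)⁻¹
      = (ρ t2 * ρ c3 * (ρ t2)⁻¹) * (ρ t2 * g * (ρ t2)⁻¹) * (ρ t2 * ρ c3 * (ρ t2)⁻¹)⁻¹ := by group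
    _ = (ρ c3 * ρ c3) * (ρ t2 * g * (ρ t2)⁻¹) * (ρ c3 * ρ c3)⁻¹ := by rw [h1, h3]
    _ = ρ c3 * (ρ c3 * (ρ t2 * g * (ρ t2)⁻¹) * (ρ c3)⁻¹) * (ρ c3)⁻¹ := by group

theorem x3conj (g : Γ) : ρ c3 * (ρ c3 * (ρ c3 * g * (ρ c3)⁻¹) * (ρ c3)⁻¹) * (ρ c3)⁻¹ = g := by
  have h3 : ρ c3 * ρ c3 * ρ c3 = 1 := by
    have h := rx3 ρ
    rwa [pow_succ, pow_two] at h
  have : ρ c3 * (ρ c3 * (ρ c3 * g * (ρ c3)⁻¹) * (ρ c3)⁻¹) * (ρ c3)⁻¹
      = (ρ c3 * ρ c3 * ρ c3) * g * (ρ c3 * ρ c3 * ρ c3)⁻¹ := by group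
  rw [this, h3]; simp

end rho

section normalizer

theorem nz_conj {H : Subgroup Γ} {t g : Γ} (ht : t ∈ normalizer (H : Set Γ)) (hg : g ∈ H) :
    t * g * t⁻¹ ∈ H :=
  (mem_normalizer_iff.mp ht g).mp hg

theorem nz_conj' {H : Subgroup Γ} {t g : Γ} (ht : t ∈ normalizer (H : Set Γ)) (hg : g ∈ H) :
    t⁻¹ * g * t ∈ H := by
  have := nz_conj (inv_mem ht) hg
  simpa using this

theorem nz_of_conj [Finite Γ] {H : Subgroup Γ} {t : Γ} (h : ∀ g ∈ H, t * g * t⁻¹ ∈ H) :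
    t ∈ normalizer (H : Set Γ) := by
  rw [mem_normalizer_iff]
  intro g
  refine ⟨h g, fun hg => ?_⟩
  let f : ↥H → ↥H := fun a => ⟨t * a * t⁻¹, h a a.2⟩
  have hinj : Function.Injective f := by
    intro a b hab
    have h1 : t * (a : Γ) * t⁻¹ = t * (b : Γ) * t⁻¹ := congrArg Subtype.val hab
    exact Subtype.ext (by simpa using h1)
  obtain ⟨a, ha⟩ := (Finite.injective_iff_surjective.mp hinj) ⟨t * g * t⁻¹, hg⟩
  have h1 : t * (a : Γ) * t⁻¹ = t * g * t⁻¹ := congrArg Subtype.val ha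
  have h2 : (a : Γ) = g := by simpa using h1
  rw [← h2]; exact a.2

theorem nz_centralizer [Finite Γ] {H : Subgroup Γ} {t : Γ} (ht : t ∈ normalizer (H : Set Γ)) :
    t ∈ normalizer ((centralizer (H : Set Γ) : Subgroup Γ) : Set Γ) := by
  apply nz_of_conj
  intro g hg
  rw [mem_centralizer_iff] at hg ⊢
  intro h hh
  have h1 := hg (t⁻¹ * h * t) (nz_conj' ht hh)
  calc h * (t * g * t⁻¹) = t * ((t⁻¹ * h * t) * g) * t⁻¹ := by group
    _ = t * (g * (t⁻¹ * h * t)) * t⁻¹ := by rw [h1]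
    _ = t * g * t⁻¹ * h := by group

theorem nz_inf {H K : Subgroup Γ} {t : Γ} (h1 : t ∈ normalizer (H : Set Γ))
    (h2 : t ∈ normalizer (K : Set Γ)) : t ∈ normalizer ((H ⊓ K : Subgroup Γ) : Set Γ) := by
  rw [mem_normalizer_iff] at h1 h2 ⊢
  intro g
  rw [mem_inf, mem_inf, h1 g, h2 g]

theorem nz_sup {H K : Subgroup Γ} {t : Γ} (h1 : t ∈ normalizer (H : Set Γ))
    (h2 : t ∈ normalizer (K : Set Γ)) : t ∈ normalizer ((H ⊔ K : Subgroup Γ) : Set Γ) :=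
  Helper35.le_normalizer_sup (A := zpowers t) (zpowers_le.mpr h1) (zpowers_le.mpr h2)
    (mem_zpowers t)

theorem nz_comm {H K : Subgroup Γ} {t : Γ} (h1 : t ∈ normalizer (H : Set Γ))
    (h2 : t ∈ normalizer (K : Set Γ)) : t ∈ normalizer ((⁅H, K⁆ : Subgroup Γ) : Set Γ) :=
  Helper35.le_normalizer_commutator' (A := zpowers t) (zpowers_le.mpr h1) (zpowers_le.mpr h2)
    (mem_zpowers t)

/-- an element of an abelian subgroup normalizes every subgroup of it -/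
theorem nz_of_comm [Finite Γ] {Z K : Subgroup Γ} (hZ : ∀ a ∈ Z, ∀ b ∈ Z, a * b = b * a)
    (hKZ : K ≤ Z) {a : Γ} (ha : a ∈ Z) : a ∈ normalizer (K : Set Γ) := by
  apply nz_of_conj
  intro g hg
  rw [hZ a ha g (hKZ hg), mul_inv_cancel_right]
  exact hg

end normalizer

section cj

/-- the conjugate subgroup `t K t⁻¹` -/
def cj (t : Γ) (K : Subgroup Γ) : Subgroup Γ := K.comap (MulAut.conj t⁻¹).toMonoidHom

theorem mem_cj {t g : Γ} {K : Subgroup Γ} : g ∈ cj t K ↔ t⁻¹ * g * t ∈ K := by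
  simp [cj, Subgroup.mem_comap]

theorem conj_mem_cj {t g : Γ} {K : Subgroup Γ} (hg : g ∈ K) : t * g * t⁻¹ ∈ cj t K := by
  rw [mem_cj]
  have : t⁻¹ * (t * g * t⁻¹) * t = g := by group
  rw [this]; exact hg

theorem cj_mul (s t : Γ) (K : Subgroup Γ) : cj (s * t) K = cj s (cj t K) := by
  ext g
  simp only [mem_cj]
  have : (s * t)⁻¹ * g * (s * t) = t⁻¹ * (s⁻¹ * g * s) * t := by group
  rw [this]

theorem cj_one (K : Subgroup Γ) : cj 1 K = K := by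
  ext g
  simp [mem_cj]

theorem cj_eq_of_nz {t : Γ} {K : Subgroup Γ} (ht : t ∈ normalizer (K : Set Γ)) : cj t K = K := by
  ext g
  rw [mem_cj]
  constructor
  · intro h
    have := nz_conj ht h
    have e : t * (t⁻¹ * g * t) * t⁻¹ = g := by group
    rwa [e] at this
  · intro h
    exact nz_conj' ht h

theorem nz_of_cj_eq {t : Γ} {K : Subgroup Γ} (h : cj t K = K) : t ∈ normalizer (K : Set Γ) := by
  rw [mem_normalizer_iff]
  intro g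
  constructor
  · intro hg
    have : t * g * t⁻¹ ∈ cj t K := conj_mem_cj hg
    rwa [h] at this
  · intro hg
    have h1 : t * g * t⁻¹ ∈ cj t K := by rw [h]; exact hg
    rw [mem_cj] at h1
    have e : t⁻¹ * (t * g * t⁻¹) * t = g := by group
    rwa [e] at h1

theorem cj_inv_cj (t : Γ) (K : Subgroup Γ) : cj t⁻¹ (cj t K) = K := by
  rw [← cj_mul, inv_mul_cancel, cj_one]

theorem cj_cj_inv (t : Γ) (K : Subgroup Γ) : cj t (cj t⁻¹ K) = K := by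
  rw [← cj_mul, mul_inv_cancel, cj_one]

theorem cj_injective (t : Γ) {K K' : Subgroup Γ} (h : cj t K = cj t K') : K = K' := by
  rw [← cj_inv_cj t K, h, cj_inv_cj]

/-- `s t s⁻¹` normalizes `K` iff `t` normalizes `s⁻¹ K s` -/
theorem nz_cj {s t : Γ} {K : Subgroup Γ} (h : s * t * s⁻¹ ∈ normalizer (K : Set Γ)) :
    t ∈ normalizer ((cj s⁻¹ K : Subgroup Γ) : Set Γ) := by
  apply nz_of_cj_eq
  have h1 := cj_eq_of_nz h
  rw [cj_mul, cj_mul] at h1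
  have h2 := congrArg (cj s⁻¹) h1
  rw [cj_inv_cj] at h2
  exact h2

end cj

section fpf

variable [Finite Γ]

/-- a fixed-point-free involution inverts -/
theorem fpf_invol_inverts {B : Subgroup Γ} {t : Γ} (ht : t * t = 1)
    (hnorm : ∀ b ∈ B, t * b * t⁻¹ ∈ B) (hfix : ∀ b ∈ B, t * b = b * t → b = 1) :
    ∀ b ∈ B, t * b * t⁻¹ = b⁻¹ := by
  let f : ↥B → ↥B := fun b =>
    ⟨(b : Γ)⁻¹ * (t * b * t⁻¹), B.mul_mem (B.inv_mem b.2) (hnorm b b.2)⟩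
  have hinj : Function.Injective f := by
    intro a b hab
    have h1 : (a : Γ)⁻¹ * (t * a * t⁻¹) = (b : Γ)⁻¹ * (t * b * t⁻¹) := congrArg Subtype.val hab
    have h2 : t * ((b : Γ) * (a : Γ)⁻¹) * t⁻¹ = (b : Γ) * (a : Γ)⁻¹ := by
      calc t * ((b : Γ) * (a : Γ)⁻¹) * t⁻¹
          = (b : Γ) * ((b : Γ)⁻¹ * (t * b * t⁻¹)) * (t * (a : Γ) * t⁻¹)⁻¹ := by group
        _ = (b : Γ) * ((a : Γ)⁻¹ * (t * a * t⁻¹)) * (t * (a : Γ) * t⁻¹)⁻¹ := by rw [h1]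
        _ = (b : Γ) * (a : Γ)⁻¹ := by group
    have h3 := hfix _ (B.mul_mem b.2 (B.inv_mem a.2)) (mul_inv_eq_iff_eq_mul.mp h2)
    exact Subtype.ext (mul_inv_eq_one.mp h3).symm
  intro b hb
  obtain ⟨a, ha⟩ := (Finite.injective_iff_surjective.mp hinj) ⟨b, hb⟩
  have ha' : (a : Γ)⁻¹ * (t * a * t⁻¹) = b := congrArg Subtype.val ha
  calc t * b * t⁻¹ = t * ((a : Γ)⁻¹ * (t * a * t⁻¹)) * t⁻¹ := by rw [ha']
    _ = (t * a * t⁻¹)⁻¹ * ((t * t) * a * (t * t)⁻¹) := by group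
    _ = (t * a * t⁻¹)⁻¹ * a := by rw [ht]; group
    _ = ((a : Γ)⁻¹ * (t * a * t⁻¹))⁻¹ := by group
    _ = b⁻¹ := by rw [ha']

theorem fpf_invol_comm {B : Subgroup Γ} {t : Γ} (ht : t * t = 1)
    (hnorm : ∀ b ∈ B, t * b * t⁻¹ ∈ B) (hfix : ∀ b ∈ B, t * b = b * t → b = 1) :
    ∀ a ∈ B, ∀ b ∈ B, a * b = b * a := by
  intro a ha b hb
  have h1 := fpf_invol_inverts ht hnorm hfix (a * b) (B.mul_mem ha hb)
  have h2 := fpf_invol_inverts ht hnorm hfix a ha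
  have h3 := fpf_invol_inverts ht hnorm hfix b hb
  have h4 : (a * b)⁻¹ = a⁻¹ * b⁻¹ := by
    rw [← h1, ← h2, ← h3]; group
  have h5 := congrArg Inv.inv h4
  simpa using h5

/-- lifting a fixed point of one element through an invariant subgroup of coprime order -/
theorem lift_fix {t : Γ} {n : ℕ} (htn : t ^ n = 1) {N : Subgroup Γ}
    (hcop : (Nat.card N).Coprime n) (htN : t ∈ normalizer (N : Set Γ)) (g : Γ)
    (hg : g⁻¹ * t * g * t⁻¹ ∈ N) : ∃ c, t * c = c * t ∧ g⁻¹ * c ∈ N := by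
  have hAN : zpowers t ≤ normalizer (N : Set Γ) := zpowers_le.mpr htN
  have hcard : Nat.card (zpowers t) ∣ n := by
    rw [Nat.card_zpowers]; exact orderOf_dvd_of_pow_eq_one htn
  have hcop' : (Nat.card (zpowers t)).Coprime (Nat.card N) :=
    Nat.Coprime.coprime_dvd_left hcard hcop.symm
  have hsolv : Group.IsSolvable (zpowers t) := by
    apply Group.isSolvable_of_comm
    intro a b
    obtain ⟨i, hi⟩ := mem_zpowers_iff.mp a.2
    obtain ⟨j, hj⟩ := mem_zpowers_iff.mp b.2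
    apply Subtype.ext
    rw [coe_mul, coe_mul, ← hi, ← hj]
    exact (Commute.zpow_zpow_self t i j).eq
  let T : Subgroup Γ :=
    { carrier := {a | a ∈ normalizer (N : Set Γ) ∧ g⁻¹ * a * g * a⁻¹ ∈ N}
      one_mem' := ⟨one_mem _, by simp⟩
      mul_mem' := by
        rintro a b ⟨ha, ha'⟩ ⟨hb, hb'⟩
        refine ⟨mul_mem ha hb, ?_⟩
        have e : g⁻¹ * (a * b) * g * (a * b)⁻¹
            = (g⁻¹ * a * g * a⁻¹) * (a * (g⁻¹ * b * g * b⁻¹) * a⁻¹) := by group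
        rw [e]; exact N.mul_mem ha' (nz_conj ha hb')
      inv_mem' := by
        rintro a ⟨ha, ha'⟩
        refine ⟨inv_mem ha, ?_⟩
        have e : g⁻¹ * a⁻¹ * g * a⁻¹⁻¹ = a⁻¹ * (g⁻¹ * a * g * a⁻¹)⁻¹ * a := by group
        rw [e]; exact nz_conj' ha (N.inv_mem ha') }
  have hT : zpowers t ≤ T := zpowers_le.mpr ⟨htN, hg⟩
  obtain ⟨c, hc, hc'⟩ :=
    Helper35.exists_fixed_in_coset hAN hcop' (Or.inl hsolv) g (fun a ha => (hT ha).2)
  exact ⟨c, mem_centralizer_iff.mp hc t (mem_zpowers t), hc'⟩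

variable (ρ : Equiv.Perm (Fin 3) →* Γ)

/-- the centralizer of `x` in an invariant subgroup without fixed points is abelian -/
theorem cent_x_comm {G : Subgroup Γ} (hyG : ρ t2 ∈ normalizer (G : Set Γ))
    (hfix : ∀ g ∈ G, (∀ σ, ρ σ * g = g * ρ σ) → g = 1) :
    ∀ a ∈ G, ∀ b ∈ G, ρ c3 * a = a * ρ c3 → ρ c3 * b = b * ρ c3 → a * b = b * a := by
  intro a ha b hb hxa hxb
  let B : Subgroup Γ := G ⊓ centralizer {ρ c3}
  have hB : ∀ g, g ∈ B ↔ g ∈ G ∧ ρ c3 * g = g * ρ c3 := by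
    intro g
    simp [B, mem_inf, mem_centralizer_iff]
  have hnorm : ∀ g ∈ B, ρ t2 * g * (ρ t2)⁻¹ ∈ B := by
    intro g hg
    rw [hB] at hg ⊢
    exact ⟨nz_conj hyG hg.1, comm_conj_y ρ hg.2⟩
  exact fpf_invol_comm (ry2 ρ) hnorm
    (fun g hg hyg => hfix g ((hB g).mp hg).1 (comm_all ρ ((hB g).mp hg).2 hyg))
    a ((hB a).mpr ⟨ha, hxa⟩) b ((hB b).mpr ⟨hb, hxb⟩)

/-- lifting a common fixed point through an invariant subgroup of order prime to 6 -/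
theorem lift2 {N : Subgroup Γ} (hxN : ρ c3 ∈ normalizer (N : Set Γ))
    (hyN : ρ t2 ∈ normalizer (N : Set Γ)) (hcop : (Nat.card N).Coprime 6) (g : Γ)
    (hgx : g⁻¹ * ρ c3 * g * (ρ c3)⁻¹ ∈ N) (hgy : g⁻¹ * ρ t2 * g * (ρ t2)⁻¹ ∈ N) :
    ∃ c, (∀ σ, ρ σ * c = c * ρ σ) ∧ g⁻¹ * c ∈ N := by
  have cop3 : (Nat.card N).Coprime 3 := Nat.Coprime.coprime_dvd_right (by norm_num) hcop
  have cop2 : (Nat.card N).Coprime 2 := Nat.Coprime.coprime_dvd_right (by norm_num) hcop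
  obtain ⟨c₁, hc₁, hc₁N⟩ := lift_fix (rx3 ρ) cop3 hxN g hgx
  let N' : Subgroup Γ := N ⊓ centralizer {ρ c3}
  have hN' : ∀ g, g ∈ N' ↔ g ∈ N ∧ ρ c3 * g = g * ρ c3 := by
    intro g
    simp [N', mem_inf, mem_centralizer_iff]
  have hyN' : ρ t2 ∈ normalizer (N' : Set Γ) := by
    apply nz_of_conj
    intro n hn
    rw [hN'] at hn ⊢
    exact ⟨nz_conj hyN hn.1, comm_conj_y ρ hn.2⟩
  have cop2' : (Nat.card N').Coprime 2 :=
    Nat.Coprime.coprime_dvd_left (Subgroup.card_dvd_of_le inf_le_left) cop2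
  have h1 : c₁⁻¹ * ρ t2 * c₁ * (ρ t2)⁻¹ ∈ N' := by
    rw [hN']
    constructor
    · have e : c₁⁻¹ * ρ t2 * c₁ * (ρ t2)⁻¹
          = (g⁻¹ * c₁)⁻¹ * (g⁻¹ * ρ t2 * g * (ρ t2)⁻¹) * (ρ t2 * (g⁻¹ * c₁) * (ρ t2)⁻¹) := by
        group
      rw [e]
      exact N.mul_mem (N.mul_mem (N.inv_mem hc₁N) hgy) (nz_conj hyN hc₁N)
    · have e1 : Commute (ρ c3) c₁⁻¹ := Commute.inv_right hc₁
      have e2 : Commute (ρ c3) (ρ t2 * c₁ * (ρ t2)⁻¹) := comm_conj_y ρ hc₁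
      have e3 := (e1.mul_right e2).eq
      have e4 : c₁⁻¹ * ρ t2 * c₁ * (ρ t2)⁻¹ = c₁⁻¹ * (ρ t2 * c₁ * (ρ t2)⁻¹) := by group
      rw [e4]; exact e3
  obtain ⟨c₂, hc₂, hc₂N⟩ := lift_fix (t := ρ t2) (n := 2) (by rw [pow_two]; exact ry2 ρ)
    cop2' hyN' c₁ h1
  have hc₂x : ρ c3 * c₂ = c₂ * ρ c3 := by
    have e1 : Commute (ρ c3) c₁ := hc₁
    have e2 : Commute (ρ c3) (c₁⁻¹ * c₂) := ((hN' _).mp hc₂N).2
    have e3 := (e1.mul_right e2).eq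
    have e4 : c₁ * (c₁⁻¹ * c₂) = c₂ := by group
    rw [e4] at e3; exact e3
  refine ⟨c₂, comm_all ρ hc₂x hc₂, ?_⟩
  have e : g⁻¹ * c₂ = (g⁻¹ * c₁) * (c₁⁻¹ * c₂) := by group
  rw [e]
  exact N.mul_mem hc₁N ((hN' _).mp hc₂N).1

/-- in an abelian invariant subgroup without fixed points, `y` inverts the fixed points of `x` -/
theorem y_inv_of_x_fix {W : Subgroup Γ} (hab : ∀ a ∈ W, ∀ b ∈ W, a * b = b * a)
    (hy : ρ t2 ∈ normalizer (W : Set Γ))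
    (hfix : ∀ u ∈ W, (∀ σ, ρ σ * u = u * ρ σ) → u = 1) {u : Γ} (hu : u ∈ W)
    (hxu : ρ c3 * u = u * ρ c3) : ρ t2 * u * (ρ t2)⁻¹ = u⁻¹ := by
  have hu' : ρ t2 * u * (ρ t2)⁻¹ ∈ W := nz_conj hy hu
  have h1 : u * (ρ t2 * u * (ρ t2)⁻¹) = 1 := by
    apply hfix _ (W.mul_mem hu hu')
    apply comm_all ρ
    · exact ((show Commute (ρ c3) u from hxu).mul_right (comm_conj_y ρ hxu)).eq
    · have e : ρ t2 * (u * (ρ t2 * u * (ρ t2)⁻¹)) * (ρ t2)⁻¹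
          = (ρ t2 * u * (ρ t2)⁻¹) * ((ρ t2 * ρ t2) * u * (ρ t2 * ρ t2)⁻¹) := by group
      rw [ry2] at e
      have e2 : ρ t2 * (u * (ρ t2 * u * (ρ t2)⁻¹)) * (ρ t2)⁻¹ = u * (ρ t2 * u * (ρ t2)⁻¹) := by
        rw [e, hab u hu _ hu']; group
      exact mul_inv_eq_iff_eq_mul.mp e2
  exact eq_inv_of_mul_eq_one_right h1

end fpf

section misc

/-- elements of an abelian subgroup killed by the `n`-th power -/
def powKer (R : Subgroup Γ) (n : ℕ) (h : ∀ a ∈ R, ∀ b ∈ R, a * b = b * a) : Subgroup Γ where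
  carrier := {g | g ∈ R ∧ g ^ n = 1}
  one_mem' := ⟨R.one_mem, one_pow n⟩
  mul_mem' := by
    rintro a b ⟨ha, ha'⟩ ⟨hb, hb'⟩
    exact ⟨R.mul_mem ha hb, by rw [(show Commute a b from h a ha b hb).mul_pow, ha', hb', one_mul]⟩
  inv_mem' := by
    rintro a ⟨ha, ha'⟩
    exact ⟨R.inv_mem ha, by rw [inv_pow, ha', inv_one]⟩

theorem mem_powKer {R : Subgroup Γ} {n : ℕ} {h : ∀ a ∈ R, ∀ b ∈ R, a * b = b * a} {g : Γ} :
    g ∈ powKer R n h ↔ g ∈ R ∧ g ^ n = 1 := Iff.rfl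

/-- the product `u (t u t⁻¹) (t² u t⁻²)` -/
def n3 (t u : Γ) : Γ := u * (t * u * t⁻¹) * (t * (t * u * t⁻¹) * t⁻¹)

theorem n3_fix {t u : Γ} (ht : t ^ 3 = 1) (h1 : Commute u (t * u * t⁻¹))
    (h2 : Commute u (t * (t * u * t⁻¹) * t⁻¹)) : t * n3 t u = n3 t u * t := by
  have e : t * (t * (t * u * t⁻¹) * t⁻¹) * t⁻¹ = u := by
    have h3 : t * t * t = 1 := by rwa [pow_succ, pow_two] at ht
    have : t * (t * (t * u * t⁻¹) * t⁻¹) * t⁻¹ = (t * t * t) * u * (t * t * t)⁻¹ := by group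
    rw [this, h3]; simp
  have e2 : t * n3 t u * t⁻¹ = n3 t u := by
    unfold n3
    calc t * (u * (t * u * t⁻¹) * (t * (t * u * t⁻¹) * t⁻¹)) * t⁻¹
        = (t * u * t⁻¹) * (t * (t * u * t⁻¹) * t⁻¹) * (t * (t * (t * u * t⁻¹) * t⁻¹) * t⁻¹) := by
          group
      _ = (t * u * t⁻¹) * (t * (t * u * t⁻¹) * t⁻¹) * u := by rw [e]
      _ = u * (t * u * t⁻¹) * (t * (t * u * t⁻¹) * t⁻¹) := by
          rw [← (h1.mul_right h2).eq]; exact (mul_assoc _ _ _).symm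
  exact mul_inv_eq_iff_eq_mul.mp e2

theorem comm_id1 {a b c : Γ} (hab : Commute a b) (hac : Commute a c) :
    a * (b * a) * (c * (b * a)) = b * (c * b) * (a * a * a) := by
  calc a * (b * a) * (c * (b * a)) = b * ((a * a) * (c * b)) * a := by
        rw [← mul_assoc a b a, hab.eq]; simp only [mul_assoc]
    _ = b * ((c * b) * (a * a)) * a := by
        rw [((hac.mul_left hac).mul_right (hab.mul_left hab)).eq]
    _ = b * (c * b) * (a * a * a) := by simp only [mul_assoc]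

variable [Finite Γ]

/-- a nontrivial `p`-group normalized by a `p`-group has a nontrivial fixed point -/
theorem pgroup_fixed {p : ℕ} [Fact p.Prime] {P N : Subgroup Γ} (hP : IsPGroup p P)
    (hN : IsPGroup p N) (hPN : P ≤ normalizer (N : Set Γ)) (hN1 : N ≠ ⊥) :
    ∃ z ∈ N, z ≠ 1 ∧ ∀ g ∈ P, g * z = z * g := by
  classical
  let _ : MulAction ↥P ↥N :=
    { smul := fun g n => ⟨(g : Γ) * n * (g : Γ)⁻¹, nz_conj (hPN g.2) n.2⟩
      one_smul := fun n => Subtype.ext (by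
        show ((1 : ↥P) : Γ) * n * ((1 : ↥P) : Γ)⁻¹ = n
        simp)
      mul_smul := fun g h n => Subtype.ext (by
        show ((g * h : ↥P) : Γ) * n * ((g * h : ↥P) : Γ)⁻¹
          = (g : Γ) * ((h : Γ) * n * (h : Γ)⁻¹) * (g : Γ)⁻¹
        simp [mul_assoc]) }
  have hdvd : p ∣ Nat.card ↥N := by
    obtain ⟨k, hk⟩ := IsPGroup.iff_card.mp hN
    rcases k with _ | k
    · exfalso; apply hN1
      rw [pow_zero] at hk
      exact (Subgroup.card_eq_one).mp hk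
    · rw [hk]; exact dvd_pow_self p (Nat.succ_ne_zero k)
  have h1 : (1 : ↥N) ∈ MulAction.fixedPoints ↥P ↥N := by
    intro g
    apply Subtype.ext
    show (g : Γ) * ((1 : ↥N) : Γ) * (g : Γ)⁻¹ = ((1 : ↥N) : Γ)
    simp
  obtain ⟨b, hb, hb1⟩ := hP.exists_fixed_point_of_prime_dvd_card_of_fixed_point ↥N hdvd h1
  refine ⟨b, b.2, ?_, ?_⟩
  · intro h
    apply hb1
    exact Subtype.ext (by simpa using h.symm)
  · intro g hg
    have h2 : (g : Γ) * (b : Γ) * (g : Γ)⁻¹ = b := congrArg Subtype.val (hb ⟨g, hg⟩)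
    exact mul_inv_eq_iff_eq_mul.mp h2

/-- a nontrivial `p`-group has an element of order `p` -/
theorem exists_order_p {p : ℕ} [Fact p.Prime] {W : Subgroup Γ} (hW : IsPGroup p W)
    (hW1 : W ≠ ⊥) : ∃ z ∈ W, z ≠ 1 ∧ z ^ p = 1 := by
  have hdvd : p ∣ Nat.card ↥W := by
    obtain ⟨k, hk⟩ := IsPGroup.iff_card.mp hW
    rcases k with _ | k
    · exfalso; apply hW1
      rw [pow_zero] at hk
      exact (Subgroup.card_eq_one).mp hk
    · rw [hk]; exact dvd_pow_self p (Nat.succ_ne_zero k)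
  obtain ⟨g, hg⟩ := exists_prime_orderOf_dvd_card' p hdvd
  refine ⟨g, g.2, ?_, ?_⟩
  · intro h
    have : g = 1 := Subtype.ext h
    rw [this, orderOf_one] at hg
    exact (Fact.out : p.Prime).one_lt.ne hg
  · have := pow_orderOf_eq_one g
    rw [hg] at this
    have h2 := congrArg Subtype.val this
    simpa using h2

/-- a subgroup containing a Sylow subgroup for every prime is everything -/
theorem eq_of_sylows_le {H L : Subgroup Γ} (hLH : L ≤ H)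
    (h : ∀ p : ℕ, p.Prime → ∃ P : Subgroup Γ, P ≤ L ∧
      Nat.card P = p ^ (Nat.card H).factorization p) : L = H := by
  have hH0 : Nat.card H ≠ 0 := Nat.card_pos.ne'
  have hL0 : Nat.card L ≠ 0 := Nat.card_pos.ne'
  have hdvd : Nat.card H ∣ Nat.card L := by
    rw [← Nat.factorization_le_iff_dvd hH0 hL0]
    intro p
    by_cases hp : p.Prime
    · obtain ⟨P, hPL, hPc⟩ := h p hp
      have h1 : p ^ (Nat.card H).factorization p ∣ Nat.card L :=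
        hPc ▸ Subgroup.card_dvd_of_le hPL
      exact (hp.pow_dvd_iff_le_factorization hL0).mp h1
    · rw [Nat.factorization_eq_zero_of_not_prime _ hp]; exact Nat.zero_le _
  exact Subgroup.eq_of_le_of_card_ge hLH (Nat.le_of_dvd Nat.card_pos hdvd)

/-- two abelian subgroups commuting elementwise generate an abelian subgroup -/
theorem sup_comm_of_comm {T B : Subgroup Γ} (hT : ∀ a ∈ T, ∀ b ∈ T, a * b = b * a)
    (hB : ∀ a ∈ B, ∀ b ∈ B, a * b = b * a) (hTB : ∀ a ∈ T, ∀ b ∈ B, a * b = b * a) :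
    ∀ a ∈ T ⊔ B, ∀ b ∈ T ⊔ B, a * b = b * a := by
  have h1 : T ⊔ B ≤ centralizer (T : Set Γ) :=
    sup_le (fun a ha => mem_centralizer_iff.mpr (fun b hb => hT b hb a ha))
      (fun a ha => mem_centralizer_iff.mpr (fun b hb => hTB b hb a ha))
  have h2 : T ⊔ B ≤ centralizer (B : Set Γ) :=
    sup_le (fun a ha => mem_centralizer_iff.mpr (fun b hb => (hTB a ha b hb).symm))
      (fun a ha => mem_centralizer_iff.mpr (fun b hb => hB b hb a ha))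
  have h3 : T ⊔ B ≤ centralizer ((T ⊔ B : Subgroup Γ) : Set Γ) := by
    rw [le_centralizer_iff]
    exact sup_le (le_centralizer_iff.mp h1) (le_centralizer_iff.mp h2)
  intro a ha b hb
  exact mem_centralizer_iff.mp (h3 hb) a ha

end misc

/-- hypotheses on the module `V` -/
structure VHyp (ρ : Equiv.Perm (Fin 3) →* Γ) (V : Subgroup Γ) (v : ℕ) : Prop where
  vprime : v.Prime
  v2 : v ≠ 2
  v3 : v ≠ 3
  comm : ∀ a ∈ V, ∀ b ∈ V, a * b = b * a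
  exp : ∀ a ∈ V, a ^ v = 1
  inv : ∀ σ, ρ σ ∈ normalizer (V : Set Γ)
  fpf : ∀ u ∈ V, (∀ σ, ρ σ * u = u * ρ σ) → u = 1

/-- hypotheses on an invariant subgroup `H` acting faithfully on `V` -/
structure HHyp (ρ : Equiv.Perm (Fin 3) →* Γ) (V H : Subgroup Γ) : Prop where
  inv : ∀ σ, ρ σ ∈ normalizer (H : Set Γ)
  normV : H ≤ normalizer (V : Set Γ)
  cop : (Nat.card H).Coprime 6
  faith : ∀ g ∈ H, (∀ u ∈ V, g * u = u * g) → g = 1
  fpf : ∀ g ∈ H, (∀ σ, ρ σ * g = g * ρ σ) → g = 1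
  h2 : ∀ g ∈ H, ∀ u ∈ V, ρ c3 * g = g * ρ c3 → ρ c3 * u = u * ρ c3 → g * u = u * g

theorem HHyp.mono [Finite Γ] {ρ : Equiv.Perm (Fin 3) →* Γ} {V H H₀ : Subgroup Γ}
    (h : HHyp ρ V H) (hle : H₀ ≤ H) (hinv : ∀ σ, ρ σ ∈ normalizer (H₀ : Set Γ)) :
    HHyp ρ V H₀ where
  inv := hinv
  normV := hle.trans h.normV
  cop := Nat.Coprime.coprime_dvd_left (Subgroup.card_dvd_of_le hle) h.cop
  faith := fun g hg => h.faith g (hle hg)
  fpf := fun g hg => h.fpf g (hle hg)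
  h2 := fun g hg => h.h2 g (hle hg)

theorem VHyp.isPGroup {ρ : Equiv.Perm (Fin 3) →* Γ} {V : Subgroup Γ} {v : ℕ}
    (h : VHyp ρ V v) : IsPGroup v V := by
  intro g
  refine ⟨1, ?_⟩
  apply Subtype.ext
  rw [pow_one, coe_pow]
  exact h.exp g g.2

end Cfsg.Agent.Helper34.S3
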