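/-
Helper library of seat helper34: hyperplane theory for an abelian group of prime exponent
acting coprimely and faithfully on an abelian group (internal form).
Namespace `Cfsg.Agent.Helper34.S3`.
-/
import Cfsg.Agent.Helper34.S3Basic

set_option autoImplicit false

namespace Cfsg.Agent.Helper34.S3

open Subgroup
open scoped commutatorElement

universe u

variable {Γ : Type u} [Group Γ] [Finite Γ]

/-- an abelian group `Z` of exponent `r` acting faithfully and coprimely on the abelian `V` -/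
structure ZHyp (V Z : Subgroup Γ) (r : ℕ) : Prop where
  rprime : r.Prime
  comm : ∀ a ∈ Z, ∀ b ∈ Z, a * b = b * a
  exp : ∀ a ∈ Z, a ^ r = 1
  normV : Z ≤ normalizer (V : Set Γ)
  cop : (Nat.card Z).Coprime (Nat.card V)
  faith : ∀ g ∈ Z, (∀ u ∈ V, g * u = u * g) → g = 1
  vcomm : ∀ a ∈ V, ∀ b ∈ V, a * b = b * a

/-- the "hyperplanes" of `Z` with nontrivial fixed points on `[V, Z]` -/
def hyp (V Z : Subgroup Γ) : Set (Subgroup Γ) :=
  {K | K ≤ Z ∧ (∃ a ∈ Z, K ⊔ zpowers a = Z) ∧ ⁅V, Z⁆ ⊓ centralizer (K : Set Γ) ≠ ⊥}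

/-- the fixed points of `K` on `[V, Z]` -/
def VK (V Z K : Subgroup Γ) : Subgroup Γ := ⁅V, Z⁆ ⊓ centralizer (K : Set Γ)

variable {V Z K K' : Subgroup Γ} {r : ℕ}

omit [Finite Γ] in
theorem exists_ne_one {H : Subgroup Γ} (h : H ≠ ⊥) : ∃ u ∈ H, u ≠ 1 := by
  by_contra hcon
  push Not at hcon
  exact h ((Subgroup.eq_bot_iff_forall H).mpr hcon)

omit [Finite Γ] in
theorem comm_le (h : ZHyp V Z r) : ⁅V, Z⁆ ≤ V := by
  rw [commutator_le]
  intro a ha z hz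
  have : ⁅a, z⁆ = a * (z * a⁻¹ * z⁻¹) := by rw [commutatorElement_def]; group
  rw [this]
  exact V.mul_mem ha (nz_conj (h.normV hz) (V.inv_mem ha))

omit [Finite Γ] in
theorem VK_le (h : ZHyp V Z r) : VK V Z K ≤ V := inf_le_left.trans (comm_le h)

omit [Finite Γ] in
theorem mem_VK {u : Γ} : u ∈ VK V Z K ↔ u ∈ ⁅V, Z⁆ ∧ ∀ k ∈ K, k * u = u * k := by
  simp [VK, mem_inf, mem_centralizer_iff]

theorem comm_cent_bot (h : ZHyp V Z r) : ⁅V, Z⁆ ⊓ centralizer (Z : Set Γ) = ⊥ :=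
  Helper35.commutator_inf_centralizer_eq_bot_of_comm h.normV h.cop h.vcomm

omit [Finite Γ] in
theorem solvZ (h : ZHyp V Z r) : Group.IsSolvable Z :=
  Group.isSolvable_of_comm (fun a b => Subtype.ext (h.comm a a.2 b b.2))

theorem hyp_ne (h : ZHyp V Z r) (hK : K ∈ hyp V Z) : ∃ a ∈ Z, a ∉ K := by
  by_contra hcon
  push Not at hcon
  apply hK.2.2
  have hZK : Z ≤ K := hcon
  rw [eq_bot_iff, ← comm_cent_bot h]
  exact inf_le_inf_left _ (centralizer_le hZK)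

theorem hyp_max (h : ZHyp V Z r) (hK : K ∈ hyp V Z) {g : Γ} (hg : g ∈ Z) (hgK : g ∉ K) :
    K ⊔ zpowers g = Z := by
  obtain ⟨hKZ, ⟨a, ha, haK⟩, -⟩ := hK
  apply le_antisymm (sup_le hKZ (zpowers_le.mpr hg))
  have hg' : g ∈ K ⊔ zpowers a := by rw [haK]; exact hg
  obtain ⟨k, hk, z, hz, hkz⟩ := Helper35.exists_mul_of_mem_sup_of_le_normalizer
    (zpowers_le.mpr (nz_of_comm h.comm hKZ ha)) hg'
  obtain ⟨i, rfl⟩ := mem_zpowers_iff.mp hz
  have hri : ¬ (r : ℤ) ∣ i := by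
    rintro ⟨m, rfl⟩
    apply hgK
    rw [hkz, zpow_mul, zpow_natCast, h.exp a ha, one_zpow, mul_one]
    exact hk
  have hcop : IsCoprime (r : ℤ) i :=
    (Nat.prime_iff_prime_int.mp h.rprime).coprime_iff_not_dvd.mpr hri
  obtain ⟨s, t, hst⟩ := hcop
  have ha1 : a = (a ^ i) ^ t := by
    calc a = a ^ (s * (r : ℤ) + t * i) := by rw [hst, zpow_one]
      _ = (a ^ s) ^ (r : ℤ) * (a ^ i) ^ t := by rw [zpow_add, zpow_mul, zpow_mul']
      _ = (a ^ i) ^ t := by rw [zpow_natCast, h.exp _ (Z.zpow_mem ha s), one_mul]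
  have hai : a ^ i = k⁻¹ * g := by rw [hkz]; group
  have haKg : a ∈ K ⊔ zpowers g := by
    rw [ha1, hai]
    exact zpow_mem (mul_mem (inv_mem (le_sup_left (a := K) hk))
      (le_sup_right (a := K) (mem_zpowers g))) t
  rw [← haK]
  exact sup_le le_sup_left (zpowers_le.mpr haKg)

theorem hyp_fpf (h : ZHyp V Z r) (hK : K ∈ hyp V Z) {g u : Γ} (hg : g ∈ Z)
    (hu : u ∈ VK V Z K) (hu1 : u ≠ 1) (hgu : g * u = u * g) : g ∈ K := by
  by_contra hgK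
  apply hu1
  have hmax := hyp_max h hK hg hgK
  have hu' := mem_VK.mp hu
  have hmem : u ∈ ⁅V, Z⁆ ⊓ centralizer (Z : Set Γ) := by
    refine mem_inf.mpr ⟨hu'.1, ?_⟩
    have hle : K ⊔ zpowers g ≤ centralizer ({u} : Set Γ) := by
      refine sup_le (fun k hk => ?_) (zpowers_le.mpr ?_)
      · rw [mem_centralizer_iff]
        intro x hx
        rw [Set.mem_singleton_iff] at hx
        rw [hx]; exact (hu'.2 k hk).symm
      · rw [mem_centralizer_iff]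
        intro x hx
        rw [Set.mem_singleton_iff] at hx
        rw [hx]; exact hgu.symm
    rw [mem_centralizer_iff]
    intro z hz
    have hz' : z ∈ centralizer ({u} : Set Γ) := hle (by rw [hmax]; exact hz)
    exact (mem_centralizer_iff.mp hz' u rfl).symm
  rw [comm_cent_bot h] at hmem
  exact mem_bot.mp hmem

theorem hyp_exists_diff (h : ZHyp V Z r) (hK : K ∈ hyp V Z) (hK' : K' ∈ hyp V Z)
    (hne : K ≠ K') : ∃ g ∈ K, g ∉ K' := by
  by_contra hcon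
  push Not at hcon
  have hle : K ≤ K' := hcon
  have hex : ∃ g ∈ K', g ∉ K := by
    by_contra hcon2
    push Not at hcon2
    exact hne (le_antisymm hle hcon2)
  obtain ⟨g, hg, hgK⟩ := hex
  have hmax := hyp_max h hK (hK'.1 hg) hgK
  obtain ⟨a, ha, haK'⟩ := hyp_ne h hK'
  apply haK'
  have : a ∈ K ⊔ zpowers g := by rw [hmax]; exact ha
  exact (sup_le hle (zpowers_le.mpr hg)) this

theorem hyp_disj (h : ZHyp V Z r) (hK : K ∈ hyp V Z) (hK' : K' ∈ hyp V Z) (hne : K ≠ K')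
    {u : Γ} (hu : u ∈ VK V Z K) (hu' : u ∈ VK V Z K') : u = 1 := by
  by_contra hu1
  obtain ⟨g, hg, hgK'⟩ := hyp_exists_diff h hK hK' hne
  exact hgK' (hyp_fpf h hK' (hK.1 hg) hu' hu1 ((mem_VK.mp hu).2 g hg))

theorem hyp_inter (h : ZHyp V Z r) {g : Γ} (hg : g ∈ Z) (hall : ∀ K ∈ hyp V Z, g ∈ K) :
    g = 1 := by
  apply h.faith g hg
  intro u hu
  obtain ⟨n, hn, c, hc, rfl⟩ :=
    Helper35.exists_commutator_mul_fixed h.normV h.cop (Or.inl (solvZ h)) hu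
  have hZn : Z ≤ normalizer ((⁅V, Z⁆ : Subgroup Γ) : Set Γ) :=
    Helper35.le_normalizer_commutator' h.normV le_normalizer
  have hcop : (Nat.card Z).Coprime (Nat.card (⁅V, Z⁆ : Subgroup Γ)) :=
    Nat.Coprime.coprime_dvd_right (Subgroup.card_dvd_of_le (comm_le h)) h.cop
  have key := Helper35.coprime_gen_cyclic_quotient h.comm hZn hcop
  have hle : ⁅V, Z⁆ ≤ centralizer ({g} : Set Γ) := by
    refine le_trans (le_of_eq key) (iSup₂_le ?_)
    intro B hB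
    by_cases hbot : ⁅V, Z⁆ ⊓ centralizer (B : Set Γ) = ⊥
    · rw [hbot]; exact bot_le
    · have hBK : B ∈ hyp V Z := ⟨hB.1, hB.2, hbot⟩
      intro w hw
      rw [mem_centralizer_iff]
      intro x hx
      rw [Set.mem_singleton_iff] at hx
      rw [hx]
      exact mem_centralizer_iff.mp (mem_inf.mp hw).2 g (hall B hBK)
  have h1 : g * n = n * g := mem_centralizer_iff.mp (hle hn) g rfl
  have h2 : g * c = c * g := mem_centralizer_iff.mp (mem_inf.mp hc).2 g hg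
  calc g * (n * c) = (g * n) * c := (mul_assoc _ _ _).symm
    _ = n * (g * c) := by rw [h1, mul_assoc]
    _ = n * c * g := by rw [h2, mul_assoc]

omit [Finite Γ] in
theorem VK_cj {t u : Γ} (htZ : t ∈ normalizer (Z : Set Γ)) (htV : t ∈ normalizer (V : Set Γ))
    (hu : u ∈ VK V Z K) : t * u * t⁻¹ ∈ VK V Z (cj t K) := by
  rw [mem_VK] at hu ⊢
  refine ⟨nz_conj (nz_comm htV htZ) hu.1, ?_⟩
  intro k hk
  rw [mem_cj] at hk
  have h1 := hu.2 _ hk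
  calc k * (t * u * t⁻¹) = t * ((t⁻¹ * k * t) * u) * t⁻¹ := by group
    _ = t * (u * (t⁻¹ * k * t)) * t⁻¹ := by rw [h1]
    _ = t * u * t⁻¹ * k := by group

theorem hyp_cj (h : ZHyp V Z r) {t : Γ} (htZ : t ∈ normalizer (Z : Set Γ))
    (htV : t ∈ normalizer (V : Set Γ)) (hK : K ∈ hyp V Z) : cj t K ∈ hyp V Z := by
  obtain ⟨hKZ, ⟨a, ha, haK⟩, hne⟩ := hK
  have hcjZ : cj t K ≤ Z := by
    intro g hg
    rw [mem_cj] at hg
    have := nz_conj htZ (hKZ hg)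
    have e : t * (t⁻¹ * g * t) * t⁻¹ = g := by group
    rwa [e] at this
  refine ⟨hcjZ, ⟨t * a * t⁻¹, nz_conj htZ ha, ?_⟩, ?_⟩
  · apply le_antisymm (sup_le hcjZ (zpowers_le.mpr (nz_conj htZ ha)))
    intro z hz
    have hz' : t⁻¹ * z * t ∈ K ⊔ zpowers a := by rw [haK]; exact nz_conj' htZ hz
    obtain ⟨k, hk, w, hw, hkw⟩ := Helper35.exists_mul_of_mem_sup_of_le_normalizer
      (zpowers_le.mpr (nz_of_comm h.comm hKZ ha)) hz'
    obtain ⟨i, rfl⟩ := mem_zpowers_iff.mp hw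
    have e : z = (t * k * t⁻¹) * (t * a * t⁻¹) ^ i := by
      rw [conj_zpow]
      calc z = t * (t⁻¹ * z * t) * t⁻¹ := by group
        _ = t * (k * a ^ i) * t⁻¹ := by rw [hkw]
        _ = t * k * t⁻¹ * (t * a ^ i * t⁻¹) := by group
    rw [e]
    exact mul_mem (le_sup_left (a := cj t K) (conj_mem_cj hk))
      (le_sup_right (a := cj t K) (zpow_mem (mem_zpowers _) i))
  · obtain ⟨u, hu, hu1⟩ := exists_ne_one hne
    intro hbot
    have h1 : t * u * t⁻¹ ∈ ⁅V, Z⁆ ⊓ centralizer ((cj t K : Subgroup Γ) : Set Γ) :=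
      VK_cj (K := K) htZ htV hu
    rw [hbot, mem_bot] at h1
    exact hu1 (conj_eq_one_iff.mp h1)

omit [Finite Γ] in
theorem hyp_VK_ne (hK : K ∈ hyp V Z) : ∃ u ∈ VK V Z K, u ≠ 1 := exists_ne_one hK.2.2

/-- an element normalizing `V` and centralizing `Z` normalizes each `VK` -/
theorem VK_norm_of_cent {g : Γ} (hKZ : K ≤ Z) (hgV : g ∈ normalizer (V : Set Γ))
    (hgZ : ∀ z ∈ Z, g * z = z * g) : g ∈ normalizer ((VK V Z K : Subgroup Γ) : Set Γ) := by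
  have hgZn : g ∈ normalizer (Z : Set Γ) := by
    apply nz_of_conj
    intro z hz
    rw [hgZ z hz, mul_inv_cancel_right]; exact hz
  have hgK : g ∈ normalizer (K : Set Γ) := by
    apply nz_of_conj
    intro z hz
    rw [hgZ z (hKZ hz), mul_inv_cancel_right]; exact hz
  apply nz_of_conj
  intro u hu
  have := VK_cj (K := K) hgZn hgV hu
  rwa [cj_eq_of_nz hgK] at this

theorem VK_norm_of_norm {t : Γ} (htZ : t ∈ normalizer (Z : Set Γ))
    (htV : t ∈ normalizer (V : Set Γ)) (htK : t ∈ normalizer (K : Set Γ)) :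
    t ∈ normalizer ((VK V Z K : Subgroup Γ) : Set Γ) := by
  apply nz_of_conj
  intro u hu
  have := VK_cj (K := K) htZ htV hu
  rwa [cj_eq_of_nz htK] at this

theorem VK_conj_Z (h : ZHyp V Z r) (hKZ : K ≤ Z) {g u : Γ} (hg : g ∈ Z)
    (hu : u ∈ VK V Z K) : g * u * g⁻¹ ∈ VK V Z K :=
  nz_conj (VK_norm_of_cent hKZ (h.normV hg) (fun z hz => h.comm g hg z hz)) hu

omit [Finite Γ] in
theorem prod_comm_map {W : Subgroup Γ} (hW : ∀ a ∈ W, ∀ b ∈ W, a * b = b * a) {c : Γ}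
    (hc : c ∈ normalizer (W : Set Γ)) :
    ∀ l : List (Subgroup Γ × Γ), (∀ p ∈ l, p.2 ∈ W) →
      ((l.map (fun s => (s.1, c * s.2 * c⁻¹ * s.2⁻¹))).map Prod.snd).prod
        = c * (l.map Prod.snd).prod * c⁻¹ * ((l.map Prod.snd).prod)⁻¹
      ∧ (l.map Prod.snd).prod ∈ W := by
  intro l
  induction l with
  | nil => intro _; simp
  | cons s l ih =>
    intro hmem
    have hs : s.2 ∈ W := hmem s List.mem_cons_self
    obtain ⟨ih1, ih2⟩ := ih (fun p hp => hmem p (List.mem_cons_of_mem _ hp))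
    refine ⟨?_, ?_⟩
    · simp only [List.map_cons, List.prod_cons]
      rw [ih1]
      obtain ⟨P, hP⟩ : ∃ P, P = (l.map Prod.snd).prod := ⟨_, rfl⟩
      rw [← hP] at ih2 ⊢
      have hcP : c * P * c⁻¹ ∈ W := nz_conj hc ih2
      have hcomm : Commute s.2⁻¹ (c * P * c⁻¹ * P⁻¹) :=
        hW _ (W.inv_mem hs) _ (W.mul_mem hcP (W.inv_mem ih2))
      calc c * s.2 * c⁻¹ * s.2⁻¹ * (c * P * c⁻¹ * P⁻¹)
          = c * s.2 * c⁻¹ * (s.2⁻¹ * (c * P * c⁻¹ * P⁻¹)) := by group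
        _ = c * s.2 * c⁻¹ * ((c * P * c⁻¹ * P⁻¹) * s.2⁻¹) := by rw [hcomm.eq]
        _ = c * (s.2 * P) * c⁻¹ * (s.2 * P)⁻¹ := by group
    · simp only [List.map_cons, List.prod_cons]
      exact W.mul_mem hs ih2

/-- independence of the `VK` for pairwise distinct hyperplanes -/
theorem ind_list_aux (h : ZHyp V Z r) : ∀ (n : ℕ) (l : List (Subgroup Γ × Γ)), l.length = n →
    l.Pairwise (fun p q => p.1 ≠ q.1) → (∀ p ∈ l, p.1 ∈ hyp V Z ∧ p.2 ∈ VK V Z p.1) →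
    (l.map Prod.snd).prod = 1 → ∀ p ∈ l, p.2 = 1 := by
  intro n
  induction n with
  | zero =>
    intro l hl _ _ _ p hp
    rw [List.length_eq_zero_iff] at hl
    rw [hl] at hp
    simp at hp
  | succ n ih =>
    intro l hl hpw hmem hprod
    cases l with
    | nil => simp at hl
    | cons p l =>
      have hl' : l.length = n := by simpa using hl
      rw [List.pairwise_cons] at hpw
      obtain ⟨hpne, hpw'⟩ := hpw
      have hp := hmem p List.mem_cons_self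
      have hmem' : ∀ q ∈ l, q.1 ∈ hyp V Z ∧ q.2 ∈ VK V Z q.1 :=
        fun q hq => hmem q (List.mem_cons_of_mem _ hq)
      rw [List.map_cons, List.prod_cons] at hprod
      have hA : ∀ q ∈ l, q.2 = 1 := by
        intro q hq
        by_contra hq1
        obtain ⟨g, hg, hgq⟩ := hyp_exists_diff h hp.1 (hmem' q hq).1 (hpne q hq)
        have hgZ : g ∈ Z := hp.1.1 hg
        have hgW : g ∈ normalizer ((⁅V, Z⁆ : Subgroup Γ) : Set Γ) :=
          nz_comm (h.normV hgZ) (le_normalizer hgZ)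
        have hWc : ∀ a ∈ (⁅V, Z⁆ : Subgroup Γ), ∀ b ∈ (⁅V, Z⁆ : Subgroup Γ), a * b = b * a :=
          fun a ha b hb => h.vcomm a (comm_le h ha) b (comm_le h hb)
        obtain ⟨e1, -⟩ := prod_comm_map hWc hgW l (fun s hs => (mem_VK.mp (hmem' s hs).2).1)
        have hprod' :
            ((l.map (fun s => (s.1, g * s.2 * g⁻¹ * s.2⁻¹))).map Prod.snd).prod = 1 := by
          rw [e1]
          have hP : (l.map Prod.snd).prod = p.2⁻¹ := eq_inv_of_mul_eq_one_right hprod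
          rw [hP]
          have hgp : g * p.2 = p.2 * g := (mem_VK.mp hp.2).2 g hg
          have e2 : g * p.2⁻¹ * g⁻¹ = p.2⁻¹ := by
            rw [(Commute.inv_right (show Commute g p.2 from hgp)).eq]; group
          rw [e2]; group
        have hres := ih (l.map (fun s => (s.1, g * s.2 * g⁻¹ * s.2⁻¹)))
          (by rw [List.length_map]; exact hl') (List.pairwise_map.mpr hpw') (by
          intro q' hq'
          obtain ⟨s, hs, rfl⟩ := List.mem_map.mp hq'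
          exact ⟨(hmem' s hs).1, (VK V Z s.1).mul_mem
            (VK_conj_Z h (hmem' s hs).1.1 hgZ (hmem' s hs).2)
            ((VK V Z s.1).inv_mem (hmem' s hs).2)⟩) hprod'
          (q.1, g * q.2 * g⁻¹ * q.2⁻¹) (List.mem_map.mpr ⟨q, hq, rfl⟩)
        have hgq2 : g * q.2 = q.2 * g := mul_inv_eq_iff_eq_mul.mp (mul_inv_eq_one.mp hres)
        exact hgq (hyp_fpf h (hmem' q hq).1 hgZ (hmem' q hq).2 hq1 hgq2)
      have hP1 : (l.map Prod.snd).prod = 1 := by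
        apply List.prod_eq_one
        intro x hx
        obtain ⟨q, hq, rfl⟩ := List.mem_map.mp hx
        exact hA q hq
      rw [hP1, mul_one] at hprod
      intro q hq
      rcases List.mem_cons.mp hq with rfl | hq'
      · exact hprod
      · exact hA q hq'

theorem ind_list (h : ZHyp V Z r) (l : List (Subgroup Γ × Γ))
    (hpw : l.Pairwise (fun p q => p.1 ≠ q.1))
    (hmem : ∀ p ∈ l, p.1 ∈ hyp V Z ∧ p.2 ∈ VK V Z p.1)
    (hprod : (l.map Prod.snd).prod = 1) : ∀ p ∈ l, p.2 = 1 :=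
  ind_list_aux h l.length l rfl hpw hmem hprod

/-- an element centralizing `Z` and commuting with a product of elements of distinct `VK`
commutes with each of them -/
theorem ind_comm (h : ZHyp V Z r) {c : Γ} (hcV : c ∈ normalizer (V : Set Γ))
    (hcZ : ∀ z ∈ Z, c * z = z * c) (l : List (Subgroup Γ × Γ))
    (hpw : l.Pairwise (fun p q => p.1 ≠ q.1))
    (hmem : ∀ p ∈ l, p.1 ∈ hyp V Z ∧ p.2 ∈ VK V Z p.1)
    (hc : c * (l.map Prod.snd).prod = (l.map Prod.snd).prod * c) : ∀ p ∈ l, c * p.2 = p.2 * c := by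
  have hcZn : c ∈ normalizer (Z : Set Γ) := by
    apply nz_of_conj
    intro z hz
    rw [hcZ z hz, mul_inv_cancel_right]; exact hz
  have hcW : c ∈ normalizer ((⁅V, Z⁆ : Subgroup Γ) : Set Γ) := nz_comm hcV hcZn
  have hWc : ∀ a ∈ (⁅V, Z⁆ : Subgroup Γ), ∀ b ∈ (⁅V, Z⁆ : Subgroup Γ), a * b = b * a :=
    fun a ha b hb => h.vcomm a (comm_le h ha) b (comm_le h hb)
  obtain ⟨e1, -⟩ := prod_comm_map hWc hcW l (fun s hs => (mem_VK.mp (hmem s hs).2).1)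
  have hprod' : ((l.map (fun s => (s.1, c * s.2 * c⁻¹ * s.2⁻¹))).map Prod.snd).prod = 1 := by
    rw [e1]
    exact mul_inv_eq_one.mpr (mul_inv_eq_iff_eq_mul.mpr hc)
  intro p hp
  have hres := ind_list h (l.map (fun s => (s.1, c * s.2 * c⁻¹ * s.2⁻¹)))
    (List.pairwise_map.mpr hpw) (by
    intro q' hq'
    obtain ⟨s, hs, rfl⟩ := List.mem_map.mp hq'
    exact ⟨(hmem s hs).1, (VK V Z s.1).mul_mem
      (nz_conj (VK_norm_of_cent (hmem s hs).1.1 hcV hcZ) (hmem s hs).2)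
      ((VK V Z s.1).inv_mem (hmem s hs).2)⟩) hprod'
    (p.1, c * p.2 * c⁻¹ * p.2⁻¹) (List.mem_map.mpr ⟨p, hp, rfl⟩)
  exact mul_inv_eq_iff_eq_mul.mp (mul_inv_eq_one.mp hres)

theorem ind3 (h : ZHyp V Z r) {K₀ K₁ K₂ : Subgroup Γ} {u₀ u₁ u₂ : Γ} (h0 : K₀ ∈ hyp V Z)
    (h1 : K₁ ∈ hyp V Z) (h2 : K₂ ∈ hyp V Z) (h01 : K₀ ≠ K₁) (h02 : K₀ ≠ K₂) (h12 : K₁ ≠ K₂)
    (hu0 : u₀ ∈ VK V Z K₀) (hu1 : u₁ ∈ VK V Z K₁) (hu2 : u₂ ∈ VK V Z K₂)
    (hprod : u₀ * u₁ * u₂ = 1) : u₀ = 1 :=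
  ind_list h [(K₀, u₀), (K₁, u₁), (K₂, u₂)] (by simp [h01, h02, h12])
    (by simp [h0, h1, h2, hu0, hu1, hu2]) (by simpa [mul_assoc] using hprod) (K₀, u₀) (by simp)

theorem ind3_comm (h : ZHyp V Z r) {K₀ K₁ K₂ : Subgroup Γ} {u₀ u₁ u₂ c : Γ}
    (hcV : c ∈ normalizer (V : Set Γ)) (hcZ : ∀ z ∈ Z, c * z = z * c) (h0 : K₀ ∈ hyp V Z)
    (h1 : K₁ ∈ hyp V Z) (h2 : K₂ ∈ hyp V Z) (h01 : K₀ ≠ K₁) (h02 : K₀ ≠ K₂) (h12 : K₁ ≠ K₂)
    (hu0 : u₀ ∈ VK V Z K₀) (hu1 : u₁ ∈ VK V Z K₁) (hu2 : u₂ ∈ VK V Z K₂)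
    (hc : c * (u₀ * u₁ * u₂) = (u₀ * u₁ * u₂) * c) : c * u₀ = u₀ * c :=
  ind_comm h hcV hcZ [(K₀, u₀), (K₁, u₁), (K₂, u₂)] (by simp [h01, h02, h12])
    (by simp [h0, h1, h2, hu0, hu1, hu2]) (by simpa [mul_assoc] using hc) (K₀, u₀) (by simp)

omit [Finite Γ] in
theorem cj3 {x : Γ} (hx3 : x ^ 3 = 1) (K : Subgroup Γ) : cj x (cj x (cj x K)) = K := by
  rw [← cj_mul, ← cj_mul]
  have h3 : x * x * x = 1 := by rwa [pow_succ, pow_two] at hx3
  rw [h3, cj_one]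

omit [Finite Γ] in
theorem triple_distinct {x : Γ} (hx3 : x ^ 3 = 1) {K : Subgroup Γ}
    (hx : x ∉ normalizer (K : Set Γ)) :
    K ≠ cj x K ∧ cj x K ≠ cj x (cj x K) ∧ K ≠ cj x (cj x K) := by
  have h1 : K ≠ cj x K := fun h => hx (nz_of_cj_eq h.symm)
  refine ⟨h1, fun h => h1 (cj_injective x h), fun h => ?_⟩
  apply h1
  have h2 := congrArg (cj x) h
  rw [cj3 hx3] at h2
  exact h2.symm

/-- if `y` is an involution normalizing the hyperplane `K`, then `y t y⁻¹` and `t` act in the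
same way on `Z / K` -/
theorem pm_one (h : ZHyp V Z r) (hK : K ∈ hyp V Z) {y t : Γ} (hy2 : y * y = 1)
    (hyZ : y ∈ normalizer (Z : Set Γ)) (hyK : y ∈ normalizer (K : Set Γ))
    (htZ : t ∈ normalizer (Z : Set Γ)) (htK : t ∈ normalizer (K : Set Γ)) :
    ∀ g ∈ Z, (y * t * y⁻¹) * g * (y * t * y⁻¹)⁻¹ * (t * g * t⁻¹)⁻¹ ∈ K := by
  have hKZ := hK.1
  have hdich : (∀ g ∈ Z, y * g * y⁻¹ * g⁻¹ ∈ K) ∨ (∀ g ∈ Z, y * g * y⁻¹ * g ∈ K) := by
    by_cases hM : ∀ g ∈ Z, y * g * y⁻¹ * g⁻¹ ∈ K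
    · exact Or.inl hM
    · right
      push Not at hM
      obtain ⟨g₀, hg₀, hg₀K⟩ := hM
      intro g hg
      have hyg : y * g * y⁻¹ ∈ Z := nz_conj hyZ hg
      obtain ⟨a, ha⟩ : ∃ a, a = g * (y * g * y⁻¹) := ⟨_, rfl⟩
      have haZ : a ∈ Z := by rw [ha]; exact Z.mul_mem hg hyg
      have hya : y * a * y⁻¹ = a := by
        have e : y * a * y⁻¹ = (y * g * y⁻¹) * ((y * y) * g * (y * y)⁻¹) := by rw [ha]; group
        rw [e, hy2, ha, h.comm g hg _ hyg]; group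
      have haK : a ∈ K := by
        by_contra haK
        have hmax := hyp_max h hK haZ haK
        have hg₀' : g₀ ∈ K ⊔ zpowers a := by rw [hmax]; exact hg₀
        obtain ⟨k, hk, w, hw, hkw⟩ := Helper35.exists_mul_of_mem_sup_of_le_normalizer
          (zpowers_le.mpr (nz_of_comm h.comm hKZ haZ)) hg₀'
        obtain ⟨i, rfl⟩ := mem_zpowers_iff.mp hw
        apply hg₀K
        have hyai : y * a ^ i * y⁻¹ = a ^ i := by rw [← conj_zpow, hya]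
        have e : y * g₀ * y⁻¹ * g₀⁻¹
            = (y * k * y⁻¹) * (y * a ^ i * y⁻¹) * (a ^ i)⁻¹ * k⁻¹ := by rw [hkw]; group
        rw [e, hyai, mul_inv_cancel_right]
        exact K.mul_mem (nz_conj hyK hk) (K.inv_mem hk)
      rw [← h.comm g hg _ hyg, ← ha]
      exact haK
  intro g hg
  have hh₁ : y⁻¹ * g * y ∈ Z := nz_conj' hyZ hg
  have hh₂ : t * (y⁻¹ * g * y) * t⁻¹ ∈ Z := nz_conj htZ hh₁
  rcases hdich with hd | hd
  · have e : (y * t * y⁻¹) * g * (y * t * y⁻¹)⁻¹ * (t * g * t⁻¹)⁻¹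
        = (y * (t * (y⁻¹ * g * y) * t⁻¹) * y⁻¹ * (t * (y⁻¹ * g * y) * t⁻¹)⁻¹)
          * (t * (y * (y⁻¹ * g * y) * y⁻¹ * (y⁻¹ * g * y)⁻¹)⁻¹ * t⁻¹) := by group
    rw [e]
    exact K.mul_mem (hd _ hh₂) (nz_conj htK (K.inv_mem (hd _ hh₁)))
  · have e : (y * t * y⁻¹) * g * (y * t * y⁻¹)⁻¹ * (t * g * t⁻¹)⁻¹
        = (y * (t * (y⁻¹ * g * y) * t⁻¹) * y⁻¹ * (t * (y⁻¹ * g * y) * t⁻¹))
          * (t * (y * (y⁻¹ * g * y) * y⁻¹ * (y⁻¹ * g * y))⁻¹ * t⁻¹) := by group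
    rw [e]
    exact K.mul_mem (hd _ hh₂) (nz_conj htK (K.inv_mem (hd _ hh₁)))

/-- if `x` and `y` both normalize the hyperplane `K`, then `x` acts trivially on `Z / K` -/
theorem x_triv_of_xy_norm (ρ : Equiv.Perm (Fin 3) →* Γ) (h : ZHyp V Z r) (hK : K ∈ hyp V Z)
    (hZinv : ∀ σ, ρ σ ∈ normalizer (Z : Set Γ)) (hxK : ρ c3 ∈ normalizer (K : Set Γ))
    (hyK : ρ t2 ∈ normalizer (K : Set Γ)) : ∀ g ∈ Z, ρ c3 * g * (ρ c3)⁻¹ * g⁻¹ ∈ K := by
  intro g hg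
  have key := pm_one h hK (ry2 ρ) (hZinv t2) hyK (hZinv c3) hxK (ρ c3 * g * (ρ c3)⁻¹)
    (nz_conj (hZinv c3) hg)
  rw [rel1] at key
  have e : (ρ c3)⁻¹ * (ρ c3 * g * (ρ c3)⁻¹) * (ρ c3)⁻¹⁻¹
      * (ρ c3 * (ρ c3 * g * (ρ c3)⁻¹) * (ρ c3)⁻¹)⁻¹
      = g * ((ρ c3 * ρ c3) * g * (ρ c3 * ρ c3)⁻¹)⁻¹ := by group
  rw [e, ← xinv] at key
  have h1 := nz_conj hxK key
  have e2 : ρ c3 * (g * ((ρ c3)⁻¹ * g * (ρ c3)⁻¹⁻¹)⁻¹) * (ρ c3)⁻¹
      = ρ c3 * g * (ρ c3)⁻¹ * g⁻¹ := by group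
  rwa [e2] at h1

/-- a hyperplane moved by `x` is normalized by one of the three involutions -/
theorem stab {ρ : Equiv.Perm (Fin 3) →* Γ} {v : ℕ} (hV : VHyp ρ V v) (h : ZHyp V Z r)
    (hZinv : ∀ σ, ρ σ ∈ normalizer (Z : Set Γ)) (hK : K ∈ hyp V Z)
    (hx : ρ c3 ∉ normalizer (K : Set Γ)) :
    ρ t2 ∈ normalizer (K : Set Γ) ∨ ρ c3 * ρ t2 * (ρ c3)⁻¹ ∈ normalizer (K : Set Γ)
      ∨ (ρ c3)⁻¹ * ρ t2 * ρ c3 ∈ normalizer (K : Set Γ) := by
  by_contra hcon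
  push Not at hcon
  obtain ⟨hy0, hy1, hy2⟩ := hcon
  have hcases : ∀ σ : Equiv.Perm (Fin 3), σ = 1 ∨ σ = c3 ∨ σ = c3⁻¹ ∨ σ = t2
      ∨ σ = c3 * t2 * c3⁻¹ ∨ σ = c3⁻¹ * t2 * c3 := by decide
  have hstab : ∀ σ, ρ σ ∈ normalizer (K : Set Γ) → σ = 1 := by
    intro σ hσ
    rcases hcases σ with rfl | rfl | rfl | rfl | rfl | rfl
    · rfl
    · exact absurd hσ hx
    · rw [map_inv] at hσ
      exact absurd (inv_mem_iff.mp hσ) hx
    · exact absurd hσ hy0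
    · rw [map_mul, map_mul, map_inv] at hσ
      exact absurd hσ hy1
    · rw [map_mul, map_mul, map_inv] at hσ
      exact absurd hσ hy2
  have hinj : ∀ σ τ, cj (ρ σ) K = cj (ρ τ) K → σ = τ := by
    intro σ τ hστ
    have h1 := congrArg (cj (ρ τ)⁻¹) hστ
    rw [cj_inv_cj, ← cj_mul, ← map_inv, ← map_mul] at h1
    have h2 := hstab _ (nz_of_cj_eq h1)
    exact (inv_mul_eq_one.mp h2).symm
  obtain ⟨u, hu, hu1⟩ := hyp_VK_ne hK
  have huV : u ∈ V := VK_le h hu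
  have hnd : ([1, c3, c3 ^ 2, t2, t2 * c3, t2 * c3 ^ 2] : List (Equiv.Perm (Fin 3))).Nodup := by
    decide
  have hpw : (([1, c3, c3 ^ 2, t2, t2 * c3, t2 * c3 ^ 2] : List (Equiv.Perm (Fin 3))).map
      (fun σ => (cj (ρ σ) K, ρ σ * u * (ρ σ)⁻¹))).Pairwise (fun p q => p.1 ≠ q.1) :=
    List.pairwise_map.mpr (List.Pairwise.imp (fun hab hcj => hab (hinj _ _ hcj)) hnd)
  have hn : ρ c3 * n3 (ρ c3) u = n3 (ρ c3) u * ρ c3 := by
    apply n3_fix (rx3 ρ)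
    · exact hV.comm u huV _ (nz_conj (hV.inv c3) huV)
    · exact hV.comm u huV _ (nz_conj (hV.inv c3) (nz_conj (hV.inv c3) huV))
  have hnV : n3 (ρ c3) u ∈ V := by
    unfold n3
    exact V.mul_mem (V.mul_mem huV (nz_conj (hV.inv c3) huV))
      (nz_conj (hV.inv c3) (nz_conj (hV.inv c3) huV))
  have hyn := y_inv_of_x_fix ρ hV.comm (hV.inv t2) hV.fpf hnV hn
  have hprod : ((([1, c3, c3 ^ 2, t2, t2 * c3, t2 * c3 ^ 2] : List (Equiv.Perm (Fin 3))).map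
      (fun σ => (cj (ρ σ) K, ρ σ * u * (ρ σ)⁻¹))).map Prod.snd).prod = 1 := by
    have e : ((([1, c3, c3 ^ 2, t2, t2 * c3, t2 * c3 ^ 2] : List (Equiv.Perm (Fin 3))).map
        (fun σ => (cj (ρ σ) K, ρ σ * u * (ρ σ)⁻¹))).map Prod.snd).prod
        = n3 (ρ c3) u * (ρ t2 * n3 (ρ c3) u * (ρ t2)⁻¹) := by
      simp only [List.map_cons, List.map_nil, List.prod_cons, List.prod_nil, map_mul, map_pow,
        map_one]
      unfold n3
      group
    rw [e, hyn, mul_inv_cancel]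
  have hres := ind_list h _ hpw (by
    intro q' hq'
    obtain ⟨σ, -, rfl⟩ := List.mem_map.mp hq'
    exact ⟨hyp_cj h (hZinv σ) (hV.inv σ) hK, VK_cj (hZinv σ) (hV.inv σ) hu⟩) hprod
    (cj (ρ 1) K, ρ 1 * u * (ρ 1)⁻¹) (List.mem_map.mpr ⟨1, by simp, rfl⟩)
  apply hu1
  simpa using hres

/-- the norm argument: the product of the `S`-conjugates of `g` is fixed by `S` -/
theorem norm_arg {R S K S₀ : Subgroup Γ} (hRab : ∀ a ∈ R, ∀ b ∈ R, a * b = b * a)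
    (hSR : S ≤ normalizer (R : Set Γ)) (hfix : ∀ c ∈ R, (∀ t ∈ S, t * c = c * t) → c = 1)
    {g : Γ} (hg : g ∈ R)
    (h1 : ∀ t ∈ S, t ∈ S₀ → t * g * t⁻¹ * g⁻¹ ∈ K) (h2 : ∀ t ∈ S, t ∉ S₀ → t * g * t⁻¹ ∈ K) :
    ∃ n, n ∣ Nat.card S ∧ g ^ n ∈ K := by
  classical
  letI : CommGroup ↥R :=
    { (inferInstance : Group ↥R) with
      mul_comm := fun a b => Subtype.ext (hRab a a.2 b b.2) }
  haveI : Fintype ↥S := Fintype.ofFinite _
  let c : ↥S → ↥R →* ↥R := fun t =>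
    MonoidHom.mk' (fun h => ⟨(t : Γ) * h * (t : Γ)⁻¹, nz_conj (hSR t.2) h.2⟩)
      (by intro a b; apply Subtype.ext; simp [mul_assoc])
  have hN : (∏ t : ↥S, c t ⟨g, hg⟩) = 1 := by
    apply Subtype.ext
    apply hfix _ (∏ t : ↥S, c t ⟨g, hg⟩).2
    intro s hs
    have h3 : c ⟨s, hs⟩ (∏ t : ↥S, c t ⟨g, hg⟩) = ∏ t : ↥S, c t ⟨g, hg⟩ := by
      rw [map_prod]
      exact Fintype.prod_equiv (Equiv.mulLeft (⟨s, hs⟩ : ↥S)) _ _ (fun t => by
        apply Subtype.ext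
        simp [c, mul_assoc])
    have h4 : s * ((∏ t : ↥S, c t ⟨g, hg⟩ : ↥R) : Γ) * s⁻¹ = (∏ t : ↥S, c t ⟨g, hg⟩ : ↥R) :=
      congrArg Subtype.val h3
    exact mul_inv_eq_iff_eq_mul.mp h4
  have hK' : ∏ t : ↥S, (c t ⟨g, hg⟩ * (if (t : Γ) ∈ S₀ then (⟨g, hg⟩ : ↥R) else 1)⁻¹)
      ∈ K.subgroupOf R := by
    apply Subgroup.prod_mem
    intro t _
    rw [mem_subgroupOf]
    split_ifs with ht
    · exact h1 t t.2 ht
    · simpa [c] using h2 t t.2 ht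
  rw [Finset.prod_mul_distrib, Finset.prod_inv_distrib, Finset.prod_ite, Finset.prod_const,
    Finset.prod_const_one, mul_one, hN, one_mul, inv_mem_iff, mem_subgroupOf] at hK'
  refine ⟨(Finset.univ.filter (fun t : ↥S => (t : Γ) ∈ S₀)).card, ?_, ?_⟩
  · have hn : (Finset.univ.filter (fun t : ↥S => (t : Γ) ∈ S₀)).card
        = Nat.card ↥(S₀.subgroupOf S) := by
      rw [← Fintype.card_subtype]
      exact (Nat.card_eq_fintype_card).symm
    rw [hn]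
    exact Subgroup.card_subgroup_dvd_card _
  · simpa using hK'

end Cfsg.Agent.Helper34.S3
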