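/-
Helper library of seat helper34: the "two primes" configuration for a fixed-point-free action
of the symmetric group of degree 3 is impossible.  Namespace `Cfsg.Agent.Helper34.S3`.
-/
import Cfsg.Agent.Helper34.S3Hyp
import Cfsg.Agent.Helper63.ShultGroup

set_option autoImplicit false

namespace Cfsg.Agent.Helper34.S3

open Subgroup
open scoped commutatorElement

universe u

variable {Γ : Type u} [Group Γ] [Finite Γ]

theorem prime_dvd_card_of_ne_bot {p : ℕ} [Fact p.Prime] {P : Subgroup Γ} (hP : IsPGroup p P) (hP1 : P ≠ ⊥) :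
    p ∣ Nat.card P := by
  obtain ⟨k, hk⟩ := IsPGroup.iff_card.mp hP
  rcases k with _ | k
  · exfalso; apply hP1
    rw [pow_zero] at hk
    exact (Subgroup.card_eq_one).mp hk
  · rw [hk]; exact dvd_pow_self p (Nat.succ_ne_zero k)

omit [Finite Γ] in
theorem nz_cj' {s t : Γ} {K : Subgroup Γ}
    (h : t ∈ normalizer ((cj s K : Subgroup Γ) : Set Γ)) :
    s⁻¹ * t * s ∈ normalizer (K : Set Γ) := by
  apply nz_of_cj_eq
  rw [cj_mul, cj_mul, cj_eq_of_nz h, cj_inv_cj]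

/-- the minimal configuration: `R` a normal abelian `r`-group, `S` an abelian `ℓ`-group -/
structure NNHyp (ρ : Equiv.Perm (Fin 3) →* Γ) (V : Subgroup Γ) (v : ℕ) (R S : Subgroup Γ)
    (r ℓ : ℕ) : Prop where
  hV : VHyp ρ V v
  hH : HHyp ρ V (R ⊔ S)
  rprime : r.Prime
  lprime : ℓ.Prime
  hRp : IsPGroup r R
  hSp : IsPGroup ℓ S
  hrl : r ≠ ℓ
  hrv : r ≠ v
  hRinv : ∀ σ, ρ σ ∈ normalizer (R : Set Γ)
  hSinv : ∀ σ, ρ σ ∈ normalizer (S : Set Γ)
  hRab : ∀ a ∈ R, ∀ b ∈ R, a * b = b * a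
  hSab : ∀ a ∈ S, ∀ b ∈ S, a * b = b * a
  hSR : S ≤ normalizer (R : Set Γ)
  hmin : ∀ H₀ : Subgroup Γ, H₀ ≤ R ⊔ S → H₀ ≠ R ⊔ S →
    (∀ σ, ρ σ ∈ normalizer (H₀ : Set Γ)) → ∀ a ∈ H₀, ∀ b ∈ H₀, a * b = b * a
  hnc : ∃ g ∈ R, ∃ t ∈ S, g * t ≠ t * g

variable {ρ : Equiv.Perm (Fin 3) →* Γ} {V R S : Subgroup Γ} {v r ℓ : ℕ}

namespace NNHyp

omit [Finite Γ] in
theorem disj (h : NNHyp ρ V v R S r ℓ) : R ⊓ S = ⊥ := by
  haveI : Fact r.Prime := ⟨h.rprime⟩
  haveI : Fact ℓ.Prime := ⟨h.lprime⟩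
  exact (IsPGroup.disjoint_of_ne r ℓ h.hrl R S h.hRp h.hSp).eq_bot

theorem copSR (h : NNHyp ρ V v R S r ℓ) : (Nat.card S).Coprime (Nat.card R) := by
  haveI : Fact r.Prime := ⟨h.rprime⟩
  haveI : Fact ℓ.Prime := ⟨h.lprime⟩
  exact IsPGroup.coprime_card_of_ne ℓ r h.hrl.symm S R h.hSp h.hRp

theorem copRV (h : NNHyp ρ V v R S r ℓ) : (Nat.card R).Coprime (Nat.card V) := by
  haveI : Fact r.Prime := ⟨h.rprime⟩
  haveI : Fact v.Prime := ⟨h.hV.vprime⟩
  exact IsPGroup.coprime_card_of_ne r v h.hrv R V h.hRp h.hV.isPGroup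

omit [Finite Γ] in
theorem Rne (h : NNHyp ρ V v R S r ℓ) : R ≠ ⊥ := by
  intro hR
  obtain ⟨g, hg, t, ht, hgt⟩ := h.hnc
  rw [hR, mem_bot] at hg
  rw [hg] at hgt
  simp at hgt

omit [Finite Γ] in
theorem Sne (h : NNHyp ρ V v R S r ℓ) : S ≠ ⊥ := by
  intro hS
  obtain ⟨g, hg, t, ht, hgt⟩ := h.hnc
  rw [hS, mem_bot] at ht
  rw [ht] at hgt
  simp at hgt

theorem copR6 (h : NNHyp ρ V v R S r ℓ) : (Nat.card R).Coprime 6 :=
  Nat.Coprime.coprime_dvd_left (Subgroup.card_dvd_of_le le_sup_left) h.hH.cop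

theorem copS6 (h : NNHyp ρ V v R S r ℓ) : (Nat.card S).Coprime 6 :=
  Nat.Coprime.coprime_dvd_left (Subgroup.card_dvd_of_le le_sup_right) h.hH.cop

theorem r3 (h : NNHyp ρ V v R S r ℓ) : r ≠ 3 := by
  intro hr
  haveI : Fact r.Prime := ⟨h.rprime⟩
  have h1 := prime_dvd_card_of_ne_bot h.hRp h.Rne
  rw [hr] at h1
  have h2 : (Nat.card R).Coprime 3 := Nat.Coprime.coprime_dvd_right (by norm_num) h.copR6
  exact absurd (Nat.Coprime.eq_one_of_dvd h2.symm h1) (by norm_num)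

theorem l3 (h : NNHyp ρ V v R S r ℓ) : ℓ ≠ 3 := by
  intro hr
  haveI : Fact ℓ.Prime := ⟨h.lprime⟩
  have h1 := prime_dvd_card_of_ne_bot h.hSp h.Sne
  rw [hr] at h1
  have h2 : (Nat.card S).Coprime 3 := Nat.Coprime.coprime_dvd_right (by norm_num) h.copS6
  exact absurd (Nat.Coprime.eq_one_of_dvd h2.symm h1) (by norm_num)

omit [Finite Γ] in
theorem h4 (h : NNHyp ρ V v R S r ℓ) {R₀ : Subgroup Γ} (hR₀ : R₀ ≤ R) (hne : R₀ ≠ R)
    (hinv : ∀ σ, ρ σ ∈ normalizer (R₀ : Set Γ)) (hS : S ≤ normalizer (R₀ : Set Γ)) :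
    ∀ a ∈ R₀, ∀ t ∈ S, a * t = t * a := by
  have hle : R₀ ⊔ S ≤ R ⊔ S := sup_le_sup_right hR₀ S
  have hne' : R₀ ⊔ S ≠ R ⊔ S := by
    intro heq
    apply hne
    apply le_antisymm hR₀
    intro g hg
    have hg' : g ∈ R₀ ⊔ S := by rw [heq]; exact mem_sup_left hg
    obtain ⟨a, ha, s, hs, hgas⟩ := Helper35.exists_mul_of_mem_sup_of_le_normalizer hS hg'
    have hsR : s ∈ R := by
      have e : s = a⁻¹ * g := by rw [hgas]; group
      rw [e]; exact R.mul_mem (R.inv_mem (hR₀ ha)) hg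
    have hs1 : s = 1 := by
      have : s ∈ R ⊓ S := mem_inf.mpr ⟨hsR, hs⟩
      rw [h.disj] at this; exact mem_bot.mp this
    rw [hgas, hs1, mul_one]; exact ha
  have hab := h.hmin (R₀ ⊔ S) hle hne' (fun σ => nz_sup (hinv σ) (h.hSinv σ))
  intro a ha t ht
  exact hab a (mem_sup_left ha) t (mem_sup_right ht)

omit [Finite Γ] in
theorem h5 (h : NNHyp ρ V v R S r ℓ) {S₀ : Subgroup Γ} (hS₀ : S₀ ≤ S) (hne : S₀ ≠ S)
    (hinv : ∀ σ, ρ σ ∈ normalizer (S₀ : Set Γ)) : ∀ g ∈ R, ∀ t ∈ S₀, g * t = t * g := by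
  have hle : R ⊔ S₀ ≤ R ⊔ S := sup_le_sup_left hS₀ R
  have hne' : R ⊔ S₀ ≠ R ⊔ S := by
    intro heq
    apply hne
    apply le_antisymm hS₀
    intro s hs
    have hs' : s ∈ R ⊔ S₀ := by rw [heq]; exact mem_sup_right hs
    obtain ⟨g, hg, s₀, hs₀, hsgs⟩ :=
      Helper35.exists_mul_of_mem_sup_of_le_normalizer (hS₀.trans h.hSR) hs'
    have hgS : g ∈ S := by
      have e : g = s * s₀⁻¹ := by rw [hsgs]; group
      rw [e]; exact S.mul_mem hs (S.inv_mem (hS₀ hs₀))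
    have hg1 : g = 1 := by
      have : g ∈ R ⊓ S := mem_inf.mpr ⟨hg, hgS⟩
      rw [h.disj] at this; exact mem_bot.mp this
    rw [hsgs, hg1, one_mul]; exact hs₀
  have hab := h.hmin (R ⊔ S₀) hle hne' (fun σ => nz_sup (h.hRinv σ) (hinv σ))
  intro g hg t ht
  exact hab g (mem_sup_left hg) t (mem_sup_right ht)

theorem solvS (h : NNHyp ρ V v R S r ℓ) : Group.IsSolvable S :=
  Group.isSolvable_of_comm (fun a b => Subtype.ext (h.hSab a a.2 b b.2))

theorem cent (h : NNHyp ρ V v R S r ℓ) : ∀ c ∈ R, (∀ t ∈ S, t * c = c * t) → c = 1 := by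
  have hbot : ⁅R, S⁆ ⊓ centralizer (S : Set Γ) = ⊥ :=
    Helper35.commutator_inf_centralizer_eq_bot_of_comm h.hSR h.copSR h.hRab
  have hle : ⁅R, S⁆ ≤ R := by
    rw [commutator_le]
    intro a ha s hs
    have e : ⁅a, s⁆ = a * (s * a⁻¹ * s⁻¹) := by rw [commutatorElement_def]; group
    rw [e]; exact R.mul_mem ha (nz_conj (h.hSR hs) (R.inv_mem ha))
  have heq : ⁅R, S⁆ = R := by
    by_contra hne
    have h1 := h.h4 hle hne (fun σ => nz_comm (h.hRinv σ) (h.hSinv σ))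
      (Helper35.le_normalizer_commutator' h.hSR le_normalizer)
    have h2 : ⁅⁅R, S⁆, S⁆ = ⊥ := by
      rw [commutator_eq_bot_iff_le_centralizer]
      intro a ha
      rw [mem_centralizer_iff]
      intro t ht
      exact (h1 a ha t ht).symm
    rw [Helper35.commutator_commutator_eq_of_coprime h.hSR h.copSR (Or.inl h.solvS)] at h2
    rw [commutator_eq_bot_iff_le_centralizer] at h2
    obtain ⟨g, hg, t, ht, hgt⟩ := h.hnc
    exact hgt (mem_centralizer_iff.mp (h2 hg) t ht).symm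
  intro c hc hcS
  have hmem : c ∈ ⁅R, S⁆ ⊓ centralizer (S : Set Γ) := by
    rw [heq]
    exact mem_inf.mpr ⟨hc, mem_centralizer_iff.mpr hcS⟩
  rw [hbot] at hmem
  exact mem_bot.mp hmem

theorem exp (h : NNHyp ρ V v R S r ℓ) : ∀ g ∈ R, g ^ r = 1 := by
  haveI : Fact r.Prime := ⟨h.rprime⟩
  have hΩR : powKer R r h.hRab ≤ R := fun g hg => (mem_powKer.mp hg).1
  have hΩinv : ∀ t, t ∈ normalizer (R : Set Γ) →
      t ∈ normalizer ((powKer R r h.hRab : Subgroup Γ) : Set Γ) := by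
    intro t ht
    apply nz_of_conj
    intro g hg
    rw [mem_powKer] at hg ⊢
    refine ⟨nz_conj ht hg.1, ?_⟩
    rw [conj_pow, hg.2]; simp
  have heq : powKer R r h.hRab = R := by
    by_contra hne
    have h1 := h.h4 hΩR hne (fun σ => hΩinv _ (h.hRinv σ)) (fun s hs => hΩinv s (h.hSR hs))
    obtain ⟨z, hz, hz1, hzr⟩ := exists_order_p h.hRp h.Rne
    apply hz1
    apply h.cent z hz
    intro t ht
    exact (h1 z (mem_powKer.mpr ⟨hz, hzr⟩) t ht).symm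
  intro g hg
  have hmem : g ∈ powKer R r h.hRab := by rw [heq]; exact hg
  exact (mem_powKer.mp hmem).2

theorem zhyp (h : NNHyp ρ V v R S r ℓ) : ZHyp V R r where
  rprime := h.rprime
  comm := h.hRab
  exp := h.exp
  normV := le_sup_left.trans h.hH.normV
  cop := h.copRV
  faith := fun g hg => h.hH.faith g (mem_sup_left hg)
  vcomm := h.hV.comm

theorem powS (_h : NNHyp ρ V v R S r ℓ) : ∀ t ∈ S, t ^ Nat.card S = 1 := by
  intro t ht
  have h1 := pow_card_eq_one' (G := ↥S) (x := ⟨t, ht⟩)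
  have h2 : (((⟨t, ht⟩ : ↥S) ^ Nat.card S : ↥S) : Γ) = ((1 : ↥S) : Γ) := congrArg _ h1
  rw [Subgroup.coe_pow, Subgroup.coe_one] at h2
  exact h2

theorem caseI (h : NNHyp ρ V v R S r ℓ) (hI : ∀ t ∈ S, ρ c3 * t = t * ρ c3) : False := by
  have hz := h.zhyp
  have hxR := h.hRinv c3
  have hyR := h.hRinv t2
  have hxV := h.hV.inv c3
  have hyV := h.hV.inv t2
  have hI1 : ∀ c ∈ R, ρ c3 * c = c * ρ c3 → c = 1 := by
    intro c hc hxc
    apply h.cent c hc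
    intro t ht
    exact cent_x_comm ρ (h.hH.inv t2) h.hH.fpf t (mem_sup_right ht) c (mem_sup_left hc)
      (hI t ht) hxc
  have hI2 : ∀ t ∈ S, ρ t2 * t * (ρ t2)⁻¹ = t⁻¹ :=
    fpf_invol_inverts (ry2 ρ) (fun b hb => nz_conj (h.hSinv t2) hb)
      (fun b hb hyb => h.hH.fpf b (mem_sup_right hb) (comm_all ρ (hI b hb) hyb))
  have hIa : ∀ K ∈ hyp V R, ρ c3 ∈ normalizer (K : Set Γ) →
      ∃ g ∈ R, ρ c3 * g * (ρ c3)⁻¹ * g⁻¹ ∉ K := by
    intro K hK hxK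
    by_contra hcon
    push Not at hcon
    obtain ⟨a, ha, haK⟩ := hyp_ne hz hK
    have hcop3 : (Nat.card K).Coprime 3 :=
      Nat.Coprime.coprime_dvd_right (by norm_num)
        (Nat.Coprime.coprime_dvd_left (Subgroup.card_dvd_of_le hK.1) h.copR6)
    have hyp1 : a⁻¹ * ρ c3 * a * (ρ c3)⁻¹ ∈ K := by
      have h1 := hcon a⁻¹ (R.inv_mem ha)
      have e : a⁻¹ * ρ c3 * a * (ρ c3)⁻¹ = (ρ c3 * a⁻¹ * (ρ c3)⁻¹ * a⁻¹⁻¹)⁻¹ := by group
      rw [e]; exact K.inv_mem h1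
    obtain ⟨c, hc, hcK⟩ := lift_fix (rx3 ρ) hcop3 hxK a hyp1
    have hcR : c ∈ R := by
      have e : c = a * (a⁻¹ * c) := by group
      rw [e]; exact R.mul_mem ha (hK.1 hcK)
    have hc1 := hI1 c hcR hc
    rw [hc1, mul_one] at hcK
    exact haK (inv_mem_iff.mp hcK)
  by_cases hex : ∃ K ∈ hyp V R, ρ c3 ∈ normalizer (K : Set Γ)
  · obtain ⟨K, hK, hxK⟩ := hex
    obtain ⟨g, hg, hgK⟩ := hIa K hK hxK
    by_cases hyK : ρ t2 ∈ normalizer (K : Set Γ)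
    · exact hgK (x_triv_of_xy_norm ρ hz hK h.hRinv hxK hyK g hg)
    · have hne' : ρ c3 * g * (ρ c3)⁻¹ * g⁻¹ ∉ centralizer ((VK V R K : Subgroup Γ) : Set Γ) := by
        intro hcent
        obtain ⟨u, hu, hu1⟩ := hyp_VK_ne hK
        apply hgK
        exact hyp_fpf hz hK (R.mul_mem (nz_conj hxR hg) (R.inv_mem hg)) hu hu1
          (mem_centralizer_iff.mp hcent u hu).symm
      have hfixex : ∃ u ∈ VK V R K, u ≠ 1 ∧ ρ c3 * u = u * ρ c3 := by
        by_contra hcon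
        push Not at hcon
        obtain ⟨-, -, a, ha, b, hb, hab⟩ := Cfsg.Agent.Helper63.Shult.shult_group h.hV.vprime
          h.rprime Nat.prime_three h.hrv.symm h.hV.v3 h.r3 R (VK V R K) h.hRp
          ⟨⟨⟨fun a b => Subtype.ext (h.hV.comm a (VK_le hz a.2) b (VK_le hz b.2))⟩⟩,
            fun a ha => h.hV.exp a (VK_le hz ha)⟩
          (fun g hg => VK_norm_of_cent hK.1 (hz.normV hg) (fun z hz' => h.hRab g hg z hz'))
          (ρ c3) (VK_norm_of_norm hxR hxV hxK) (rx3 ρ) (fun g hg => nz_conj hxR hg)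
          (fun a ha hxa => by
            by_contra ha1
            exact hcon a ha ha1 hxa)
          ⟨g, hg, hne'⟩
        exact hab (h.hRab a ha b hb)
      obtain ⟨u, hu, hu1, hxu⟩ := hfixex
      have hyu := y_inv_of_x_fix ρ h.hV.comm hyV h.hV.fpf (VK_le hz hu) hxu
      have hu' : ρ t2 * u * (ρ t2)⁻¹ ∈ VK V R (cj (ρ t2) K) := VK_cj hyR hyV hu
      rw [hyu] at hu'
      have hne : K ≠ cj (ρ t2) K := fun heq => hyK (nz_of_cj_eq heq.symm)
      have h1 := hyp_disj hz hK (hyp_cj hz hyR hyV hK) hne ((VK V R K).inv_mem hu) hu'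
      exact hu1 (inv_eq_one.mp h1)
  · push Not at hex
    have hb1 : ∃ K ∈ hyp V R, ρ t2 ∈ normalizer (K : Set Γ) := by
      obtain ⟨c₀, hc₀, hc₀1⟩ := exists_ne_one h.Rne
      have hexK : ∃ K ∈ hyp V R, c₀ ∉ K := by
        by_contra hcon
        push Not at hcon
        exact hc₀1 (hyp_inter hz hc₀ hcon)
      obtain ⟨K₀, hK₀, -⟩ := hexK
      rcases stab h.hV hz h.hRinv hK₀ (hex K₀ hK₀) with h0 | h1 | h2
      · exact ⟨K₀, hK₀, h0⟩
      · exact ⟨cj (ρ c3)⁻¹ K₀, hyp_cj hz (inv_mem hxR) (inv_mem hxV) hK₀, nz_cj h1⟩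
      · refine ⟨cj (ρ c3) K₀, hyp_cj hz hxR hxV hK₀, ?_⟩
        have h3 := nz_cj (s := (ρ c3)⁻¹) (t := ρ t2) (K := K₀) (by simpa using h2)
        simpa using h3
    obtain ⟨K, hK, hyK⟩ := hb1
    have hxK := hex K hK
    have hcopS2 : (2 : ℕ).Coprime (Nat.card S) :=
      (Nat.Coprime.coprime_dvd_right (by norm_num) h.copS6).symm
    have hcopS3 : (Nat.card S).Coprime 3 := Nat.Coprime.coprime_dvd_right (by norm_num) h.copS6
    have hb2 : ∀ t ∈ S, t ∈ normalizer (K : Set Γ) := by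
      intro t ht
      have htR := h.hSR ht
      have htV : t ∈ normalizer (V : Set Γ) := h.hH.normV (mem_sup_right ht)
      have hKt : cj t K ∈ hyp V R := hyp_cj hz htR htV hK
      have hxt : Commute t (ρ c3) := (hI t ht).symm
      have hYt : ρ t2 * t = t⁻¹ * ρ t2 := by rw [← hI2 t ht]; group
      have hkey : ∀ s : Γ, Commute t s → s * ρ t2 * s⁻¹ = s * s * ρ t2 →
          s * ρ t2 * s⁻¹ ∈ normalizer ((cj t K : Subgroup Γ) : Set Γ) →
          (s * s) ^ Nat.card S ∈ normalizer (K : Set Γ) := by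
        intro s hts hs hsn
        have h3 := nz_cj' hsn
        have hss : Commute t (s * s) := hts.mul_right hts
        have e1 : t⁻¹ * (s * ρ t2 * s⁻¹) * t = (t ^ 2)⁻¹ * (s * s) * ρ t2 := by
          rw [hs]
          calc t⁻¹ * (s * s * ρ t2) * t = (t⁻¹ * (s * s)) * (ρ t2 * t) := by group
            _ = ((s * s) * t⁻¹) * (t⁻¹ * ρ t2) := by rw [(Commute.inv_left hss).eq, hYt]
            _ = (s * s) * (t ^ 2)⁻¹ * ρ t2 := by group
            _ = (t ^ 2)⁻¹ * (s * s) * ρ t2 := by rw [((hss.pow_left 2).inv_left).eq]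
        rw [e1] at h3
        have h4 : (t ^ 2)⁻¹ * (s * s) ∈ normalizer (K : Set Γ) := by
          have := mul_mem h3 (inv_mem hyK)
          simpa using this
        have h5 := pow_mem h4 (Nat.card S)
        rw [(((hss.pow_left 2).inv_left)).mul_pow, inv_pow, ← pow_mul, mul_comm, pow_mul,
          h.powS t ht, one_pow, inv_one, one_mul] at h5
        exact h5
      have hxfin : (ρ c3 * ρ c3) ^ Nat.card S ∈ normalizer (K : Set Γ) → False := by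
        intro h6
        rw [← pow_two, ← pow_mul] at h6
        apply hxK
        exact Helper35.mem_of_pow_mem_of_coprime
          (Nat.Coprime.mul_left (by norm_num) hcopS3) h6 (by rw [rx3]; exact one_mem _)
      rcases stab h.hV hz h.hRinv hKt (hex _ hKt) with h0 | h1 | h2
      · have h3 := nz_cj' h0
        have e : t⁻¹ * ρ t2 * t = (t ^ 2)⁻¹ * ρ t2 := by
          calc t⁻¹ * ρ t2 * t = t⁻¹ * (ρ t2 * t) := by group
            _ = t⁻¹ * (t⁻¹ * ρ t2) := by rw [hYt]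
            _ = (t ^ 2)⁻¹ * ρ t2 := by group
        rw [e] at h3
        have h4 : (t ^ 2)⁻¹ ∈ normalizer (K : Set Γ) := by
          have := mul_mem h3 (inv_mem hyK)
          simpa using this
        exact Helper35.mem_of_pow_mem_of_coprime hcopS2 (inv_mem_iff.mp h4)
          (by rw [h.powS t ht]; exact one_mem _)
      · exfalso
        apply hxfin
        apply hkey (ρ c3) hxt _ h1
        have e := rel1 ρ
        have e2 : ρ t2 * (ρ c3)⁻¹ * (ρ t2)⁻¹ = ρ c3 := by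
          have : ρ t2 * (ρ c3)⁻¹ * (ρ t2)⁻¹ = (ρ t2 * ρ c3 * (ρ t2)⁻¹)⁻¹ := by group
          rw [this, e, inv_inv]
        calc ρ c3 * ρ t2 * (ρ c3)⁻¹ = ρ c3 * (ρ t2 * (ρ c3)⁻¹ * (ρ t2)⁻¹) * ρ t2 := by group
          _ = ρ c3 * ρ c3 * ρ t2 := by rw [e2]
      · exfalso
        apply hxfin
        have h6 := hkey (ρ c3)⁻¹ hxt.inv_right (by
          have e := rel1 ρ
          calc (ρ c3)⁻¹ * ρ t2 * (ρ c3)⁻¹⁻¹ = (ρ c3)⁻¹ * (ρ t2 * ρ c3 * (ρ t2)⁻¹) * ρ t2 := by group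
            _ = (ρ c3)⁻¹ * (ρ c3)⁻¹ * ρ t2 := by rw [e]) (by simpa using h2)
        have e3 : (ρ c3)⁻¹ * (ρ c3)⁻¹ = (ρ c3 * ρ c3)⁻¹ := by group
        rw [e3, inv_pow] at h6
        exact inv_mem_iff.mp h6
    have hb3 : ∀ t ∈ S, t ∈ Helper35.sectionKer R K := by
      intro t ht
      have htK := hb2 t ht
      have htR := h.hSR ht
      have key := pm_one hz hK (ry2 ρ) hyR hyK htR htK
      rw [hI2 t ht] at key
      have ht2 : t ^ 2 ∈ Helper35.sectionKer R K := by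
        rw [Helper35.mem_sectionKer]
        refine ⟨pow_mem htK 2, ?_⟩
        intro q hq
        have h1 := key (t * q⁻¹ * t⁻¹) (nz_conj htR (R.inv_mem hq))
        have e : t⁻¹ * (t * q⁻¹ * t⁻¹) * t⁻¹⁻¹ * (t * (t * q⁻¹ * t⁻¹) * t⁻¹)⁻¹
            = q⁻¹ * t ^ 2 * q * (t ^ 2)⁻¹ := by group
        rwa [e] at h1
      exact Helper35.mem_of_pow_mem_of_coprime hcopS2 ht2
        (by rw [h.powS t ht]; exact one_mem _)
    obtain ⟨a, ha, haK⟩ := hyp_ne hz hK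
    have hcopSK : (Nat.card S).Coprime (Nat.card K) :=
      Nat.Coprime.coprime_dvd_right (Subgroup.card_dvd_of_le hK.1) h.copSR
    obtain ⟨c, hc, hcK⟩ := Helper35.exists_fixed_in_coset (A := S) (N := K) hb2 hcopSK
      (Or.inl h.solvS) a (fun s hs => (Helper35.mem_sectionKer.mp (hb3 s hs)).2 a ha)
    have hcR : c ∈ R := by
      have e : c = a * (a⁻¹ * c) := by group
      rw [e]; exact R.mul_mem ha (hK.1 hcK)
    have hc1 := h.cent c hcR (fun t ht => mem_centralizer_iff.mp hc t ht)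
    rw [hc1, mul_one] at hcK
    exact haK (inv_mem_iff.mp hcK)

theorem caseII (h : NNHyp ρ V v R S r ℓ)
    (hII : ∀ t ∈ S, ρ c3 * t = t * ρ c3 → ∀ g ∈ R, g * t = t * g) : False := by
  have hz := h.zhyp
  have hxR := h.hRinv c3
  have hxS := h.hSinv c3
  have hxV := h.hV.inv c3
  have hcopS3 : (3 : ℕ).Coprime (Nat.card S) :=
    (Nat.Coprime.coprime_dvd_right (by norm_num) h.copS6).symm
  have hII1 : ∃ c ∈ R, c ≠ 1 ∧ ρ c3 * c = c * ρ c3 := by
    by_contra hcon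
    push Not at hcon
    have hall : ∀ t ∈ S, ρ c3 * t * (ρ c3)⁻¹ * t⁻¹ ∈ centralizer (R : Set Γ) := by
      by_contra hne
      push Not at hne
      obtain ⟨t, ht, htne⟩ := hne
      obtain ⟨-, -, a, ha, b, hb, hab⟩ := Cfsg.Agent.Helper63.Shult.shult_group h.rprime
        h.lprime Nat.prime_three h.hrl h.r3 h.l3 S R h.hSp
        ⟨⟨⟨fun a b => Subtype.ext (h.hRab a a.2 b b.2)⟩⟩, h.exp⟩ h.hSR (ρ c3) hxR (rx3 ρ)
        (fun g hg => nz_conj hxS hg)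
        (fun a ha hxa => by
          by_contra ha1
          exact hcon a ha ha1 hxa)
        ⟨t, ht, htne⟩
      exact hab (h.hSab a ha b hb)
    obtain ⟨g, hg, t, ht, hgt⟩ := h.hnc
    apply hgt
    have hxN : ρ c3 ∈ normalizer ((S ⊓ centralizer (R : Set Γ) : Subgroup Γ) : Set Γ) :=
      nz_inf hxS (nz_centralizer hxR)
    have hcopN : (Nat.card (S ⊓ centralizer (R : Set Γ) : Subgroup Γ)).Coprime 3 :=
      Nat.Coprime.coprime_dvd_right (by norm_num)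
        (Nat.Coprime.coprime_dvd_left (Subgroup.card_dvd_of_le inf_le_left) h.copS6)
    have hyp1 : t⁻¹ * ρ c3 * t * (ρ c3)⁻¹ ∈ S ⊓ centralizer (R : Set Γ) := by
      have h1 := hall t⁻¹ (S.inv_mem ht)
      have e : t⁻¹ * ρ c3 * t * (ρ c3)⁻¹ = (ρ c3 * t⁻¹ * (ρ c3)⁻¹ * t⁻¹⁻¹)⁻¹ := by group
      rw [e]
      exact inv_mem (mem_inf.mpr
        ⟨S.mul_mem (nz_conj hxS (S.inv_mem ht)) (S.inv_mem (S.inv_mem ht)), h1⟩)
    obtain ⟨c, hc, hcN⟩ := lift_fix (rx3 ρ) hcopN hxN t hyp1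
    have hcS : c ∈ S := by
      have e : c = t * (t⁻¹ * c) := by group
      rw [e]; exact S.mul_mem ht (mem_inf.mp hcN).1
    have h1 : Commute g c := hII c hcS hc g hg
    have h2 : Commute g (t⁻¹ * c) := mem_centralizer_iff.mp (mem_inf.mp hcN).2 g hg
    have e : t = c * (t⁻¹ * c)⁻¹ := by group
    rw [e]
    exact (h1.mul_right h2.inv_right).eq
  have hII2 : ∀ K ∈ hyp V R, (∀ g ∈ R, ρ c3 * g * (ρ c3)⁻¹ * g⁻¹ ∈ K)
      ∨ (∀ c ∈ R, ρ c3 * c = c * ρ c3 → c ∈ K) := by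
    intro K hK
    by_cases hxK : ρ c3 ∈ normalizer (K : Set Γ)
    · by_cases hall : ∀ g ∈ R, ρ c3 * g * (ρ c3)⁻¹ * g⁻¹ ∈ K
      · exact Or.inl hall
      · right
        push Not at hall
        obtain ⟨g₀, hg₀, hg₀K⟩ := hall
        intro c hc hxc
        by_contra hcK
        have hmax := hyp_max hz hK hc hcK
        have hg₀' : g₀ ∈ K ⊔ zpowers c := by rw [hmax]; exact hg₀
        obtain ⟨k, hk, w, hw, hkw⟩ := Helper35.exists_mul_of_mem_sup_of_le_normalizer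
          (zpowers_le.mpr (nz_of_comm h.hRab hK.1 hc)) hg₀'
        obtain ⟨i, rfl⟩ := mem_zpowers_iff.mp hw
        apply hg₀K
        have hci : ρ c3 * c ^ i * (ρ c3)⁻¹ = c ^ i := by
          rw [← conj_zpow, mul_inv_eq_iff_eq_mul.mpr hxc]
        have e : ρ c3 * g₀ * (ρ c3)⁻¹ * g₀⁻¹
            = (ρ c3 * k * (ρ c3)⁻¹) * (ρ c3 * c ^ i * (ρ c3)⁻¹) * (c ^ i)⁻¹ * k⁻¹ := by
          rw [hkw]; group
        rw [e, hci, mul_inv_cancel_right]
        exact K.mul_mem (nz_conj hxK hk) (K.inv_mem hk)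
    · right
      intro c hc hxc
      obtain ⟨u, hu, hu1⟩ := hyp_VK_ne hK
      obtain ⟨d1, d2, d3⟩ := triple_distinct (rx3 ρ) hxK
      have hK1 := hyp_cj hz hxR hxV hK
      have hK2 := hyp_cj hz hxR hxV hK1
      have hu1' := VK_cj (K := K) hxR hxV hu
      have hu2' := VK_cj (K := cj (ρ c3) K) hxR hxV hu1'
      have huV := VK_le hz hu
      have hn : ρ c3 * n3 (ρ c3) u = n3 (ρ c3) u * ρ c3 := by
        apply n3_fix (rx3 ρ)
        · exact h.hV.comm u huV _ (nz_conj hxV huV)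
        · exact h.hV.comm u huV _ (nz_conj hxV (nz_conj hxV huV))
      have hnV : n3 (ρ c3) u ∈ V := by
        unfold n3
        exact V.mul_mem (V.mul_mem huV (nz_conj hxV huV)) (nz_conj hxV (nz_conj hxV huV))
      have hcn := h.hH.h2 c (mem_sup_left hc) _ hnV hxc hn
      have hcu := ind3_comm hz (hz.normV hc) (fun z hz' => h.hRab c hc z hz') hK hK1 hK2
        d1 d3 d2 hu hu1' hu2' hcn
      exact hyp_fpf hz hK hc hu hu1 hcu
  obtain ⟨c₀, hc₀, hc₀1, hxc₀⟩ := hII1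
  have hexK : ∃ K ∈ hyp V R, c₀ ∉ K := by
    by_contra hcon
    push Not at hcon
    exact hc₀1 (hyp_inter hz hc₀ hcon)
  obtain ⟨K, hK, hc₀K⟩ := hexK
  have hE1 : ∀ g ∈ R, ρ c3 * g * (ρ c3)⁻¹ * g⁻¹ ∈ K := by
    rcases hII2 K hK with h1 | h1
    · exact h1
    · exact absurd (h1 c₀ hc₀ hxc₀) hc₀K
  have hmemSg : ∀ a : Γ, (∀ g ∈ R, a * g * a⁻¹ * g⁻¹ ∈ K) → a ∈ Helper35.sectionKer R K := by
    intro a ha
    rw [Helper35.mem_sectionKer]
    constructor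
    · apply nz_of_conj
      intro k hk
      have h1 := ha k (hK.1 hk)
      have e : a * k * a⁻¹ = (a * k * a⁻¹ * k⁻¹) * k := by group
      rw [e]; exact K.mul_mem h1 hk
    · intro q hq
      have h1 := ha q⁻¹ (R.inv_mem hq)
      have e : q⁻¹ * a * q * a⁻¹ = (a * q⁻¹ * a⁻¹ * q⁻¹⁻¹)⁻¹ := by group
      rw [e]
      exact K.inv_mem h1
  have hxSg : ρ c3 ∈ Helper35.sectionKer R K := hmemSg _ hE1
  have hclaimT : ∀ t ∈ S, (∀ g ∈ R, t * (ρ c3 * g * (ρ c3)⁻¹ * g⁻¹) * t⁻¹ ∈ K) →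
      t ∈ Helper35.sectionKer R K := by
    intro t ht hE2
    have htR := h.hSR ht
    have h1 : t * ρ c3 * t⁻¹ ∈ Helper35.sectionKer R K := by
      apply hmemSg
      intro g hg
      have h3 := hE2 (t⁻¹ * g * t) (nz_conj' htR hg)
      have e : t * ρ c3 * t⁻¹ * g * (t * ρ c3 * t⁻¹)⁻¹ * g⁻¹
          = t * (ρ c3 * (t⁻¹ * g * t) * (ρ c3)⁻¹ * (t⁻¹ * g * t)⁻¹) * t⁻¹ := by group
      rw [e]; exact h3
    have hs' : ρ c3 * t * (ρ c3)⁻¹ * t⁻¹ ∈ Helper35.sectionKer R K := by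
      have e : ρ c3 * t * (ρ c3)⁻¹ * t⁻¹ = ρ c3 * (t * ρ c3 * t⁻¹)⁻¹ := by group
      rw [e]; exact mul_mem hxSg (inv_mem h1)
    have hs'S : ρ c3 * t * (ρ c3)⁻¹ * t⁻¹ ∈ S := S.mul_mem (nz_conj hxS ht) (S.inv_mem ht)
    have hs'' : ρ c3 * (ρ c3 * t * (ρ c3)⁻¹ * t⁻¹) * (ρ c3)⁻¹ ∈ Helper35.sectionKer R K :=
      mul_mem (mul_mem hxSg hs') (inv_mem hxSg)
    have hs''S : ρ c3 * (ρ c3 * t * (ρ c3)⁻¹ * t⁻¹) * (ρ c3)⁻¹ ∈ S := nz_conj hxS hs'S
    have hn : ρ c3 * n3 (ρ c3) t = n3 (ρ c3) t * ρ c3 := by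
      apply n3_fix (rx3 ρ)
      · exact h.hSab t ht _ (nz_conj hxS ht)
      · exact h.hSab t ht _ (nz_conj hxS (nz_conj hxS ht))
    have hnS : n3 (ρ c3) t ∈ S := by
      unfold n3
      exact S.mul_mem (S.mul_mem ht (nz_conj hxS ht)) (nz_conj hxS (nz_conj hxS ht))
    have hnSg : n3 (ρ c3) t ∈ Helper35.sectionKer R K := by
      apply hmemSg
      intro g hg
      have h3 := hII _ hnS hn g hg
      have e : n3 (ρ c3) t * g * (n3 (ρ c3) t)⁻¹ * g⁻¹ = 1 := by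
        rw [← h3]; group
      rw [e]; exact K.one_mem
    have e3 : n3 (ρ c3) t = (ρ c3 * t * (ρ c3)⁻¹ * t⁻¹)
        * ((ρ c3 * (ρ c3 * t * (ρ c3)⁻¹ * t⁻¹) * (ρ c3)⁻¹) * (ρ c3 * t * (ρ c3)⁻¹ * t⁻¹))
        * (t * t * t) := by
      have e4 : n3 (ρ c3) t = t * ((ρ c3 * t * (ρ c3)⁻¹ * t⁻¹) * t)
          * ((ρ c3 * (ρ c3 * t * (ρ c3)⁻¹ * t⁻¹) * (ρ c3)⁻¹)
            * ((ρ c3 * t * (ρ c3)⁻¹ * t⁻¹) * t)) := by
        unfold n3; group
      rw [e4]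
      exact comm_id1 (h.hSab t ht _ hs'S) (h.hSab t ht _ hs''S)
    have ht3 : t ^ 3 ∈ Helper35.sectionKer R K := by
      have e6 : t ^ 3 = t * t * t := by rw [pow_succ, pow_two]
      have e5 : t * t * t = ((ρ c3 * t * (ρ c3)⁻¹ * t⁻¹)
          * ((ρ c3 * (ρ c3 * t * (ρ c3)⁻¹ * t⁻¹) * (ρ c3)⁻¹)
            * (ρ c3 * t * (ρ c3)⁻¹ * t⁻¹)))⁻¹ * n3 (ρ c3) t := by
        rw [e3]; group
      rw [e6, e5]
      exact mul_mem (inv_mem (mul_mem hs' (mul_mem hs'' hs'))) hnSg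
    exact Helper35.mem_of_pow_mem_of_coprime hcopS3 ht3 (by rw [h.powS t ht]; exact one_mem _)
  obtain ⟨n, hn, hnK⟩ := norm_arg (S₀ := Helper35.sectionKer R K) (K := K) h.hRab h.hSR h.cent
    hc₀
    (fun t _ htSg => by
      have h1 := (Helper35.mem_sectionKer.mp htSg).2 c₀⁻¹ (R.inv_mem hc₀)
      have e : t * c₀ * t⁻¹ * c₀⁻¹ = (c₀⁻¹⁻¹ * t * c₀⁻¹ * t⁻¹)⁻¹ := by group
      rw [e]; exact K.inv_mem h1)
    (fun t ht htSg => by
      have htR := h.hSR ht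
      have htV : t ∈ normalizer (V : Set Γ) := h.hH.normV (mem_sup_right ht)
      rcases hII2 (cj t⁻¹ K) (hyp_cj hz (inv_mem htR) (inv_mem htV) hK) with h1 | h1
      · exfalso
        apply htSg
        apply hclaimT t ht
        intro g hg
        have h3 := h1 g hg
        rw [mem_cj] at h3
        simpa using h3
      · have h3 := h1 c₀ hc₀ hxc₀
        rw [mem_cj] at h3
        simpa using h3)
  haveI : Fact r.Prime := ⟨h.rprime⟩
  have hcop : n.Coprime r :=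
    Nat.Coprime.coprime_dvd_left hn
      (Nat.Coprime.coprime_dvd_right (prime_dvd_card_of_ne_bot h.hRp h.Rne) h.copSR)
  exact hc₀K (Helper35.mem_of_pow_mem_of_coprime hcop hnK
    (by rw [h.exp c₀ hc₀]; exact K.one_mem))

theorem false (h : NNHyp ρ V v R S r ℓ) : False := by
  have hS₀ : ∀ t, t ∈ S ⊓ centralizer {ρ c3} ↔ t ∈ S ∧ ρ c3 * t = t * ρ c3 := by
    intro t
    simp [mem_inf, mem_centralizer_iff]
  have hinv : ∀ σ, ρ σ ∈ normalizer ((S ⊓ centralizer {ρ c3} : Subgroup Γ) : Set Γ) := by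
    apply inv_all
    · apply nz_of_conj
      intro t ht
      rw [hS₀] at ht ⊢
      have e : ρ c3 * t * (ρ c3)⁻¹ = t := mul_inv_eq_iff_eq_mul.mpr ht.2
      rw [e]; exact ht
    · apply nz_of_conj
      intro t ht
      rw [hS₀] at ht ⊢
      exact ⟨nz_conj (h.hSinv t2) ht.1, comm_conj_y ρ ht.2⟩
  by_cases heq : S ⊓ centralizer {ρ c3} = S
  · apply h.caseI
    intro t ht
    have hmem : t ∈ S ⊓ centralizer {ρ c3} := by rw [heq]; exact ht
    exact ((hS₀ t).mp hmem).2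
  · apply h.caseII
    intro t ht hxt g hg
    exact h.h5 inf_le_left heq hinv g hg t ((hS₀ t).mpr ⟨ht, hxt⟩)

end NNHyp

end Cfsg.Agent.Helper34.S3
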