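/-
Helper library of seat helper34: an invariant `r`-subgroup acting faithfully on `V` is abelian
(fixed-point-free action of the symmetric group of degree 3).
Namespace `Cfsg.Agent.Helper34.S3`.
-/
import Cfsg.Agent.Helper34.S3CaseNN

set_option autoImplicit false

namespace Cfsg.Agent.Helper34.S3

open Subgroup
open scoped commutatorElement

universe u

variable {Γ : Type u} [Group Γ] [Finite Γ]

/-- the centre of a subgroup, as a subgroup of the ambient group -/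
def Zc (R : Subgroup Γ) : Subgroup Γ := R ⊓ centralizer (R : Set Γ)

omit [Finite Γ] in
theorem mem_Zc {R : Subgroup Γ} {z : Γ} : z ∈ Zc R ↔ z ∈ R ∧ ∀ g ∈ R, g * z = z * g := by
  simp [Zc, mem_inf, mem_centralizer_iff]

omit [Finite Γ] in
theorem Zc_comm (R : Subgroup Γ) : ∀ a ∈ Zc R, ∀ b ∈ Zc R, a * b = b * a :=
  fun a ha b hb => (mem_Zc.mp hb).2 a (mem_Zc.mp ha).1

/-- the elements of order dividing `r` in the centre -/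
def Z1 (R : Subgroup Γ) (r : ℕ) : Subgroup Γ := powKer (Zc R) r (Zc_comm R)

omit [Finite Γ] in
theorem mem_Z1 {R : Subgroup Γ} {r : ℕ} {z : Γ} :
    z ∈ Z1 R r ↔ z ∈ R ∧ (∀ g ∈ R, g * z = z * g) ∧ z ^ r = 1 := by
  rw [Z1, mem_powKer, mem_Zc, and_assoc]

omit [Finite Γ] in
theorem Z1_le {R : Subgroup Γ} {r : ℕ} : Z1 R r ≤ R := fun _ hz => (mem_Z1.mp hz).1

theorem Z1_nz {R : Subgroup Γ} {r : ℕ} {t : Γ} (ht : t ∈ normalizer (R : Set Γ)) :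
    t ∈ normalizer ((Z1 R r : Subgroup Γ) : Set Γ) := by
  apply nz_of_conj
  intro z hz
  rw [mem_Z1] at hz ⊢
  refine ⟨nz_conj ht hz.1, ?_, ?_⟩
  · intro g hg
    have h1 := hz.2.1 (t⁻¹ * g * t) (nz_conj' ht hg)
    calc g * (t * z * t⁻¹) = t * ((t⁻¹ * g * t) * z) * t⁻¹ := by group
      _ = t * (z * (t⁻¹ * g * t)) * t⁻¹ := by rw [h1]
      _ = t * z * t⁻¹ * g := by group
  · rw [conj_pow, hz.2.2]; simp

/-- the kernel of the action of `R` on `VK` -/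
def CK (V R : Subgroup Γ) (r : ℕ) (K : Subgroup Γ) : Subgroup Γ :=
  R ⊓ centralizer ((VK V (Z1 R r) K : Subgroup Γ) : Set Γ)

omit [Finite Γ] in
theorem mem_CK {V R K : Subgroup Γ} {r : ℕ} {g : Γ} :
    g ∈ CK V R r K ↔ g ∈ R ∧ ∀ u ∈ VK V (Z1 R r) K, u * g = g * u := by
  simp [CK, mem_inf, mem_centralizer_iff]

omit [Finite Γ] in
theorem CK_le {V R K : Subgroup Γ} {r : ℕ} : CK V R r K ≤ R := inf_le_left

theorem CK_cj {V R K : Subgroup Γ} {r : ℕ} {t g : Γ} (htR : t ∈ normalizer (R : Set Γ))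
    (htV : t ∈ normalizer (V : Set Γ)) (hg : g ∈ CK V R r K) :
    t * g * t⁻¹ ∈ CK V R r (cj t K) := by
  rw [mem_CK] at hg ⊢
  refine ⟨nz_conj htR hg.1, ?_⟩
  intro w hw
  have hw' : t⁻¹ * w * t ∈ VK V (Z1 R r) K := by
    have h1 := VK_cj (K := cj t K) (Z1_nz (r := r) (inv_mem htR)) (inv_mem htV) hw
    rw [cj_inv_cj, inv_inv] at h1
    exact h1
  have h1 := hg.2 _ hw'
  calc w * (t * g * t⁻¹) = t * ((t⁻¹ * w * t) * g) * t⁻¹ := by group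
    _ = t * (g * (t⁻¹ * w * t)) * t⁻¹ := by rw [h1]
    _ = t * g * t⁻¹ * w := by group

/-- an invariant nontrivial `r`-group acting faithfully on `V` -/
structure NHyp (ρ : Equiv.Perm (Fin 3) →* Γ) (V : Subgroup Γ) (v : ℕ) (R : Subgroup Γ)
    (r : ℕ) : Prop where
  hV : VHyp ρ V v
  hR : HHyp ρ V R
  rprime : r.Prime
  hRp : IsPGroup r R
  hrv : r ≠ v
  Rne : R ≠ ⊥

variable {ρ : Equiv.Perm (Fin 3) →* Γ} {V R K : Subgroup Γ} {v r : ℕ}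

namespace NHyp

theorem copRV (h : NHyp ρ V v R r) : (Nat.card R).Coprime (Nat.card V) := by
  haveI : Fact r.Prime := ⟨h.rprime⟩
  haveI : Fact v.Prime := ⟨h.hV.vprime⟩
  exact IsPGroup.coprime_card_of_ne r v h.hrv R V h.hRp h.hV.isPGroup

theorem r3 (h : NHyp ρ V v R r) : r ≠ 3 := by
  intro hr
  haveI : Fact r.Prime := ⟨h.rprime⟩
  have h1 := prime_dvd_card_of_ne_bot h.hRp h.Rne
  rw [hr] at h1
  have h2 : (Nat.card R).Coprime 3 := Nat.Coprime.coprime_dvd_right (by norm_num) h.hR.cop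
  exact absurd (Nat.Coprime.eq_one_of_dvd h2.symm h1) (by norm_num)

theorem r2 (h : NHyp ρ V v R r) : r ≠ 2 := by
  intro hr
  haveI : Fact r.Prime := ⟨h.rprime⟩
  have h1 := prime_dvd_card_of_ne_bot h.hRp h.Rne
  rw [hr] at h1
  have h2 : (Nat.card R).Coprime 2 := Nat.Coprime.coprime_dvd_right (by norm_num) h.hR.cop
  exact absurd (Nat.Coprime.eq_one_of_dvd h2.symm h1) (by norm_num)

theorem zhyp (h : NHyp ρ V v R r) : ZHyp V (Z1 R r) r where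
  rprime := h.rprime
  comm := fun a ha b hb => (mem_Z1.mp hb).2.1 a (mem_Z1.mp ha).1
  exp := fun a ha => (mem_Z1.mp ha).2.2
  normV := Z1_le.trans h.hR.normV
  cop := Nat.Coprime.coprime_dvd_left (Subgroup.card_dvd_of_le Z1_le) h.copRV
  faith := fun g hg => h.hR.faith g (Z1_le hg)
  vcomm := h.hV.comm

theorem Zinv (h : NHyp ρ V v R r) : ∀ σ, ρ σ ∈ normalizer ((Z1 R r : Subgroup Γ) : Set Γ) :=
  fun σ => Z1_nz (h.hR.inv σ)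

theorem RnormVK (h : NHyp ρ V v R r) (hK : K ∈ hyp V (Z1 R r)) :
    ∀ g ∈ R, g ∈ normalizer ((VK V (Z1 R r) K : Subgroup Γ) : Set Γ) :=
  fun g hg => VK_norm_of_cent hK.1 (h.hR.normV hg) (fun z hz => (mem_Z1.mp hz).2.1 g hg)

theorem CK_norm (h : NHyp ρ V v R r) (hK : K ∈ hyp V (Z1 R r)) :
    ∀ g ∈ R, g ∈ normalizer ((CK V R r K : Subgroup Γ) : Set Γ) :=
  fun g hg => nz_inf (le_normalizer hg) (nz_centralizer (h.RnormVK hK g hg))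

theorem endN (h : NHyp ρ V v R r) (hK : K ∈ hyp V (Z1 R r))
    (hxK : ρ c3 ∈ normalizer (K : Set Γ))
    (hfix : ∀ u ∈ VK V (Z1 R r) K, ρ c3 * u = u * ρ c3 → u = 1) :
    ∀ a ∈ R, ∀ b ∈ R, a * b * a⁻¹ * b⁻¹ ∈ CK V R r K := by
  have hz := h.zhyp
  have hxR := h.hR.inv c3
  have hxV := h.hV.inv c3
  have hxVK := VK_norm_of_norm (h.Zinv c3) hxV hxK
  have hall : ∀ g ∈ R, ρ c3 * g * (ρ c3)⁻¹ * g⁻¹ ∈ CK V R r K := by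
    by_contra hne
    push Not at hne
    obtain ⟨g, hg, hgne⟩ := hne
    have hgne' : ρ c3 * g * (ρ c3)⁻¹ * g⁻¹
        ∉ centralizer ((VK V (Z1 R r) K : Subgroup Γ) : Set Γ) := fun hc =>
      hgne (mem_inf.mpr ⟨R.mul_mem (nz_conj hxR hg) (R.inv_mem hg), hc⟩)
    obtain ⟨hr2, -, -⟩ := Cfsg.Agent.Helper63.Shult.shult_group h.hV.vprime h.rprime
      Nat.prime_three h.hrv.symm h.hV.v3 h.r3 R (VK V (Z1 R r) K) h.hRp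
      ⟨⟨⟨fun a b => Subtype.ext (h.hV.comm a (VK_le hz a.2) b (VK_le hz b.2))⟩⟩,
        fun a ha => h.hV.exp a (VK_le hz ha)⟩
      (fun g hg => h.RnormVK hK g hg) (ρ c3) hxVK (rx3 ρ) (fun g hg => nz_conj hxR hg) hfix
      ⟨g, hg, hgne'⟩
    exact h.r2 hr2
  have hxC : ρ c3 ∈ normalizer ((CK V R r K : Subgroup Γ) : Set Γ) :=
    nz_inf hxR (nz_centralizer hxVK)
  have hcopC : (Nat.card (CK V R r K)).Coprime 3 :=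
    Nat.Coprime.coprime_dvd_right (by norm_num)
      (Nat.Coprime.coprime_dvd_left (Subgroup.card_dvd_of_le CK_le) h.hR.cop)
  have hlift : ∀ a ∈ R, ∃ c ∈ R, ρ c3 * c = c * ρ c3 ∧ c⁻¹ * a ∈ CK V R r K := by
    intro a ha
    have hyp1 : a⁻¹ * ρ c3 * a * (ρ c3)⁻¹ ∈ CK V R r K := by
      have h1 := hall a⁻¹ (R.inv_mem ha)
      have e : a⁻¹ * ρ c3 * a * (ρ c3)⁻¹ = (ρ c3 * a⁻¹ * (ρ c3)⁻¹ * a⁻¹⁻¹)⁻¹ := by group
      rw [e]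
      exact inv_mem h1
    obtain ⟨c, hc, hcN⟩ := lift_fix (rx3 ρ) hcopC hxC a hyp1
    have hcR : c ∈ R := by
      have e : c = a * (a⁻¹ * c) := by group
      rw [e]; exact R.mul_mem ha (CK_le hcN)
    refine ⟨c, hcR, hc, ?_⟩
    have e : c⁻¹ * a = (a⁻¹ * c)⁻¹ := by group
    rw [e]; exact inv_mem hcN
  intro a ha b hb
  obtain ⟨c, hc, hxc, hcm⟩ := hlift a ha
  obtain ⟨d, hd, hxd, hdn⟩ := hlift b hb
  have hcd : c * d = d * c := cent_x_comm ρ (h.hR.inv t2) h.hR.fpf c hc d hd hxc hxd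
  have e : a * b * a⁻¹ * b⁻¹ = (c * (c⁻¹ * a) * c⁻¹)
      * ((c * d) * ((d⁻¹ * b) * (c⁻¹ * a)⁻¹) * (c * d)⁻¹) * (c * d * c⁻¹ * d⁻¹)
      * (d * (d⁻¹ * b)⁻¹ * d⁻¹) := by group
  have e2 : c * d * c⁻¹ * d⁻¹ = 1 := by rw [hcd]; group
  rw [e, e2, mul_one]
  exact mul_mem (mul_mem (nz_conj (h.CK_norm hK c hc) hcm)
    (nz_conj (h.CK_norm hK (c * d) (R.mul_mem hc hd)) (mul_mem hdn (inv_mem hcm))))
    (nz_conj (h.CK_norm hK d hd) (inv_mem hdn))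

theorem fixN (h : NHyp ρ V v R r) (hK : K ∈ hyp V (Z1 R r))
    (hxK : ρ c3 ∈ normalizer (K : Set Γ)) :
    ∀ u ∈ VK V (Z1 R r) K, ρ c3 * u = u * ρ c3 → u = 1 := by
  have hz := h.zhyp
  have hZinv := h.Zinv
  have hyV := h.hV.inv t2
  intro u hu hxu
  by_contra hu1
  have hyu := y_inv_of_x_fix ρ h.hV.comm hyV h.hV.fpf (VK_le hz hu) hxu
  by_cases hyK : ρ t2 ∈ normalizer (K : Set Γ)
  · have hxt := x_triv_of_xy_norm ρ hz hK hZinv hxK hyK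
    have hynt : ∃ z₁ ∈ Z1 R r, ρ t2 * z₁ * (ρ t2)⁻¹ * z₁⁻¹ ∉ K := by
      by_contra hcon
      push Not at hcon
      obtain ⟨a, ha, haK⟩ := hyp_ne hz hK
      have hcop6 : (Nat.card K).Coprime 6 :=
        Nat.Coprime.coprime_dvd_left (Subgroup.card_dvd_of_le (hK.1.trans Z1_le)) h.hR.cop
      have hx1 : a⁻¹ * ρ c3 * a * (ρ c3)⁻¹ ∈ K := by
        have h1 := hxt a⁻¹ (inv_mem ha)
        have e : a⁻¹ * ρ c3 * a * (ρ c3)⁻¹ = (ρ c3 * a⁻¹ * (ρ c3)⁻¹ * a⁻¹⁻¹)⁻¹ := by group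
        rw [e]; exact K.inv_mem h1
      have hy1 : a⁻¹ * ρ t2 * a * (ρ t2)⁻¹ ∈ K := by
        have h1 := hcon a⁻¹ (inv_mem ha)
        have e : a⁻¹ * ρ t2 * a * (ρ t2)⁻¹ = (ρ t2 * a⁻¹ * (ρ t2)⁻¹ * a⁻¹⁻¹)⁻¹ := by group
        rw [e]; exact K.inv_mem h1
      obtain ⟨c, hc, hcK⟩ := lift2 ρ hxK hyK hcop6 a hx1 hy1
      have hcR : c ∈ R := by
        have e : c = a * (a⁻¹ * c) := by group
        rw [e]; exact R.mul_mem (Z1_le ha) (Z1_le (hK.1 hcK))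
      have hc1 := h.hR.fpf c hcR hc
      rw [hc1, mul_one] at hcK
      exact haK (inv_mem_iff.mp hcK)
    obtain ⟨z₁, hz₁, hz₁K⟩ := hynt
    have hu' : z₁ * u * z₁⁻¹ ∈ VK V (Z1 R r) K := VK_conj_Z hz hK.1 hz₁ hu
    have hxu' : ρ c3 * (z₁ * u * z₁⁻¹) = (z₁ * u * z₁⁻¹) * ρ c3 := by
      have hk := hxt z₁ hz₁
      have hku : (ρ c3 * z₁ * (ρ c3)⁻¹ * z₁⁻¹) * (z₁ * u * z₁⁻¹)
          = (z₁ * u * z₁⁻¹) * (ρ c3 * z₁ * (ρ c3)⁻¹ * z₁⁻¹) := (mem_VK.mp hu').2 _ hk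
      have hxu2 : ρ c3 * u * (ρ c3)⁻¹ = u := mul_inv_eq_iff_eq_mul.mpr hxu
      have e : ρ c3 * (z₁ * u * z₁⁻¹) * (ρ c3)⁻¹ = z₁ * u * z₁⁻¹ := by
        calc ρ c3 * (z₁ * u * z₁⁻¹) * (ρ c3)⁻¹
            = (ρ c3 * z₁ * (ρ c3)⁻¹ * z₁⁻¹) * (z₁ * (ρ c3 * u * (ρ c3)⁻¹) * z₁⁻¹)
              * (ρ c3 * z₁ * (ρ c3)⁻¹ * z₁⁻¹)⁻¹ := by group
          _ = (ρ c3 * z₁ * (ρ c3)⁻¹ * z₁⁻¹) * (z₁ * u * z₁⁻¹)
              * (ρ c3 * z₁ * (ρ c3)⁻¹ * z₁⁻¹)⁻¹ := by rw [hxu2]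
          _ = z₁ * u * z₁⁻¹ := by rw [hku]; group
      exact mul_inv_eq_iff_eq_mul.mp e
    have hyu' := y_inv_of_x_fix ρ h.hV.comm hyV h.hV.fpf (VK_le hz hu') hxu'
    have e1 : ρ t2 * (z₁ * u * z₁⁻¹) * (ρ t2)⁻¹ = (ρ t2 * z₁ * (ρ t2)⁻¹)
        * (ρ t2 * u * (ρ t2)⁻¹) * (ρ t2 * z₁ * (ρ t2)⁻¹)⁻¹ := by group
    rw [e1, hyu] at hyu'
    have e2 : (z₁⁻¹ * (ρ t2 * z₁ * (ρ t2)⁻¹)) * u⁻¹ * (z₁⁻¹ * (ρ t2 * z₁ * (ρ t2)⁻¹))⁻¹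
        = u⁻¹ := by
      calc (z₁⁻¹ * (ρ t2 * z₁ * (ρ t2)⁻¹)) * u⁻¹ * (z₁⁻¹ * (ρ t2 * z₁ * (ρ t2)⁻¹))⁻¹
          = z₁⁻¹ * ((ρ t2 * z₁ * (ρ t2)⁻¹) * u⁻¹ * (ρ t2 * z₁ * (ρ t2)⁻¹)⁻¹) * z₁ := by group
        _ = z₁⁻¹ * (z₁ * u * z₁⁻¹)⁻¹ * z₁ := by rw [hyu']
        _ = u⁻¹ := by group
    have e3 : Commute (z₁⁻¹ * (ρ t2 * z₁ * (ρ t2)⁻¹)) u⁻¹ := mul_inv_eq_iff_eq_mul.mp e2
    have e4 : Commute (z₁⁻¹ * (ρ t2 * z₁ * (ρ t2)⁻¹)) u := by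
      have := e3.inv_right
      rwa [inv_inv] at this
    have hyz₁ : ρ t2 * z₁ * (ρ t2)⁻¹ ∈ Z1 R r := nz_conj (hZinv t2) hz₁
    have h5 := hyp_fpf hz hK (mul_mem (inv_mem hz₁) hyz₁) hu hu1 e4.eq
    rw [hz.comm _ (inv_mem hz₁) _ hyz₁] at h5
    exact hz₁K h5
  · have hu' : ρ t2 * u * (ρ t2)⁻¹ ∈ VK V (Z1 R r) (cj (ρ t2) K) := VK_cj (hZinv t2) hyV hu
    rw [hyu] at hu'
    have hne : K ≠ cj (ρ t2) K := fun heq => hyK (nz_of_cj_eq heq.symm)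
    have h1 := hyp_disj hz hK (hyp_cj hz (hZinv t2) hyV hK) hne
      ((VK V (Z1 R r) K).inv_mem hu) hu'
    exact hu1 (inv_eq_one.mp h1)

/-- (G1): the centralizer of `x` in `R` acts trivially on `VK` when `x` moves `K` -/
theorem g1 (h : NHyp ρ V v R r) (hK : K ∈ hyp V (Z1 R r))
    (hxK : ρ c3 ∉ normalizer (K : Set Γ)) :
    ∀ c ∈ R, ρ c3 * c = c * ρ c3 → c ∈ CK V R r K := by
  have hz := h.zhyp
  have hxZ := h.Zinv c3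
  have hxV := h.hV.inv c3
  intro c hc hxc
  rw [mem_CK]
  refine ⟨hc, fun u hu => ?_⟩
  obtain ⟨d1, d2, d3⟩ := triple_distinct (rx3 ρ) hxK
  have hK1 := hyp_cj hz hxZ hxV hK
  have hK2 := hyp_cj hz hxZ hxV hK1
  have hu1' := VK_cj (K := K) hxZ hxV hu
  have hu2' := VK_cj (K := cj (ρ c3) K) hxZ hxV hu1'
  have huV := VK_le hz hu
  have hn : ρ c3 * n3 (ρ c3) u = n3 (ρ c3) u * ρ c3 := by
    apply n3_fix (rx3 ρ)
    · exact h.hV.comm u huV _ (nz_conj hxV huV)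
    · exact h.hV.comm u huV _ (nz_conj hxV (nz_conj hxV huV))
  have hnV : n3 (ρ c3) u ∈ V := by
    unfold n3
    exact V.mul_mem (V.mul_mem huV (nz_conj hxV huV)) (nz_conj hxV (nz_conj hxV huV))
  have hcn := h.hR.h2 c hc _ hnV hxc hn
  exact (ind3_comm hz (h.hR.normV hc) (fun z hz' => ((mem_Z1.mp hz').2.1 c hc))
    hK hK1 hK2 d1 d3 d2 hu hu1' hu2' hcn).symm

/-- the common kernel on the three conjugates of `VK` -/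
def Ro (V R : Subgroup Γ) (r : ℕ) (x : Γ) (K : Subgroup Γ) : Subgroup Γ :=
  CK V R r K ⊓ CK V R r (cj x K) ⊓ CK V R r (cj x (cj x K))

theorem Ro_x (h : NHyp ρ V v R r) :
    ρ c3 ∈ normalizer ((Ro V R r (ρ c3) K : Subgroup Γ) : Set Γ) := by
  have hxR := h.hR.inv c3
  have hxV := h.hV.inv c3
  apply nz_of_conj
  intro n hn
  obtain ⟨⟨h0, h1⟩, h2⟩ := hn
  have h2' := CK_cj (r := r) hxR hxV h2
  rw [cj3 (rx3 ρ)] at h2'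
  exact ⟨⟨h2', CK_cj hxR hxV h0⟩, CK_cj hxR hxV h1⟩

theorem Ro_norm (h : NHyp ρ V v R r) (hK : K ∈ hyp V (Z1 R r)) :
    ∀ g ∈ R, g ∈ normalizer ((Ro V R r (ρ c3) K : Subgroup Γ) : Set Γ) := by
  have hz := h.zhyp
  have hxZ := h.Zinv c3
  have hxV := h.hV.inv c3
  have hK1 := hyp_cj hz hxZ hxV hK
  have hK2 := hyp_cj hz hxZ hxV hK1
  intro g hg
  exact nz_inf (nz_inf (h.CK_norm hK g hg) (h.CK_norm hK1 g hg)) (h.CK_norm hK2 g hg)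

theorem Ro_cop (h : NHyp ρ V v R r) : (Nat.card (Ro V R r (ρ c3) K)).Coprime 3 :=
  Nat.Coprime.coprime_dvd_right (by norm_num)
    (Nat.Coprime.coprime_dvd_left
      (Subgroup.card_dvd_of_le ((inf_le_left.trans inf_le_left).trans CK_le)) h.hR.cop)

/-- (G2) -/
theorem g2 (h : NHyp ρ V v R r) (hK : K ∈ hyp V (Z1 R r))
    (hxK : ρ c3 ∉ normalizer (K : Set Γ)) :
    ∀ g, g ∈ CK V R r (cj (ρ c3) K) → g ∈ CK V R r (cj (ρ c3) (cj (ρ c3) K)) →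
      g ∈ CK V R r K := by
  have hz := h.zhyp
  have hxR := h.hR.inv c3
  have hxZ := h.Zinv c3
  have hxV := h.hV.inv c3
  have hK1 := hyp_cj hz hxZ hxV hK
  have hK2 := hyp_cj hz hxZ hxV hK1
  intro g hg1 hg2
  have hgR : g ∈ R := CK_le hg1
  -- g' = x g x⁻¹
  have hg'2 : ρ c3 * g * (ρ c3)⁻¹ ∈ CK V R r (cj (ρ c3) (cj (ρ c3) K)) := CK_cj hxR hxV hg1
  have hg'0 : ρ c3 * g * (ρ c3)⁻¹ ∈ CK V R r K := by
    have h1 := CK_cj (r := r) hxR hxV hg2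
    rwa [cj3 (rx3 ρ)] at h1
  have hg'R : ρ c3 * g * (ρ c3)⁻¹ ∈ R := nz_conj hxR hgR
  -- g'' = x g' x⁻¹
  have hg''0 : ρ c3 * (ρ c3 * g * (ρ c3)⁻¹) * (ρ c3)⁻¹ ∈ CK V R r K := by
    have h1 := CK_cj (r := r) hxR hxV hg'2
    rwa [cj3 (rx3 ρ)] at h1
  have hg''1 : ρ c3 * (ρ c3 * g * (ρ c3)⁻¹) * (ρ c3)⁻¹ ∈ CK V R r (cj (ρ c3) K) :=
    CK_cj hxR hxV hg'0
  have hg''R : ρ c3 * (ρ c3 * g * (ρ c3)⁻¹) * (ρ c3)⁻¹ ∈ R := nz_conj hxR hg'R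
  obtain ⟨g', hg'⟩ : ∃ g', g' = ρ c3 * g * (ρ c3)⁻¹ := ⟨_, rfl⟩
  obtain ⟨g'', hg''⟩ : ∃ g'', g'' = ρ c3 * g' * (ρ c3)⁻¹ := ⟨_, rfl⟩
  have hxg'' : ρ c3 * g'' * (ρ c3)⁻¹ = g := by rw [hg'', hg']; exact x3conj ρ g
  rw [← hg'] at hg'2 hg'0 hg'R hg''0 hg''1 hg''R
  rw [← hg''] at hg''0 hg''1 hg''R
  -- e = g' g'' g (g g' g'')⁻¹ ∈ Ro
  have he0 : g' * g'' * g * (g * g' * g'')⁻¹ ∈ CK V R r K := by
    have e : g' * g'' * g * (g * g' * g'')⁻¹ = g' * g'' * (g * (g''⁻¹ * g'⁻¹) * g⁻¹) := by group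
    rw [e]
    exact mul_mem (mul_mem hg'0 hg''0)
      (nz_conj (h.CK_norm hK g hgR) (mul_mem (inv_mem hg''0) (inv_mem hg'0)))
  have he1 : g' * g'' * g * (g * g' * g'')⁻¹ ∈ CK V R r (cj (ρ c3) K) := by
    have e : g' * g'' * g * (g * g' * g'')⁻¹ = g' * (g'' * g * g''⁻¹) * g'⁻¹ * g⁻¹ := by group
    rw [e]
    exact mul_mem (nz_conj (h.CK_norm hK1 g' hg'R) (mul_mem (mul_mem hg''1 hg1) (inv_mem hg''1)))
      (inv_mem hg1)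
  have he2 : g' * g'' * g * (g * g' * g'')⁻¹ ∈ CK V R r (cj (ρ c3) (cj (ρ c3) K)) := by
    have e : g' * g'' * g * (g * g' * g'')⁻¹ = g' * (g'' * g * g''⁻¹) * g'⁻¹ * g⁻¹ := by group
    rw [e]
    exact mul_mem (mul_mem (mul_mem hg'2 (nz_conj (h.CK_norm hK2 g'' hg''R) hg2))
      (inv_mem hg'2)) (inv_mem hg2)
  have hmR : g * g' * g'' ∈ R := R.mul_mem (R.mul_mem hgR hg'R) hg''R
  have hyp1 : (g * g' * g'')⁻¹ * ρ c3 * (g * g' * g'') * (ρ c3)⁻¹ ∈ Ro V R r (ρ c3) K := by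
    have e : (g * g' * g'')⁻¹ * ρ c3 * (g * g' * g'') * (ρ c3)⁻¹
        = (g * g' * g'')⁻¹ * ((ρ c3 * g * (ρ c3)⁻¹) * (ρ c3 * g' * (ρ c3)⁻¹)
          * (ρ c3 * g'' * (ρ c3)⁻¹) * (g * g' * g'')⁻¹) * (g * g' * g'') := by group
    rw [e, hxg'', ← hg', ← hg'']
    exact nz_conj' (h.Ro_norm hK _ hmR) ⟨⟨he0, he1⟩, he2⟩
  obtain ⟨c, hc, hcN⟩ := lift_fix (rx3 ρ) h.Ro_cop h.Ro_x (g * g' * g'') hyp1
  have hcR : c ∈ R := by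
    have e : c = (g * g' * g'') * ((g * g' * g'')⁻¹ * c) := by group
    rw [e]; exact R.mul_mem hmR (CK_le hcN.1.1)
  have hc0 := h.g1 hK hxK c hcR hc
  have hm0 : g * g' * g'' ∈ CK V R r K := by
    have e : g * g' * g'' = c * ((g * g' * g'')⁻¹ * c)⁻¹ := by group
    rw [e]; exact mul_mem hc0 (inv_mem hcN.1.1)
  have e : g = (g * g' * g'') * g''⁻¹ * g'⁻¹ := by group
  rw [e]
  exact mul_mem (mul_mem hm0 (inv_mem hg''0)) (inv_mem hg'0)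

/-- (G5) -/
theorem g5 (h : NHyp ρ V v R r) (hK : K ∈ hyp V (Z1 R r))
    (hxK : ρ c3 ∉ normalizer (K : Set Γ)) :
    CK V R r K ≤ CK V R r (cj (ρ c3) K) ⊔ CK V R r (cj (ρ c3) (cj (ρ c3) K)) := by
  have hz := h.zhyp
  have hxR := h.hR.inv c3
  have hxZ := h.Zinv c3
  have hxV := h.hV.inv c3
  have hK1 := hyp_cj hz hxZ hxV hK
  have hK2 := hyp_cj hz hxZ hxV hK1
  obtain ⟨d1, d2, d3⟩ := triple_distinct (rx3 ρ) hxK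
  have hxK1 : ρ c3 ∉ normalizer ((cj (ρ c3) K : Subgroup Γ) : Set Γ) :=
    fun hn => d2 (cj_eq_of_nz hn).symm
  have hxK2 : ρ c3 ∉ normalizer ((cj (ρ c3) (cj (ρ c3) K) : Subgroup Γ) : Set Γ) := by
    intro hn
    have h1 := cj_eq_of_nz hn
    rw [cj3 (rx3 ρ)] at h1
    exact d3 h1
  intro g hg0
  have hgR : g ∈ R := CK_le hg0
  have hg'1 : ρ c3 * g * (ρ c3)⁻¹ ∈ CK V R r (cj (ρ c3) K) := CK_cj hxR hxV hg0
  have hg'R : ρ c3 * g * (ρ c3)⁻¹ ∈ R := nz_conj hxR hgR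
  have hg''2 : ρ c3 * (ρ c3 * g * (ρ c3)⁻¹) * (ρ c3)⁻¹ ∈ CK V R r (cj (ρ c3) (cj (ρ c3) K)) :=
    CK_cj hxR hxV hg'1
  have hg''R : ρ c3 * (ρ c3 * g * (ρ c3)⁻¹) * (ρ c3)⁻¹ ∈ R := nz_conj hxR hg'R
  obtain ⟨g', hg'⟩ : ∃ g', g' = ρ c3 * g * (ρ c3)⁻¹ := ⟨_, rfl⟩
  obtain ⟨g'', hg''⟩ : ∃ g'', g'' = ρ c3 * g' * (ρ c3)⁻¹ := ⟨_, rfl⟩
  have hxg'' : ρ c3 * g'' * (ρ c3)⁻¹ = g := by rw [hg'', hg']; exact x3conj ρ g
  rw [← hg'] at hg'1 hg'R hg''2 hg''R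
  rw [← hg''] at hg''2 hg''R
  -- c₁ = (g g'')⁻¹ (g'' g) ∈ Ro
  have hc1_0 : (g * g'')⁻¹ * (g'' * g) ∈ CK V R r K := by
    have e : (g * g'')⁻¹ * (g'' * g) = (g''⁻¹ * g⁻¹ * g'') * g := by group
    rw [e]
    exact mul_mem (nz_conj' (h.CK_norm hK g'' hg''R) (inv_mem hg0)) hg0
  have hc1_2 : (g * g'')⁻¹ * (g'' * g) ∈ CK V R r (cj (ρ c3) (cj (ρ c3) K)) := by
    have e : (g * g'')⁻¹ * (g'' * g) = g''⁻¹ * (g⁻¹ * g'' * g) := by group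
    rw [e]
    exact mul_mem (inv_mem hg''2) (nz_conj' (h.CK_norm hK2 g hgR) hg''2)
  have hc1_1 : (g * g'')⁻¹ * (g'' * g) ∈ CK V R r (cj (ρ c3) K) := by
    have h1 := h.g2 hK1 hxK1 _ hc1_2
    rw [cj3 (rx3 ρ)] at h1
    exact h1 hc1_0
  -- c₂ = (g g')⁻¹ (g' g) ∈ Ro
  have hc2_0 : (g * g')⁻¹ * (g' * g) ∈ CK V R r K := by
    have e : (g * g')⁻¹ * (g' * g) = (g'⁻¹ * g⁻¹ * g') * g := by group
    rw [e]
    exact mul_mem (nz_conj' (h.CK_norm hK g' hg'R) (inv_mem hg0)) hg0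
  have hc2_1 : (g * g')⁻¹ * (g' * g) ∈ CK V R r (cj (ρ c3) K) := by
    have e : (g * g')⁻¹ * (g' * g) = g'⁻¹ * (g⁻¹ * g' * g) := by group
    rw [e]
    exact mul_mem (inv_mem hg'1) (nz_conj' (h.CK_norm hK1 g hgR) hg'1)
  have hc2_2 : (g * g')⁻¹ * (g' * g) ∈ CK V R r (cj (ρ c3) (cj (ρ c3) K)) := by
    have h1 := h.g2 hK2 hxK2 ((g * g')⁻¹ * (g' * g))
    rw [cj3 (rx3 ρ)] at h1
    exact h1 hc2_0 hc2_1
  have hmR : g * g' * g'' ∈ R := R.mul_mem (R.mul_mem hgR hg'R) hg''R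
  have hyp1 : (g * g' * g'')⁻¹ * ρ c3 * (g * g' * g'') * (ρ c3)⁻¹ ∈ Ro V R r (ρ c3) K := by
    have e : (g * g' * g'')⁻¹ * ρ c3 * (g * g' * g'') * (ρ c3)⁻¹
        = (g * g' * g'')⁻¹ * ((ρ c3 * g * (ρ c3)⁻¹) * (ρ c3 * g' * (ρ c3)⁻¹)
          * (ρ c3 * g'' * (ρ c3)⁻¹)) := by group
    rw [e, hxg'', ← hg', ← hg'']
    have e2 : (g * g' * g'')⁻¹ * (g' * g'' * g)
        = g''⁻¹ * ((g * g')⁻¹ * (g' * g)) * g'' * ((g * g'')⁻¹ * (g'' * g)) := by group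
    rw [e2]
    exact mul_mem (nz_conj' (h.Ro_norm hK g'' hg''R) ⟨⟨hc2_0, hc2_1⟩, hc2_2⟩)
      ⟨⟨hc1_0, hc1_1⟩, hc1_2⟩
  obtain ⟨c, hc, hcN⟩ := lift_fix (rx3 ρ) h.Ro_cop h.Ro_x (g * g' * g'') hyp1
  have hcR : c ∈ R := by
    have e : c = (g * g' * g'') * ((g * g' * g'')⁻¹ * c) := by group
    rw [e]; exact R.mul_mem hmR (CK_le hcN.1.1)
  have hc1 := h.g1 hK1 hxK1 c hcR hc
  have hm1 : g * g' * g'' ∈ CK V R r (cj (ρ c3) K) := by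
    have e : g * g' * g'' = c * ((g * g' * g'')⁻¹ * c)⁻¹ := by group
    rw [e]; exact mul_mem hc1 (inv_mem hcN.1.2)
  have e : g = (g * g' * g'') * g''⁻¹ * g'⁻¹ := by group
  rw [e]
  exact mul_mem (mul_mem (mem_sup_left hm1) (mem_sup_right (inv_mem hg''2)))
    (mem_sup_left (inv_mem hg'1))

end NHyp

end Cfsg.Agent.Helper34.S3
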