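/-
Helper library of seat helper34: an invariant `r`-subgroup acting faithfully on `V` is abelian
(second part).  Namespace `Cfsg.Agent.Helper34.S3`.
-/
import Cfsg.Agent.Helper34.S3CaseN

set_option autoImplicit false

namespace Cfsg.Agent.Helper34.S3

open Subgroup
open scoped commutatorElement

universe u

variable {Γ : Type u} [Group Γ] [Finite Γ]

variable {ρ : Equiv.Perm (Fin 3) →* Γ} {V R K : Subgroup Γ} {v r : ℕ}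

namespace NHyp

theorem caseN3 (h : NHyp ρ V v R r) (hK : K ∈ hyp V (Z1 R r))
    (hxK : ρ c3 ∉ normalizer (K : Set Γ)) (hyK : ρ t2 ∈ normalizer (K : Set Γ)) :
    ∀ a ∈ R, ∀ b ∈ R, a * b * a⁻¹ * b⁻¹ ∈ CK V R r K := by
  have hz := h.zhyp
  have hxR := h.hR.inv c3
  have hyR := h.hR.inv t2
  have hxZ := h.Zinv c3
  have hyZ := h.Zinv t2
  have hxV := h.hV.inv c3
  have hyV := h.hV.inv t2
  have hK1 := hyp_cj hz hxZ hxV hK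
  have hK2 := hyp_cj hz hxZ hxV hK1
  obtain ⟨d1, d2, d3⟩ := triple_distinct (rx3 ρ) hxK
  have hxK1 : ρ c3 ∉ normalizer ((cj (ρ c3) K : Subgroup Γ) : Set Γ) :=
    fun hn => d2 (cj_eq_of_nz hn).symm
  have hxK2 : ρ c3 ∉ normalizer ((cj (ρ c3) (cj (ρ c3) K) : Subgroup Γ) : Set Γ) := by
    intro hn
    have h1 := cj_eq_of_nz hn
    rw [cj3 (rx3 ρ)] at h1
    exact d3 h1
  have hYfix : ∀ u ∈ VK V (Z1 R r) K, ρ t2 * u = u * ρ t2 → u = 1 := by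
    intro u hu hyu
    have huV := VK_le hz hu
    have hu1' := VK_cj (K := K) hxZ hxV hu
    have hu2' := VK_cj (K := cj (ρ c3) K) hxZ hxV hu1'
    have hu1V := nz_conj hxV huV
    have hu2V := nz_conj hxV hu1V
    have hn : ρ c3 * n3 (ρ c3) u = n3 (ρ c3) u * ρ c3 := by
      apply n3_fix (rx3 ρ)
      · exact h.hV.comm u huV _ hu1V
      · exact h.hV.comm u huV _ hu2V
    have hnV : n3 (ρ c3) u ∈ V := by
      unfold n3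
      exact V.mul_mem (V.mul_mem huV hu1V) hu2V
    have hyu' : ρ t2 * u * (ρ t2)⁻¹ = u := mul_inv_eq_iff_eq_mul.mpr hyu
    have hy1 : ρ t2 * (ρ c3 * u * (ρ c3)⁻¹) * (ρ t2)⁻¹
        = ρ c3 * (ρ c3 * u * (ρ c3)⁻¹) * (ρ c3)⁻¹ := by
      rw [conjYX, hyu']
    have hy2 : ρ t2 * (ρ c3 * (ρ c3 * u * (ρ c3)⁻¹) * (ρ c3)⁻¹) * (ρ t2)⁻¹
        = ρ c3 * u * (ρ c3)⁻¹ := by
      rw [conjYX, hy1, x3conj]
    have hyn : ρ t2 * n3 (ρ c3) u = n3 (ρ c3) u * ρ t2 := by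
      have e : ρ t2 * n3 (ρ c3) u * (ρ t2)⁻¹ = n3 (ρ c3) u := by
        unfold n3
        calc ρ t2 * (u * (ρ c3 * u * (ρ c3)⁻¹) * (ρ c3 * (ρ c3 * u * (ρ c3)⁻¹) * (ρ c3)⁻¹))
              * (ρ t2)⁻¹
            = (ρ t2 * u * (ρ t2)⁻¹) * (ρ t2 * (ρ c3 * u * (ρ c3)⁻¹) * (ρ t2)⁻¹)
              * (ρ t2 * (ρ c3 * (ρ c3 * u * (ρ c3)⁻¹) * (ρ c3)⁻¹) * (ρ t2)⁻¹) := by group
          _ = u * (ρ c3 * (ρ c3 * u * (ρ c3)⁻¹) * (ρ c3)⁻¹) * (ρ c3 * u * (ρ c3)⁻¹) := by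
              rw [hyu', hy1, hy2]
          _ = u * (ρ c3 * u * (ρ c3)⁻¹) * (ρ c3 * (ρ c3 * u * (ρ c3)⁻¹) * (ρ c3)⁻¹) := by
              rw [mul_assoc u, mul_assoc u, h.hV.comm _ hu2V _ hu1V]
      exact mul_inv_eq_iff_eq_mul.mp e
    have hn1 : n3 (ρ c3) u = 1 := h.hV.fpf _ hnV (comm_all ρ hn hyn)
    exact ind3 hz hK hK1 hK2 d1 d3 d2 hu hu1' hu2' hn1
  have hYVK := VK_norm_of_norm hyZ hyV hyK
  have hYinv : ∀ u ∈ VK V (Z1 R r) K, ρ t2 * u * (ρ t2)⁻¹ = u⁻¹ :=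
    fpf_invol_inverts (ry2 ρ) (fun b hb => nz_conj hYVK hb) hYfix
  have hG3 : ∀ g ∈ R, ρ t2 * g * (ρ t2)⁻¹ * g⁻¹ ∈ CK V R r K := by
    intro g hg
    rw [mem_CK]
    refine ⟨R.mul_mem (nz_conj hyR hg) (R.inv_mem hg), ?_⟩
    intro u hu
    have hw : g⁻¹ * u * g ∈ VK V (Z1 R r) K := nz_conj' (h.RnormVK hK g hg) hu
    have hw' : (ρ t2)⁻¹ * (g⁻¹ * u * g) * ρ t2 = (g⁻¹ * u * g)⁻¹ := by
      have h1 := hYinv _ ((VK V (Z1 R r) K).inv_mem hw)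
      rw [inv_inv] at h1
      calc (ρ t2)⁻¹ * (g⁻¹ * u * g) * ρ t2
          = (ρ t2)⁻¹ * (ρ t2 * (g⁻¹ * u * g)⁻¹ * (ρ t2)⁻¹) * ρ t2 := by rw [h1]
        _ = (g⁻¹ * u * g)⁻¹ := by group
    have e : (ρ t2 * g * (ρ t2)⁻¹ * g⁻¹) * u * (ρ t2 * g * (ρ t2)⁻¹ * g⁻¹)⁻¹ = u := by
      calc (ρ t2 * g * (ρ t2)⁻¹ * g⁻¹) * u * (ρ t2 * g * (ρ t2)⁻¹ * g⁻¹)⁻¹
          = ρ t2 * (g * ((ρ t2)⁻¹ * (g⁻¹ * u * g) * ρ t2) * g⁻¹) * (ρ t2)⁻¹ := by group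
        _ = ρ t2 * (g * (g⁻¹ * u * g)⁻¹ * g⁻¹) * (ρ t2)⁻¹ := by rw [hw']
        _ = ρ t2 * u⁻¹ * (ρ t2)⁻¹ := by group
        _ = u := by rw [hYinv _ ((VK V (Z1 R r) K).inv_mem hu), inv_inv]
    exact (mul_inv_eq_iff_eq_mul.mp e).symm
  have hYX : ρ t2 * ρ c3 = ρ c3 * ρ c3 * ρ t2 := by
    calc ρ t2 * ρ c3 = (ρ t2 * ρ c3 * (ρ t2)⁻¹) * ρ t2 := by group
      _ = ρ c3 * ρ c3 * ρ t2 := by rw [rel1, xinv]
  have hYK1 : cj (ρ t2) (cj (ρ c3) K) = cj (ρ c3) (cj (ρ c3) K) := by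
    calc cj (ρ t2) (cj (ρ c3) K) = cj (ρ t2 * ρ c3) K := (cj_mul _ _ _).symm
      _ = cj (ρ c3 * ρ c3 * ρ t2) K := by rw [hYX]
      _ = cj (ρ c3 * ρ c3) (cj (ρ t2) K) := cj_mul _ _ _
      _ = cj (ρ c3 * ρ c3) K := by rw [cj_eq_of_nz hyK]
      _ = cj (ρ c3) (cj (ρ c3) K) := cj_mul _ _ _
  have hYK2 : cj (ρ t2) (cj (ρ c3) (cj (ρ c3) K)) = cj (ρ c3) K := by
    calc cj (ρ t2) (cj (ρ c3) (cj (ρ c3) K)) = cj (ρ t2) (cj (ρ t2) (cj (ρ c3) K)) := by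
          rw [hYK1]
      _ = cj (ρ t2 * ρ t2) (cj (ρ c3) K) := (cj_mul _ _ _).symm
      _ = cj (ρ c3) K := by rw [ry2, cj_one]
  obtain ⟨M, hM⟩ : ∃ M, M = CK V R r K ⊔ CK V R r (cj (ρ c3) K)
      ⊔ CK V R r (cj (ρ c3) (cj (ρ c3) K)) := ⟨_, rfl⟩
  have hM0 : CK V R r K ≤ M := by rw [hM]; exact le_sup_left.trans le_sup_left
  have hM1 : CK V R r (cj (ρ c3) K) ≤ M := by rw [hM]; exact le_sup_right.trans le_sup_left
  have hM2 : CK V R r (cj (ρ c3) (cj (ρ c3) K)) ≤ M := by rw [hM]; exact le_sup_right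
  have hMR : M ≤ R := by rw [hM]; exact sup_le (sup_le CK_le CK_le) CK_le
  have hMle : ∀ N : Subgroup Γ, CK V R r K ≤ N → CK V R r (cj (ρ c3) K) ≤ N →
      CK V R r (cj (ρ c3) (cj (ρ c3) K)) ≤ N → M ≤ N := by
    intro N a b c
    rw [hM]; exact sup_le (sup_le a b) c
  have hxM : ρ c3 ∈ normalizer (M : Set Γ) := by
    apply nz_of_conj
    intro m hm
    have h1 := hMle (cj (ρ c3)⁻¹ M)
      (fun g hg => by rw [mem_cj, inv_inv]; exact hM1 (CK_cj hxR hxV hg))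
      (fun g hg => by rw [mem_cj, inv_inv]; exact hM2 (CK_cj hxR hxV hg))
      (fun g hg => by
        rw [mem_cj, inv_inv]
        have h2 := CK_cj (r := r) hxR hxV hg
        rw [cj3 (rx3 ρ)] at h2
        exact hM0 h2) hm
    rwa [mem_cj, inv_inv] at h1
  have hyM : ρ t2 ∈ normalizer (M : Set Γ) := by
    apply nz_of_conj
    intro m hm
    have h1 := hMle (cj (ρ t2)⁻¹ M)
      (fun g hg => by
        rw [mem_cj, inv_inv]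
        have h2 := CK_cj (r := r) hyR hyV hg
        rw [cj_eq_of_nz hyK] at h2
        exact hM0 h2)
      (fun g hg => by
        rw [mem_cj, inv_inv]
        have h2 := CK_cj (r := r) hyR hyV hg
        rw [hYK1] at h2
        exact hM2 h2)
      (fun g hg => by
        rw [mem_cj, inv_inv]
        have h2 := CK_cj (r := r) hyR hyV hg
        rw [hYK2] at h2
        exact hM1 h2) hm
    rwa [mem_cj, inv_inv] at h1
  have hYS : ρ t2 ∈ Helper35.sectionKer R M := by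
    rw [Helper35.mem_sectionKer]
    refine ⟨hyM, fun q hq => ?_⟩
    have h1 := hG3 q⁻¹ (R.inv_mem hq)
    have e : q⁻¹ * ρ t2 * q * (ρ t2)⁻¹ = (ρ t2 * q⁻¹ * (ρ t2)⁻¹ * q⁻¹⁻¹)⁻¹ := by group
    rw [e]; exact hM0 (inv_mem h1)
  have hXYS : ρ c3 * ρ t2 * (ρ c3)⁻¹ ∈ Helper35.sectionKer R M := by
    rw [Helper35.mem_sectionKer]
    refine ⟨mul_mem (mul_mem hxM hyM) (inv_mem hxM), fun q hq => ?_⟩
    have h1 := hG3 ((ρ c3)⁻¹ * q⁻¹ * ρ c3) (nz_conj' hxR (R.inv_mem hq))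
    have h2 := CK_cj (r := r) hxR hxV (inv_mem h1)
    have e : q⁻¹ * (ρ c3 * ρ t2 * (ρ c3)⁻¹) * q * (ρ c3 * ρ t2 * (ρ c3)⁻¹)⁻¹
        = ρ c3 * (ρ t2 * ((ρ c3)⁻¹ * q⁻¹ * ρ c3) * (ρ t2)⁻¹
          * ((ρ c3)⁻¹ * q⁻¹ * ρ c3)⁻¹)⁻¹ * (ρ c3)⁻¹ := by group
    rw [e]; exact hM1 h2
  have hXS : ρ c3 ∈ Helper35.sectionKer R M := by
    have e : ρ c3 = ρ t2 * (ρ c3 * ρ t2 * (ρ c3)⁻¹) := by
      calc ρ c3 = (ρ c3 * ρ c3 * ρ t2) * ρ t2 * (ρ c3)⁻¹ := by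
            rw [mul_assoc (ρ c3 * ρ c3), ry2]; group
        _ = ρ t2 * (ρ c3 * ρ t2 * (ρ c3)⁻¹) := by rw [← hYX]; group
    rw [e]; exact mul_mem hYS hXYS
  have hRM : R ≤ M := by
    intro a ha
    have hcop6 : (Nat.card M).Coprime 6 :=
      Nat.Coprime.coprime_dvd_left (Subgroup.card_dvd_of_le hMR) h.hR.cop
    obtain ⟨c, hc, hcM⟩ := lift2 ρ hxM hyM hcop6 a
      ((Helper35.mem_sectionKer.mp hXS).2 a ha) ((Helper35.mem_sectionKer.mp hYS).2 a ha)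
    have hcR : c ∈ R := by
      have e : c = a * (a⁻¹ * c) := by group
      rw [e]; exact R.mul_mem ha (hMR hcM)
    have hc1 := h.hR.fpf c hcR hc
    rw [hc1, mul_one] at hcM
    exact inv_mem_iff.mp hcM
  have hP1 : M ≤ CK V R r K ⊔ CK V R r (cj (ρ c3) K) := by
    refine hMle _ le_sup_left le_sup_right ?_
    have h1 := h.g5 hK2 hxK2
    rw [cj3 (rx3 ρ)] at h1
    exact h1
  have hP2 : M ≤ CK V R r K ⊔ CK V R r (cj (ρ c3) (cj (ρ c3) K)) := by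
    refine hMle _ le_sup_left ?_ le_sup_right
    have h1 := h.g5 hK1 hxK1
    rw [cj3 (rx3 ρ)] at h1
    rw [sup_comm]; exact h1
  intro a ha b hb
  obtain ⟨a₀, ha₀, a₁, ha₁, rfl⟩ := Helper35.exists_mul_of_mem_sup_of_le_normalizer
    (N := CK V R r K) (A := CK V R r (cj (ρ c3) K))
    (fun g hg => h.CK_norm hK g (CK_le hg)) (hP1 (hRM ha))
  obtain ⟨b₀, hb₀, b₂, hb₂, rfl⟩ := Helper35.exists_mul_of_mem_sup_of_le_normalizer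
    (N := CK V R r K) (A := CK V R r (cj (ρ c3) (cj (ρ c3) K)))
    (fun g hg => h.CK_norm hK g (CK_le hg)) (hP2 (hRM hb))
  have hcomm12 : a₁ * b₂ * a₁⁻¹ * b₂⁻¹ ∈ CK V R r K := by
    apply h.g2 hK hxK
    · have e : a₁ * b₂ * a₁⁻¹ * b₂⁻¹ = a₁ * (b₂ * a₁⁻¹ * b₂⁻¹) := by group
      rw [e]
      exact mul_mem ha₁ (nz_conj (h.CK_norm hK1 b₂ (CK_le hb₂)) (inv_mem ha₁))
    · exact mul_mem (nz_conj (h.CK_norm hK2 a₁ (CK_le ha₁)) hb₂) (inv_mem hb₂)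
  have e : (a₀ * a₁) * (b₀ * b₂) * (a₀ * a₁)⁻¹ * (b₀ * b₂)⁻¹
      = a₀ * (a₁ * b₀ * a₁⁻¹) * (a₁ * b₂ * a₁⁻¹ * b₂⁻¹) * (b₂ * a₀⁻¹ * b₂⁻¹) * b₀⁻¹ := by group
  rw [e]
  exact mul_mem (mul_mem (mul_mem (mul_mem ha₀ (nz_conj (h.CK_norm hK a₁ (CK_le ha₁)) hb₀))
    hcomm12) (nz_conj (h.CK_norm hK b₂ (CK_le hb₂)) (inv_mem ha₀))) (inv_mem hb₀)

/-- **Case N**: an invariant `r`-group (`r ≠ v`) acting faithfully on `V` is abelian. -/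
theorem comm (h : NHyp ρ V v R r) : ∀ a ∈ R, ∀ b ∈ R, a * b = b * a := by
  by_contra hcon
  push Not at hcon
  obtain ⟨a, ha, b, hb, hab⟩ := hcon
  have hz := h.zhyp
  have hxR := h.hR.inv c3
  have hxZ := h.Zinv c3
  have hxV := h.hV.inv c3
  haveI : Fact r.Prime := ⟨h.rprime⟩
  have hR' : (⁅R, R⁆ : Subgroup Γ) ≠ ⊥ := by
    intro hbot
    rw [commutator_eq_bot_iff_le_centralizer] at hbot
    exact hab (mem_centralizer_iff.mp (hbot hb) a ha)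
  have hR'R : (⁅R, R⁆ : Subgroup Γ) ≤ R := by
    rw [commutator_le]
    intro a ha b hb
    rw [commutatorElement_def]
    exact R.mul_mem (R.mul_mem (R.mul_mem ha hb) (R.inv_mem ha)) (R.inv_mem hb)
  have hR'p : IsPGroup r (⁅R, R⁆ : Subgroup Γ) := h.hRp.to_le hR'R
  have hRnR' : R ≤ normalizer ((⁅R, R⁆ : Subgroup Γ) : Set Γ) :=
    Helper35.le_normalizer_commutator' le_normalizer le_normalizer
  obtain ⟨z, hz', hz1, hzc⟩ := pgroup_fixed h.hRp hR'p hRnR' hR'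
  have hW : (⁅R, R⁆ ⊓ Zc R : Subgroup Γ) ≠ ⊥ := by
    intro hbot
    have hmem : z ∈ (⁅R, R⁆ ⊓ Zc R : Subgroup Γ) :=
      mem_inf.mpr ⟨hz', mem_Zc.mpr ⟨hR'R hz', hzc⟩⟩
    rw [hbot] at hmem
    exact hz1 (mem_bot.mp hmem)
  have hWp : IsPGroup r (⁅R, R⁆ ⊓ Zc R : Subgroup Γ) := h.hRp.to_le (inf_le_left.trans hR'R)
  obtain ⟨z₀, hz₀, hz₀1, hz₀r⟩ := exists_order_p hWp hW
  have hz₀Z : z₀ ∈ Z1 R r := mem_powKer.mpr ⟨(mem_inf.mp hz₀).2, hz₀r⟩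
  have hz₀R' : z₀ ∈ (⁅R, R⁆ : Subgroup Γ) := (mem_inf.mp hz₀).1
  have hexK : ∃ K ∈ hyp V (Z1 R r), z₀ ∉ K := by
    by_contra hcon
    push Not at hcon
    exact hz₀1 (hyp_inter hz hz₀Z hcon)
  obtain ⟨K, hK, hz₀K⟩ := hexK
  have hfin : ∀ K' ∈ hyp V (Z1 R r), ∀ z' ∈ (⁅R, R⁆ : Subgroup Γ), z' ∈ Z1 R r → z' ∉ K' →
      (ρ c3 ∈ normalizer (K' : Set Γ) ∨ ρ t2 ∈ normalizer (K' : Set Γ)) → False := by
    intro K' hK' z' hz'R hz'Z hz'K hor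
    have hcomm : ∀ a ∈ R, ∀ b ∈ R, a * b * a⁻¹ * b⁻¹ ∈ CK V R r K' := by
      by_cases hxK : ρ c3 ∈ normalizer (K' : Set Γ)
      · exact h.endN hK' hxK (h.fixN hK' hxK)
      · rcases hor with h1 | h1
        · exact absurd h1 hxK
        · exact h.caseN3 hK' hxK h1
    have hle : (⁅R, R⁆ : Subgroup Γ) ≤ CK V R r K' := by
      rw [commutator_le]
      intro a ha b hb
      rw [commutatorElement_def]
      exact hcomm a ha b hb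
    obtain ⟨u, hu, hu1⟩ := hyp_VK_ne hK'
    exact hz'K (hyp_fpf hz hK' hz'Z hu hu1 ((mem_CK.mp (hle hz'R)).2 u hu).symm)
  by_cases hxK : ρ c3 ∈ normalizer (K : Set Γ)
  · exact hfin K hK z₀ hz₀R' hz₀Z hz₀K (Or.inl hxK)
  · rcases stab h.hV hz h.Zinv hK hxK with h0 | h1 | h2
    · exact hfin K hK z₀ hz₀R' hz₀Z hz₀K (Or.inr h0)
    · refine hfin (cj (ρ c3)⁻¹ K) (hyp_cj hz (inv_mem hxZ) (inv_mem hxV) hK)
        ((ρ c3)⁻¹ * z₀ * ρ c3) ?_ ?_ ?_ (Or.inr (nz_cj h1))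
      · exact nz_conj' (nz_comm hxR hxR) hz₀R'
      · exact nz_conj' hxZ hz₀Z
      · intro hmem
        rw [mem_cj] at hmem
        apply hz₀K
        have e : (ρ c3)⁻¹⁻¹ * ((ρ c3)⁻¹ * z₀ * ρ c3) * (ρ c3)⁻¹ = z₀ := by group
        rwa [e] at hmem
    · have hy' : ρ t2 ∈ normalizer ((cj (ρ c3) K : Subgroup Γ) : Set Γ) := by
        have h3 := nz_cj (s := (ρ c3)⁻¹) (t := ρ t2) (K := K) (by simpa using h2)
        simpa using h3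
      refine hfin (cj (ρ c3) K) (hyp_cj hz hxZ hxV hK) (ρ c3 * z₀ * (ρ c3)⁻¹) ?_ ?_ ?_
        (Or.inr hy')
      · exact nz_conj (nz_comm hxR hxR) hz₀R'
      · exact nz_conj hxZ hz₀Z
      · intro hmem
        rw [mem_cj] at hmem
        apply hz₀K
        have e : (ρ c3)⁻¹ * (ρ c3 * z₀ * (ρ c3)⁻¹) * ρ c3 = z₀ := by group
        rwa [e] at hmem

end NHyp

end Cfsg.Agent.Helper34.S3
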