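/-
Helper library of seat helper34: structure of a minimal invariant nonabelian subgroup, and the
configuration theorem: an invariant solvable group acting faithfully on `V` whose derived
subgroup has no `v`-elements is abelian.  Namespace `Cfsg.Agent.Helper34.S3`.
-/
import Cfsg.Agent.Helper34.S3CaseN2
import Cfsg.Agent.Helper34.S3CaseNN

set_option autoImplicit false

namespace Cfsg.Agent.Helper34.S3

open Subgroup
open scoped commutatorElement

universe u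

variable {Γ : Type u} [Group Γ]

/-- the subgroup of `H` of elements whose `m`-th power lies in the derived subgroup -/
def dsub (H : Subgroup Γ) (m : ℕ) : Subgroup Γ :=
  (((powMonoidHom m : Abelianization ↥H →* Abelianization ↥H).comp
    Abelianization.of).ker).map H.subtype

theorem mem_dsub' {H : Subgroup Γ} {m : ℕ} (y : ↥H) :
    (y : Γ) ∈ dsub H m ↔ (Abelianization.of y) ^ m = 1 := by
  unfold dsub
  constructor
  · rintro ⟨z, hz, hzy⟩
    have h1 : z = y := Subtype.ext hzy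
    subst h1
    exact hz
  · intro h
    exact ⟨y, h, rfl⟩

theorem mem_comm_sub {H : Subgroup Γ} (y : ↥H) :
    (y : Γ) ∈ ⁅H, H⁆ ↔ Abelianization.of y = 1 := by
  rw [← Subgroup.map_subtype_commutator, ← MonoidHom.mem_ker, Abelianization.ker_of]
  constructor
  · rintro ⟨z, hz, hzy⟩
    have h1 : z = y := Subtype.ext hzy
    subst h1
    exact hz
  · intro h
    exact ⟨y, h, rfl⟩

theorem mem_dsub {H : Subgroup Γ} {m : ℕ} {g : Γ} :
    g ∈ dsub H m ↔ g ∈ H ∧ g ^ m ∈ ⁅H, H⁆ := by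
  constructor
  · intro hg
    have hgH : g ∈ H := by
      unfold dsub at hg
      exact Subgroup.map_subtype_le _ hg
    refine ⟨hgH, ?_⟩
    have h1 := (mem_dsub' (m := m) (⟨g, hgH⟩ : ↥H)).mp hg
    have h2 := (mem_comm_sub ((⟨g, hgH⟩ : ↥H) ^ m)).mpr (by rw [map_pow]; exact h1)
    simpa using h2
  · rintro ⟨hgH, hgm⟩
    have h2 := (mem_comm_sub ((⟨g, hgH⟩ : ↥H) ^ m)).mp (by simpa using hgm)
    rw [map_pow] at h2
    exact (mem_dsub' (m := m) (⟨g, hgH⟩ : ↥H)).mpr h2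

variable [Finite Γ]

/-- **Structure lemma**: a solvable invariant nonabelian subgroup all of whose proper invariant
subgroups are abelian is a group of prime power order, or `R ⋊ S` with `R`, `S` abelian invariant
subgroups of coprime prime power orders. -/
theorem struct_lemma {ρ : Equiv.Perm (Fin 3) →* Γ} {H : Subgroup Γ}
    (hinv : ∀ σ, ρ σ ∈ normalizer (H : Set Γ)) (hcop : (Nat.card H).Coprime 6)
    (hsolv : Group.IsSolvable ↥H)
    (hmin : ∀ H₀ : Subgroup Γ, H₀ ≤ H → H₀ ≠ H → (∀ σ, ρ σ ∈ normalizer (H₀ : Set Γ)) →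
      ∀ a ∈ H₀, ∀ b ∈ H₀, a * b = b * a)
    (hnc : ∃ a ∈ H, ∃ b ∈ H, a * b ≠ b * a) :
    (∃ ℓ : ℕ, ℓ.Prime ∧ IsPGroup ℓ H) ∨
    (∃ (r ℓ : ℕ) (R S : Subgroup Γ), r.Prime ∧ ℓ.Prime ∧ r ≠ ℓ ∧ IsPGroup r R ∧ IsPGroup ℓ S ∧
      (∀ σ, ρ σ ∈ normalizer (R : Set Γ)) ∧ (∀ σ, ρ σ ∈ normalizer (S : Set Γ)) ∧
      (∀ a ∈ R, ∀ b ∈ R, a * b = b * a) ∧ (∀ a ∈ S, ∀ b ∈ S, a * b = b * a) ∧
      S ≤ normalizer (R : Set Γ) ∧ R ⊔ S = H ∧ ∃ g ∈ R, ∃ t ∈ S, g * t ≠ t * g) := by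
  classical
  obtain ⟨a₀, ha₀, b₀, hb₀, hab₀⟩ := hnc
  have hnt : Nontrivial ↥H := by
    refine ⟨⟨⟨a₀, ha₀⟩, 1, ?_⟩⟩
    intro h
    have h1 : a₀ = 1 := congrArg Subtype.val h
    apply hab₀
    rw [h1, one_mul, mul_one]
  have hlt := Group.IsSolvable.commutator_lt_top_of_nontrivial ↥H
  have hcard1 : Nat.card (Abelianization ↥H) ≠ 1 := by
    intro h1
    have h2 : (commutator ↥H).index = 1 := h1
    exact hlt.ne (Subgroup.index_eq_one.mp h2)
  obtain ⟨ℓ, hℓ, hℓd⟩ : ∃ ℓ : ℕ, ℓ.Prime ∧ ℓ ∣ Nat.card (Abelianization ↥H) :=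
    ⟨_, Nat.minFac_prime hcard1, Nat.minFac_dvd _⟩
  haveI : Fact ℓ.Prime := ⟨hℓ⟩
  obtain ⟨x, hx⟩ := exists_prime_orderOf_dvd_card' ℓ hℓd
  obtain ⟨e, he⟩ : ∃ e : ℕ, e = (Nat.card H).factorization ℓ := ⟨_, rfl⟩
  obtain ⟨m, hm'⟩ : ∃ m : ℕ, m = Nat.card H / ℓ ^ (Nat.card H).factorization ℓ := ⟨_, rfl⟩
  have hm : Nat.card H = ℓ ^ e * m := by
    rw [he, hm']; exact (Nat.ordProj_mul_ordCompl_eq_self (Nat.card H) ℓ).symm
  have hcopm : Nat.Coprime ℓ m := by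
    rw [hm']; exact Nat.coprime_ordCompl hℓ (Nat.card_pos.ne')
  have hDH : dsub H m ≤ H := fun g hg => (mem_dsub.mp hg).1
  have hDne : dsub H m ≠ H := by
    intro hD
    obtain ⟨y, hy⟩ := QuotientGroup.mk_surjective (s := commutator ↥H) x
    have hy' : Abelianization.of y = x := hy
    have hyD : (y : Γ) ∈ dsub H m := by rw [hD]; exact y.2
    have h1 := (mem_dsub' y).mp hyD
    rw [hy'] at h1
    have h2 : ℓ ∣ m := by rw [← hx]; exact orderOf_dvd_of_pow_eq_one h1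
    exact hℓ.one_lt.ne' (Nat.Coprime.eq_one_of_dvd hcopm h2)
  have hHc : ∀ t, t ∈ normalizer (H : Set Γ) → t ∈ normalizer ((dsub H m : Subgroup Γ) : Set Γ) := by
    intro t ht
    apply nz_of_conj
    intro g hg
    rw [mem_dsub] at hg ⊢
    refine ⟨nz_conj ht hg.1, ?_⟩
    rw [conj_pow]
    exact nz_conj (nz_comm ht ht) hg.2
  have hDinv : ∀ σ, ρ σ ∈ normalizer ((dsub H m : Subgroup Γ) : Set Γ) := fun σ => hHc _ (hinv σ)
  have hDab := hmin (dsub H m) hDH hDne hDinv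
  have hDm : ∀ g ∈ H, g ^ m = 1 → g ∈ dsub H m := fun g hg hgm =>
    mem_dsub.mpr ⟨hg, by rw [hgm]; exact one_mem _⟩
  have hA : ρ.range ≤ normalizer (H : Set Γ) := by
    rintro _ ⟨σ, rfl⟩; exact hinv σ
  have hAc : (Nat.card ρ.range).Coprime (Nat.card H) := by
    have h1 : Nat.card ρ.range ∣ 6 := by
      have h2 := Subgroup.card_range_dvd ρ
      have h3 : Nat.card (Equiv.Perm (Fin 3)) = 6 := by
        rw [Nat.card_perm, Nat.card_fin]; rfl
      rwa [h3] at h2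
    exact Nat.Coprime.coprime_dvd_left h1 hcop.symm
  obtain ⟨T, hT, hTA⟩ := Helper35.exists_invariant_sylow hA hAc (Or.inr hsolv) ℓ
  have hTinv : ∀ σ, ρ σ ∈ normalizer (T : Set Γ) := fun σ => hTA ⟨σ, rfl⟩
  have hTp : IsPGroup ℓ T := Helper35.isPGroup_of_mem_sylowSet hT
  by_cases hTH : T = H
  · left; exact ⟨ℓ, hℓ, hTH ▸ hTp⟩
  right
  have hTab := hmin T hT.1 hTH hTinv
  have key : ∀ r : ℕ, r.Prime → r ≠ ℓ → ∃ R : Subgroup Γ, IsPGroup r R ∧ R ≤ dsub H m ∧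
      (∀ t ∈ normalizer (H : Set Γ), t ∈ normalizer (R : Set Γ)) ∧
      (∀ P : Subgroup Γ, P ≤ H → Nat.card P = r ^ (Nat.card H).factorization r → P ≤ R) := by
    intro r hr hrl
    refine ⟨powKer (dsub H m) (r ^ (Nat.card H).factorization r) hDab, ?_, ?_, ?_, ?_⟩
    · intro g
      refine ⟨(Nat.card H).factorization r, ?_⟩
      apply Subtype.ext
      rw [Subgroup.coe_pow]
      exact (mem_powKer.mp g.2).2
    · exact fun g hg => (mem_powKer.mp hg).1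
    · intro t ht
      apply nz_of_conj
      intro g hg
      rw [mem_powKer] at hg ⊢
      refine ⟨nz_conj (hHc t ht) hg.1, ?_⟩
      rw [conj_pow, hg.2, mul_one, mul_inv_cancel]
    · intro P hPH hPc g hg
      have h1 : g ^ (r ^ (Nat.card H).factorization r) = 1 := by
        have h0 := pow_card_eq_one' (G := ↥P) (x := ⟨g, hg⟩)
        rw [hPc] at h0
        simpa using congrArg Subtype.val h0
      have h2 : r ^ (Nat.card H).factorization r ∣ m := by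
        have h3 : r ^ (Nat.card H).factorization r ∣ ℓ ^ e * m :=
          hm ▸ Nat.ordProj_dvd (Nat.card H) r
        have h4 : Nat.Coprime (r ^ (Nat.card H).factorization r) (ℓ ^ e) :=
          Nat.Coprime.pow _ _ ((Nat.coprime_primes hr hℓ).mpr hrl)
        exact h4.dvd_of_dvd_mul_left h3
      have h5 : g ^ m = 1 := by
        obtain ⟨c, hc⟩ := h2
        rw [hc, pow_mul, h1, one_pow]
      exact mem_powKer.mpr ⟨hDm g (hPH hg) h5, h1⟩
  by_cases hall : ∀ r : ℕ, r.Prime → r ≠ ℓ → ∀ R : Subgroup Γ, IsPGroup r R → R ≤ dsub H m →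
      (∀ t ∈ normalizer (H : Set Γ), t ∈ normalizer (R : Set Γ)) → ∀ g ∈ R, ∀ t ∈ T, g * t = t * g
  · exfalso
    have hBD : dsub H m ⊓ centralizer (T : Set Γ) ≤ dsub H m := inf_le_left
    have hBab : ∀ a ∈ dsub H m ⊓ centralizer (T : Set Γ),
        ∀ b ∈ dsub H m ⊓ centralizer (T : Set Γ), a * b = b * a :=
      fun a ha b hb => hDab a (hBD ha) b (hBD hb)
    have hTB : ∀ a ∈ T, ∀ b ∈ dsub H m ⊓ centralizer (T : Set Γ), a * b = b * a := by
      intro a ha b hb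
      exact mem_centralizer_iff.mp (mem_inf.mp hb).2 a ha
    have hL : T ⊔ (dsub H m ⊓ centralizer (T : Set Γ)) = H := by
      apply eq_of_sylows_le (sup_le hT.1 (hBD.trans hDH))
      intro p hp
      by_cases hpl : p = ℓ
      · rw [hpl]
        exact ⟨T, le_sup_left, hT.2⟩
      · obtain ⟨R, hRp, hRD, hRn, hRP⟩ := key p hp hpl
        haveI : Fact p.Prime := ⟨hp⟩
        obtain ⟨P, hP⟩ := Helper35.sylowSet_nonempty (p := p) H
        refine ⟨P, ?_, hP.2⟩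
        have h1 := hRP P hP.1 hP.2
        intro g hg
        refine (le_sup_right : dsub H m ⊓ centralizer (T : Set Γ) ≤ _) (mem_inf.mpr ⟨hRD (h1 hg), ?_⟩)
        rw [mem_centralizer_iff]
        intro t ht
        exact (hall p hp hpl R hRp hRD hRn g (h1 hg) t ht).symm
    have h6 := sup_comm_of_comm hTab hBab hTB
    rw [hL] at h6
    exact hab₀ (h6 a₀ ha₀ b₀ hb₀)
  · push Not at hall
    obtain ⟨r, hr, hrl, R, hRp, hRD, hRn, g, hg, t, ht, hgt⟩ := hall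
    refine ⟨r, ℓ, R, T, hr, hℓ, hrl, hRp, hTp, fun σ => hRn _ (hinv σ), hTinv,
      fun a ha b hb => hDab a (hRD ha) b (hRD hb), hTab,
      fun s hs => hRn s (le_normalizer (hT.1 hs)), ?_, g, hg, t, ht, hgt⟩
    by_contra hne
    have hle : R ⊔ T ≤ H := sup_le (hRD.trans hDH) hT.1
    have hinvRT : ∀ σ, ρ σ ∈ normalizer ((R ⊔ T : Subgroup Γ) : Set Γ) :=
      fun σ => nz_sup (hRn _ (hinv σ)) (hTinv σ)
    exact hgt (hmin (R ⊔ T) hle hne hinvRT g (mem_sup_left hg) t (mem_sup_right ht))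

/-- **Configuration theorem**: an invariant solvable subgroup acting faithfully on `V`, without
fixed points, whose derived subgroup has no nontrivial `v`-elements, is abelian. -/
theorem config {ρ : Equiv.Perm (Fin 3) →* Γ} {V G : Subgroup Γ} {v : ℕ} (hV : VHyp ρ V v)
    (hG : HHyp ρ V G) (hsolv : Group.IsSolvable ↥G)
    (hv' : ∀ a ∈ ⁅G, G⁆, ∀ k : ℕ, a ^ (v ^ k) = 1 → a = 1) :
    ∀ a ∈ G, ∀ b ∈ G, a * b = b * a := by
  classical
  by_contra hcon
  obtain ⟨H, ⟨hHG, hHinv, hHnc⟩, hHmin⟩ := Set.exists_min_image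
    {H : Subgroup Γ | H ≤ G ∧ (∀ σ, ρ σ ∈ normalizer (H : Set Γ)) ∧
      ¬ ∀ a ∈ H, ∀ b ∈ H, a * b = b * a}
    (fun H => Nat.card H) (Set.toFinite _) ⟨G, le_rfl, hG.inv, hcon⟩
  have hmin : ∀ H₀ : Subgroup Γ, H₀ ≤ H → H₀ ≠ H → (∀ σ, ρ σ ∈ normalizer (H₀ : Set Γ)) →
      ∀ a ∈ H₀, ∀ b ∈ H₀, a * b = b * a := by
    intro H₀ hle hne hinv₀
    by_contra hnc₀
    have h1 := hHmin H₀ ⟨hle.trans hHG, hinv₀, hnc₀⟩
    exact hne (Subgroup.eq_of_le_of_card_ge hle h1)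
  have hHH : HHyp ρ V H := hG.mono hHG hHinv
  have hnc : ∃ a ∈ H, ∃ b ∈ H, a * b ≠ b * a := by
    push Not at hHnc; exact hHnc
  have hcomm_le : ⁅H, H⁆ ≤ ⁅G, G⁆ := Subgroup.commutator_mono hHG hHG
  rcases struct_lemma hHinv hHH.cop (Helper35.isSolvable_of_le hHG hsolv) hmin hnc with
    ⟨ℓ, hℓ, hHp⟩ | ⟨r, ℓ, R, S, hr, hℓ, hrl, hRp, hSp, hRinv, hSinv, hRab, hSab, hSR, hRS,
      g, hg, t, ht, hgt⟩
  · obtain ⟨a, ha, b, hb, hab⟩ := hnc
    by_cases hlv : ℓ = v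
    · subst hlv
      apply hab
      have h1 : ⁅a, b⁆ ∈ ⁅H, H⁆ := Subgroup.commutator_mem_commutator ha hb
      obtain ⟨k, hk⟩ := hHp ⟨⁅a, b⁆, Subgroup.commutator_le_self H h1⟩
      have h2 : ⁅a, b⁆ ^ (ℓ ^ k) = 1 := by simpa using congrArg Subtype.val hk
      exact commutatorElement_eq_one_iff_mul_comm.mp (hv' _ (hcomm_le h1) k h2)
    · have hN : NHyp ρ V v H ℓ :=
        { hV := hV, hR := hHH, rprime := hℓ, hRp := hHp, hrv := hlv,
          Rne := by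
            intro hbot
            rw [hbot, Subgroup.mem_bot] at ha
            apply hab
            rw [ha, one_mul, mul_one] }
      exact hab (hN.comm a ha b hb)
  · subst hRS
    have hrv : r ≠ v := by
      rintro rfl
      apply hgt
      have h1 : ⁅g, t⁆ ∈ ⁅R ⊔ S, R ⊔ S⁆ :=
        Subgroup.commutator_mem_commutator (mem_sup_left hg) (mem_sup_right ht)
      have h3 : ⁅g, t⁆ ∈ R := by
        rw [commutatorElement_def]
        have e1 : g * t * g⁻¹ * t⁻¹ = g * (t * g⁻¹ * t⁻¹) := by group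
        rw [e1]
        exact R.mul_mem hg (nz_conj (hSR ht) (R.inv_mem hg))
      obtain ⟨k, hk⟩ := hRp ⟨⁅g, t⁆, h3⟩
      have h2 : ⁅g, t⁆ ^ (r ^ k) = 1 := by simpa using congrArg Subtype.val hk
      exact commutatorElement_eq_one_iff_mul_comm.mp (hv' _ (hcomm_le h1) k h2)
    have hNN : NNHyp ρ V v R S r ℓ :=
      { hV := hV, hH := hHH, rprime := hr, lprime := hℓ, hRp := hRp, hSp := hSp, hrl := hrl,
        hrv := hrv, hRinv := hRinv, hSinv := hSinv, hRab := hRab, hSab := hSab, hSR := hSR,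
        hmin := hmin, hnc := ⟨g, hg, t, ht, hgt⟩ }
    exact hNN.false

end Cfsg.Agent.Helper34.S3
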