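/-
Helper library of seat helper34: a finite solvable group of order prime to 6 admitting a
fixed-point-free action of the symmetric group of degree 3 has nilpotent derived subgroup
(internal form: `G` a normal subgroup of a finite group `X`, the action given by a homomorphism
`ρ` from `Perm (Fin 3)` into `X`).  Namespace `Cfsg.Agent.Helper34.S3`.
-/
import Cfsg.Agent.Helper34.S3Struct

set_option autoImplicit false
set_option linter.unusedSectionVars false

namespace Cfsg.Agent.Helper34.S3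

open Subgroup
open scoped commutatorElement

universe u

section img

variable {X : Type u} [Group X] [Finite X] {Y : Type u} [Group Y]

theorem nz_inf_ker {G : Subgroup X} [hGn : G.Normal] (f : X →* Y) (t : X) :
    t ∈ normalizer ((G ⊓ f.ker : Subgroup X) : Set X) := by
  haveI : (G ⊓ f.ker).Normal := Subgroup.normal_inf_normal G f.ker
  rw [Subgroup.normalizer_eq_top]; exact mem_top t

theorem comm_mem_inf_ker {G : Subgroup X} [hGn : G.Normal] (f : X →* Y) {g t : X} (hg : g ∈ G)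
    (h : f t * f g = f g * f t) : g⁻¹ * t * g * t⁻¹ ∈ G ⊓ f.ker := by
  refine mem_inf.mpr ⟨?_, ?_⟩
  · have e1 : g⁻¹ * t * g * t⁻¹ = g⁻¹ * (t * g * t⁻¹) := by group
    rw [e1]
    exact G.mul_mem (G.inv_mem hg) (hGn.conj_mem g hg t)
  · rw [MonoidHom.mem_ker]
    simp only [map_mul, map_inv]
    rw [mul_assoc (f g)⁻¹, h]
    group

/-- fixed points in an image come from fixed points -/
theorem fpf_map (ρ : Equiv.Perm (Fin 3) →* X) {G : Subgroup X} [hGn : G.Normal]
    (hcop : (Nat.card G).Coprime 6)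
    (hfpf : ∀ g ∈ G, (∀ σ, ρ σ * g = g * ρ σ) → g = 1) (f : X →* Y) :
    ∀ a ∈ G.map f, (∀ σ, f (ρ σ) * a = a * f (ρ σ)) → a = 1 := by
  rintro _ ⟨g, hg, rfl⟩ hfix
  have hcopN : (Nat.card (G ⊓ f.ker : Subgroup X)).Coprime 6 :=
    Nat.Coprime.coprime_dvd_left (Subgroup.card_dvd_of_le inf_le_left) hcop
  obtain ⟨c, hc, hcN⟩ := lift2 ρ (nz_inf_ker f _) (nz_inf_ker f _) hcopN g
    (comm_mem_inf_ker f hg (hfix c3)) (comm_mem_inf_ker f hg (hfix t2))
  have hcG : c ∈ G := by
    have e1 : c = g * (g⁻¹ * c) := by group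
    rw [e1]; exact G.mul_mem hg (mem_inf.mp hcN).1
  have hc1 : c = 1 := hfpf c hcG hc
  rw [hc1, mul_one] at hcN
  have h2 := (mem_inf.mp hcN).2
  rw [MonoidHom.mem_ker, map_inv, inv_eq_one] at h2
  exact h2

/-- the statement of the main theorem for ambient groups of order at most `n` -/
def MainUpTo (n : ℕ) : Prop :=
  ∀ (X : Type u) [Group X] [Finite X], Nat.card X ≤ n →
    ∀ (ρ : Equiv.Perm (Fin 3) →* X) (G : Subgroup X), G.Normal → (Nat.card G).Coprime 6 →
      Group.IsSolvable ↥G → (∀ g ∈ G, (∀ σ, ρ σ * g = g * ρ σ) → g = 1) →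
        Group.IsNilpotent ↥(⁅G, G⁆ : Subgroup X)

/-- the inductive hypothesis applied to a homomorphic image -/
theorem img_step {n : ℕ} (IH : MainUpTo.{u} n) (ρ : Equiv.Perm (Fin 3) →* X) {G : Subgroup X}
    [hGn : G.Normal] (hcop : (Nat.card G).Coprime 6) (hsolv : Group.IsSolvable ↥G)
    (hfpf : ∀ g ∈ G, (∀ σ, ρ σ * g = g * ρ σ) → g = 1) (f : X →* Y)
    (hcard : Nat.card ↥f.range ≤ n) :
    Group.IsNilpotent ↥((⁅G, G⁆ : Subgroup X).map f) := by
  haveI : Finite ↥f.range := Finite.of_surjective f.rangeRestrict f.rangeRestrict_surjective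
  have hsolv' : Group.IsSolvable ↥(G.map f.rangeRestrict) :=
    Group.isSolvable_of_surjective (f := f.rangeRestrict.subgroupMap G)
      (f.rangeRestrict.subgroupMap_surjective G)
  have h1 := IH ↥f.range hcard (f.rangeRestrict.comp ρ) (G.map f.rangeRestrict)
    (Subgroup.Normal.map hGn f.rangeRestrict f.rangeRestrict_surjective)
    (Nat.Coprime.coprime_dvd_left (Subgroup.card_map_dvd G f.rangeRestrict) hcop) hsolv'
    (fun a ha hfix => fpf_map ρ hcop hfpf f.rangeRestrict a ha hfix)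
  have e1 : (⁅G.map f.rangeRestrict, G.map f.rangeRestrict⁆ : Subgroup ↥f.range).map
      f.range.subtype = (⁅G, G⁆ : Subgroup X).map f := by
    rw [← Subgroup.map_commutator, Subgroup.map_map, MonoidHom.subtype_comp_rangeRestrict]
  rw [← e1]
  exact Group.nilpotent_of_surjective
    (f.range.subtype.subgroupMap ⁅G.map f.rangeRestrict, G.map f.rangeRestrict⁆)
    (f.range.subtype.subgroupMap_surjective _)

/-- a subgroup centralizing the normal subgroup `V`, with nilpotent image modulo `V`, is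
nilpotent -/
theorem nil_of_central_quot {K V : Subgroup X} [V.Normal]
    (hcent : K ≤ centralizer (V : Set X))
    (hnil : Group.IsNilpotent ↥(K.map (QuotientGroup.mk' V))) : Group.IsNilpotent ↥K := by
  haveI := hnil
  apply Subgroup.isNilpotent_of_ker_le_center ((QuotientGroup.mk' V).subgroupMap K)
  intro k hk
  rw [MonoidHom.mem_ker] at hk
  have h1 : (k : X) ∈ V := by
    have h2 := congrArg Subtype.val hk
    exact (QuotientGroup.eq_one_iff _).mp h2
  rw [Subgroup.mem_center_iff]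
  intro g
  apply Subtype.ext
  show (g : X) * k = k * g
  exact (mem_centralizer_iff.mp (hcent g.2) k h1).symm

/-- a minimal normal subgroup of `X` inside the solvable normal subgroup `G` -/
theorem exists_minV {G : Subgroup X} (hGn : G.Normal) (hG1 : G ≠ ⊥)
    (hsolv : Group.IsSolvable ↥G) (hcop : (Nat.card G).Coprime 6) :
    ∃ V : Subgroup X, V.Normal ∧ V ≤ G ∧ V ≠ ⊥ ∧
      (∀ W : Subgroup X, W.Normal → W ≤ V → W ≠ ⊥ → W = V) ∧
      (∀ a ∈ V, ∀ b ∈ V, a * b = b * a) ∧
      ∃ v : ℕ, v.Prime ∧ v ≠ 2 ∧ v ≠ 3 ∧ ∀ a ∈ V, a ^ v = 1 := by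
  classical
  obtain ⟨V, ⟨hVn, hVG, hV1⟩, hVmin'⟩ := Set.exists_min_image
    {W : Subgroup X | W.Normal ∧ W ≤ G ∧ W ≠ ⊥} (fun W => Nat.card W) (Set.toFinite _)
    ⟨G, hGn, le_rfl, hG1⟩
  have hVmin : ∀ W : Subgroup X, W.Normal → W ≤ V → W ≠ ⊥ → W = V := by
    intro W hWn hWV hW1
    exact Subgroup.eq_of_le_of_card_ge hWV (hVmin' W ⟨hWn, hWV.trans hVG, hW1⟩)
  haveI := hVn
  have hVab : ∀ a ∈ V, ∀ b ∈ V, a * b = b * a := by
    have h1 : (⁅V, V⁆ : Subgroup X) = ⊥ := by
      by_contra hne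
      have h2 := hVmin ⁅V, V⁆ inferInstance (Subgroup.commutator_le_self V) hne
      haveI : Group.IsSolvable ↥V := Helper35.isSolvable_of_le hVG hsolv
      haveI : Nontrivial ↥V := (Subgroup.nontrivial_iff_ne_bot V).mpr hV1
      have h3 := Group.IsSolvable.commutator_lt_top_of_nontrivial ↥V
      apply h3.ne
      apply Subgroup.map_injective V.subtype_injective
      rw [Subgroup.map_subtype_commutator, h2, ← MonoidHom.range_eq_map, Subgroup.range_subtype]
    have h4 := Subgroup.commutator_eq_bot_iff_le_centralizer.mp h1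
    intro a ha b hb
    exact (mem_centralizer_iff.mp (h4 ha) b hb).symm
  refine ⟨V, hVn, hVG, hV1, hVmin, hVab, ?_⟩
  have hc1 : Nat.card V ≠ 1 := by
    intro h
    exact hV1 (Subgroup.card_eq_one.mp h)
  obtain ⟨v, hv, hvd⟩ : ∃ v : ℕ, v.Prime ∧ v ∣ Nat.card V :=
    ⟨_, Nat.minFac_prime hc1, Nat.minFac_dvd _⟩
  haveI : Fact v.Prime := ⟨hv⟩
  have hv6 : Nat.Coprime v 6 :=
    Nat.Coprime.coprime_dvd_left (hvd.trans (Subgroup.card_dvd_of_le hVG)) hcop
  refine ⟨v, hv, ?_, ?_, ?_⟩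
  · rintro rfl; revert hv6; decide
  · rintro rfl; revert hv6; decide
  · obtain ⟨x, hx⟩ := exists_prime_orderOf_dvd_card' v hvd
    have hWn : (powKer V v hVab).Normal := by
      refine ⟨fun n hn g => ?_⟩
      rw [mem_powKer] at hn ⊢
      refine ⟨hVn.conj_mem n hn.1 g, ?_⟩
      rw [conj_pow, hn.2, mul_one, mul_inv_cancel]
    have hW1 : powKer V v hVab ≠ ⊥ := by
      intro hbot
      have hxW : (x : X) ∈ powKer V v hVab := by
        rw [mem_powKer]
        refine ⟨x.2, ?_⟩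
        have h5 := pow_orderOf_eq_one x
        rw [hx] at h5
        simpa using congrArg Subtype.val h5
      rw [hbot, Subgroup.mem_bot] at hxW
      have h6 : x = 1 := Subtype.ext hxW
      rw [h6, orderOf_one] at hx
      exact hv.one_lt.ne hx
    have h7 := hVmin (powKer V v hVab) hWn (fun g hg => (mem_powKer.mp hg).1) hW1
    intro a ha
    rw [← h7] at ha
    exact (mem_powKer.mp ha).2

end img

section holo

variable {X : Type u} [Group X] [Finite X] (V : Subgroup X) [hVn : V.Normal]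

/-- the holomorph of `V` -/
abbrev Hol : Type u := ↥V ⋊[MonoidHom.id (MulAut ↥V)] MulAut ↥V

theorem finite_mulAut : Finite (MulAut ↥V) :=
  Finite.of_injective (fun f : MulAut ↥V => (f : ↥V → ↥V)) DFunLike.coe_injective

theorem finite_hol : Finite (Hol V) := by
  haveI := finite_mulAut V
  exact Finite.of_equiv _ SemidirectProduct.equivProd.symm

/-- the map of `X` into the holomorph of `V` -/
def iota : X →* Hol V := (SemidirectProduct.inr).comp (MulAut.conjNormal (H := V))

/-- the copy of `V` in its holomorph -/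
def Vs : Subgroup (Hol V) := (SemidirectProduct.inl : ↥V →* Hol V).range

theorem iota_conj (x : X) (w : ↥V) :
    iota V x * SemidirectProduct.inl w * (iota V x)⁻¹
      = SemidirectProduct.inl (MulAut.conjNormal x w) := by
  unfold iota
  rw [MonoidHom.comp_apply, ← map_inv, ← SemidirectProduct.inl_aut]
  rfl

theorem iota_comm_iff (x : X) (w : ↥V) :
    iota V x * SemidirectProduct.inl w = SemidirectProduct.inl w * iota V x
      ↔ x * (w : X) = w * x := by
  rw [← mul_inv_eq_iff_eq_mul, iota_conj, SemidirectProduct.inl_inj]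
  constructor
  · intro h
    have h1 := congrArg Subtype.val h
    rw [MulAut.conjNormal_apply] at h1
    exact mul_inv_eq_iff_eq_mul.mp h1
  · intro h
    apply Subtype.ext
    rw [MulAut.conjNormal_apply]
    exact mul_inv_eq_iff_eq_mul.mpr h

theorem iota_eq_one_iff (x : X) : iota V x = 1 ↔ ∀ w ∈ V, x * w = w * x := by
  constructor
  · intro h w hw
    exact (iota_comm_iff V x ⟨w, hw⟩).mp (by rw [h, one_mul, mul_one])
  · intro h
    unfold iota
    rw [MonoidHom.comp_apply]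
    have h1 : MulAut.conjNormal (H := V) x = 1 := by
      ext w
      rw [MulAut.conjNormal_apply, MulAut.one_apply]
      exact mul_inv_eq_iff_eq_mul.mpr (h w w.2)
    rw [h1, map_one]

theorem nz_Vs (t : Hol V) : t ∈ normalizer ((Vs V : Subgroup (Hol V)) : Set (Hol V)) := by
  haveI h : (Vs V).Normal := by
    unfold Vs
    rw [SemidirectProduct.range_inl_eq_ker_rightHom]
    exact MonoidHom.normal_ker _
  rw [Subgroup.normalizer_eq_top]; exact mem_top t

theorem vhyp_Vs (ρ : Equiv.Perm (Fin 3) →* X) {v : ℕ} (hv : v.Prime) (hv2 : v ≠ 2)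
    (hv3 : v ≠ 3) (hVab : ∀ a ∈ V, ∀ b ∈ V, a * b = b * a) (hVexp : ∀ a ∈ V, a ^ v = 1)
    (hVfpf : ∀ w ∈ V, (∀ σ, ρ σ * w = w * ρ σ) → w = 1) :
    VHyp ((iota V).comp ρ) (Vs V) v where
  vprime := hv
  v2 := hv2
  v3 := hv3
  comm := by
    rintro _ ⟨a, rfl⟩ _ ⟨b, rfl⟩
    rw [← map_mul, ← map_mul]
    congr 1
    exact Subtype.ext (hVab a a.2 b b.2)
  exp := by
    rintro _ ⟨a, rfl⟩
    rw [← map_pow]
    have h1 : a ^ v = 1 := Subtype.ext (by rw [Subgroup.coe_pow]; exact hVexp a a.2)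
    rw [h1, map_one]
  inv := fun σ => nz_Vs V _
  fpf := by
    rintro _ ⟨w, rfl⟩ hfix
    have h1 : (w : X) = 1 := hVfpf w w.2 (fun σ => (iota_comm_iff V (ρ σ) w).mp (hfix σ))
    have h2 : w = 1 := Subtype.ext h1
    rw [h2, map_one]

theorem hhyp_map (ρ : Equiv.Perm (Fin 3) →* X) {G : Subgroup X} [hGn : G.Normal]
    (hVG : V ≤ G) (hcop : (Nat.card G).Coprime 6)
    (hfpf : ∀ g ∈ G, (∀ σ, ρ σ * g = g * ρ σ) → g = 1) :
    HHyp ((iota V).comp ρ) (Vs V) (G.map (iota V)) where
  inv := by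
    haveI := finite_hol V
    intro σ
    apply nz_of_conj
    rintro _ ⟨g, hg, rfl⟩
    refine ⟨ρ σ * g * (ρ σ)⁻¹, hGn.conj_mem g hg _, ?_⟩
    simp [map_mul, map_inv]
  normV := fun t _ => nz_Vs V t
  cop := Nat.Coprime.coprime_dvd_left (Subgroup.card_map_dvd G (iota V)) hcop
  faith := by
    rintro _ ⟨g, hg, rfl⟩ hcomm
    rw [iota_eq_one_iff]
    intro w hw
    exact (iota_comm_iff V g ⟨w, hw⟩).mp (hcomm _ ⟨⟨w, hw⟩, rfl⟩)
  fpf := fun a ha hfix => fpf_map ρ hcop hfpf (iota V) a ha hfix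
  h2 := by
    rintro _ ⟨g, hg, rfl⟩ _ ⟨w, rfl⟩ hxg hxw
    have hxg' : iota V (ρ c3) * iota V g = iota V g * iota V (ρ c3) := hxg
    have hxw' : iota V (ρ c3) * SemidirectProduct.inl w
        = SemidirectProduct.inl w * iota V (ρ c3) := hxw
    have hcop3 : (Nat.card (G ⊓ (iota V).ker : Subgroup X)).Coprime 3 :=
      Nat.Coprime.coprime_dvd_right (by norm_num)
        (Nat.Coprime.coprime_dvd_left (Subgroup.card_dvd_of_le inf_le_left) hcop)
    obtain ⟨c, hc, hcN⟩ := lift_fix (rx3 ρ) hcop3 (nz_inf_ker (iota V) _) g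
      (comm_mem_inf_ker (iota V) hg hxg')
    have hcG : c ∈ G := by
      have e1 : c = g * (g⁻¹ * c) := by group
      rw [e1]; exact G.mul_mem hg (mem_inf.mp hcN).1
    have hyG : ρ t2 ∈ normalizer (G : Set X) := by
      rw [Subgroup.normalizer_eq_top]; exact mem_top _
    have hcw := cent_x_comm ρ hyG hfpf c hcG w (hVG w.2) hc ((iota_comm_iff V _ w).mp hxw')
    have hgc : iota V g = iota V c := by
      have h3 := (mem_inf.mp hcN).2
      rw [MonoidHom.mem_ker, map_mul, map_inv] at h3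
      exact inv_mul_eq_one.mp h3
    rw [hgc]
    exact (iota_comm_iff V c w).mpr hcw

end holo

section main

variable {X : Type u} [Group X] [Finite X] (V : Subgroup X) [hVn : V.Normal]

/-- if the derived subgroup of the image of `G` in the holomorph of the minimal normal subgroup
`V` is nilpotent, it has no nontrivial `v`-elements -/
theorem no_v_elements {G : Subgroup X} [hGn : G.Normal] {v : ℕ} (hv : v.Prime)
    (hV1 : V ≠ ⊥) (hVmin : ∀ W : Subgroup X, W.Normal → W ≤ V → W ≠ ⊥ → W = V)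
    (hVexp : ∀ a ∈ V, a ^ v = 1)
    (hnil : Group.IsNilpotent ↥(⁅G.map (iota V), G.map (iota V)⁆ : Subgroup (Hol V))) :
    ∀ a ∈ (⁅G.map (iota V), G.map (iota V)⁆ : Subgroup (Hol V)), ∀ k : ℕ,
      a ^ (v ^ k) = 1 → a = 1 := by
  classical
  haveI := finite_mulAut V
  haveI := finite_hol V
  haveI : Fact v.Prime := ⟨hv⟩
  haveI := hnil
  obtain ⟨K, hK⟩ : ∃ K : Subgroup (Hol V), K = ⁅G.map (iota V), G.map (iota V)⁆ := ⟨_, rfl⟩
  rw [← hK] at hnil ⊢
  haveI := hnil
  obtain ⟨P⟩ := (inferInstance : Nonempty (Sylow v ↥K))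
  have hPn : (P : Subgroup ↥K).Normal := inferInstance
  -- every `v`-element of `K` lies in `P`
  have c1 : ∀ a ∈ K, ∀ k : ℕ, a ^ (v ^ k) = 1 → a ∈ (P : Subgroup ↥K).map K.subtype := by
    intro a ha k hak
    have hQ : IsPGroup v ↥(zpowers (⟨a, ha⟩ : ↥K)) := by
      rintro ⟨b, hb⟩
      obtain ⟨i, rfl⟩ := mem_zpowers_iff.mp hb
      refine ⟨k, Subtype.ext ?_⟩
      apply Subtype.ext
      show ((a ^ i) ^ (v ^ k) : Hol V) = 1
      rw [← zpow_natCast, ← zpow_mul, mul_comm, zpow_mul, zpow_natCast, hak, one_zpow]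
    obtain ⟨Q, hQ'⟩ := hQ.exists_le_sylow
    haveI := Sylow.unique_of_normal P hPn
    have hQP : Q = P := Subsingleton.elim Q P
    rw [hQP] at hQ'
    exact ⟨⟨a, ha⟩, hQ' (mem_zpowers _), rfl⟩
  have hP₀K : (P : Subgroup ↥K).map K.subtype ≤ K := Subgroup.map_subtype_le _
  have hP₀p : IsPGroup v ↥((P : Subgroup ↥K).map K.subtype) := P.2.map K.subtype
  have hP₀el : ∀ b ∈ (P : Subgroup ↥K).map K.subtype, ∃ k : ℕ, b ^ (v ^ k) = 1 := by
    intro b hb
    obtain ⟨k, hk⟩ := hP₀p ⟨b, hb⟩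
    exact ⟨k, by simpa using congrArg Subtype.val hk⟩
  -- the image of `X` normalizes `P`
  have hGι : ∀ x : X, iota V x ∈ normalizer ((G.map (iota V) : Subgroup (Hol V)) : Set (Hol V)) := by
    intro x
    apply nz_of_conj
    rintro _ ⟨g, hg, rfl⟩
    refine ⟨x * g * x⁻¹, hGn.conj_mem g hg _, ?_⟩
    simp [map_mul, map_inv]
  have hKι : ∀ x : X, iota V x ∈ normalizer ((K : Subgroup (Hol V)) : Set (Hol V)) := by
    intro x
    rw [hK]
    exact nz_comm (hGι x) (hGι x)
  have hPι : ∀ x : X, iota V x ∈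
      normalizer (((P : Subgroup ↥K).map K.subtype : Subgroup (Hol V)) : Set (Hol V)) := by
    intro x
    apply nz_of_conj
    intro b hb
    obtain ⟨k, hk⟩ := hP₀el b hb
    refine c1 _ (nz_conj (hKι x) (hP₀K hb)) k ?_
    rw [conj_pow, hk, mul_one, mul_inv_cancel]
  -- `V` is a nontrivial `v`-group
  have hVsp : IsPGroup v ↥(Vs V) := by
    rintro ⟨_, ⟨w, rfl⟩⟩
    refine ⟨1, Subtype.ext ?_⟩
    show ((SemidirectProduct.inl w : Hol V) ^ (v ^ 1)) = 1
    rw [pow_one, ← map_pow]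
    have h1 : w ^ v = 1 := Subtype.ext (by rw [Subgroup.coe_pow]; exact hVexp w w.2)
    rw [h1, map_one]
  have hVs1 : Vs V ≠ ⊥ := by
    intro hbot
    apply hV1
    rw [Subgroup.eq_bot_iff_forall]
    intro w hw
    have h1 : (SemidirectProduct.inl (⟨w, hw⟩ : ↥V) : Hol V) ∈ Vs V := ⟨_, rfl⟩
    rw [hbot, Subgroup.mem_bot] at h1
    have h2 : (⟨w, hw⟩ : ↥V) = 1 := SemidirectProduct.inl_injective (by rw [h1, map_one])
    exact congrArg Subtype.val h2
  obtain ⟨z, ⟨w₀, rfl⟩, hz1, hzP⟩ := pgroup_fixed hP₀p hVsp (fun t _ => nz_Vs V t) hVs1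
  -- the centralizer of `P` in `V`
  obtain ⟨D, hD⟩ : ∃ D : Subgroup X, D = ((centralizer
      (((P : Subgroup ↥K).map K.subtype : Subgroup (Hol V)) : Set (Hol V))).comap
        (SemidirectProduct.inl : ↥V →* Hol V)).map V.subtype := ⟨_, rfl⟩
  have hDmem : ∀ w : ↥V, (w : X) ∈ D ↔ ∀ b ∈ (P : Subgroup ↥K).map K.subtype,
      b * (SemidirectProduct.inl w : Hol V) = SemidirectProduct.inl w * b := by
    intro w
    rw [hD]
    constructor
    · rintro ⟨w', hw', hww'⟩
      have h1 : w' = w := Subtype.ext hww'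
      subst h1
      exact mem_centralizer_iff.mp (mem_comap.mp hw')
    · intro h
      exact ⟨w, mem_comap.mpr (mem_centralizer_iff.mpr h), rfl⟩
  have hDV : D ≤ V := by rw [hD]; exact Subgroup.map_subtype_le _
  have hD1 : D ≠ ⊥ := by
    intro hbot
    have h1 : (w₀ : X) ∈ D := (hDmem w₀).mpr hzP
    rw [hbot, Subgroup.mem_bot] at h1
    have h2 : w₀ = 1 := Subtype.ext h1
    exact hz1 (by rw [h2, map_one])
  have hDn : D.Normal := by
    refine ⟨fun n hn x => ?_⟩
    have hnV : n ∈ V := hDV hn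
    have h1 := (hDmem ⟨n, hnV⟩).mp hn
    have h2 : x * n * x⁻¹ = ((MulAut.conjNormal x (⟨n, hnV⟩ : ↥V) : ↥V) : X) := by
      rw [MulAut.conjNormal_apply]
    rw [h2, hDmem, ← iota_conj]
    have h3 : (SemidirectProduct.inl (⟨n, hnV⟩ : ↥V) : Hol V) ∈ centralizer
        (((P : Subgroup ↥K).map K.subtype : Subgroup (Hol V)) : Set (Hol V)) :=
      mem_centralizer_iff.mpr h1
    exact mem_centralizer_iff.mp (nz_conj (nz_centralizer (hPι x)) h3)
  have hDeq := hVmin D hDn hDV hD1
  -- conclusion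
  intro a ha k hak
  have haP := c1 a ha k hak
  have haG : a ∈ G.map (iota V) := by
    rw [hK] at ha
    exact Subgroup.commutator_le_self _ ha
  obtain ⟨g, hg, rfl⟩ := haG
  rw [iota_eq_one_iff]
  intro w hw
  have h1 : (w : X) ∈ D := by rw [hDeq]; exact hw
  exact (iota_comm_iff V g ⟨w, hw⟩).mp ((hDmem ⟨w, hw⟩).mp h1 _ haP)

end main

section top

variable {X : Type u} [Group X] [Finite X]

theorem main_step {n : ℕ} (IH : MainUpTo.{u} n) (hX : Nat.card X ≤ n + 1)
    (ρ : Equiv.Perm (Fin 3) →* X) {G : Subgroup X} (hGn : G.Normal)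
    (hcop : (Nat.card G).Coprime 6) (hsolv : Group.IsSolvable ↥G)
    (hfpf : ∀ g ∈ G, (∀ σ, ρ σ * g = g * ρ σ) → g = 1) :
    Group.IsNilpotent ↥(⁅G, G⁆ : Subgroup X) := by
  by_cases hG1 : G = ⊥
  · subst hG1
    have h0 : (⁅(⊥ : Subgroup X), ⊥⁆ : Subgroup X) = ⊥ := Subgroup.commutator_bot_left _
    rw [h0]
    infer_instance
  obtain ⟨V, hVn, hVG, hV1, hVmin, hVab, v, hv, hv2, hv3, hVexp⟩ :=
    exists_minV hGn hG1 hsolv hcop
  haveI := hVn
  haveI := hGn
  haveI := finite_mulAut V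
  haveI := finite_hol V
  have hV2 : 2 ≤ Nat.card V := (Subgroup.one_lt_card_iff_ne_bot V).mpr hV1
  -- the quotient by `V`
  have hcardQ : Nat.card ↥(QuotientGroup.mk' V).range ≤ n := by
    have h1 : (QuotientGroup.mk' V).range = ⊤ :=
      MonoidHom.range_eq_top.mpr (QuotientGroup.mk'_surjective V)
    rw [h1, Subgroup.card_top]
    have h2 := Subgroup.card_eq_card_quotient_mul_card_subgroup V
    have h3 : 0 < Nat.card (X ⧸ V) := Nat.card_pos
    nlinarith
  have hnilQ := img_step IH ρ hcop hsolv hfpf (QuotientGroup.mk' V) hcardQ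
  -- the image in the holomorph of `V`
  have hVker : V ≤ (iota V).ker := by
    intro x hx
    rw [MonoidHom.mem_ker, iota_eq_one_iff]
    intro w hw
    exact hVab x hx w hw
  have hcardR : Nat.card ↥(iota V).range ≤ n := by
    have h1 := Subgroup.card_mul_index (iota V).ker
    rw [Subgroup.index_ker] at h1
    have h2 : 2 ≤ Nat.card ↥(iota V).ker := hV2.trans (Subgroup.card_le_of_le hVker)
    have h3 : 0 < Nat.card ↥(iota V).range := Nat.card_pos
    nlinarith
  have hnilR := img_step IH ρ hcop hsolv hfpf (iota V) hcardR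
  rw [Subgroup.map_commutator] at hnilR
  have hv' := no_v_elements V hv hV1 hVmin hVexp hnilR
  have hVfpf : ∀ w ∈ V, (∀ σ, ρ σ * w = w * ρ σ) → w = 1 := fun w hw => hfpf w (hVG hw)
  have hsolv' : Group.IsSolvable ↥(G.map (iota V)) :=
    Group.isSolvable_of_surjective (f := (iota V).subgroupMap G)
      ((iota V).subgroupMap_surjective G)
  have hab := config (vhyp_Vs V ρ hv hv2 hv3 hVab hVexp hVfpf) (hhyp_map V ρ hVG hcop hfpf)
    hsolv' hv'
  have hcent : (⁅G, G⁆ : Subgroup X) ≤ centralizer (V : Set X) := by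
    rw [Subgroup.commutator_le]
    intro g₁ hg₁ g₂ hg₂
    have h1 : iota V ⁅g₁, g₂⁆ = 1 := by
      rw [map_commutatorElement, commutatorElement_eq_one_iff_mul_comm]
      exact hab _ (mem_map_of_mem _ hg₁) _ (mem_map_of_mem _ hg₂)
    rw [mem_centralizer_iff]
    intro w hw
    exact ((iota_eq_one_iff V _).mp h1 w hw).symm
  exact nil_of_central_quot hcent hnilQ

theorem main_upTo : ∀ n : ℕ, MainUpTo.{u} n := by
  intro n
  induction n with
  | zero =>
    intro X _ _ hX
    have h1 : 0 < Nat.card X := Nat.card_pos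
    omega
  | succ n IH =>
    intro X _ _ hX ρ G hGn hcop hsolv hfpf
    exact main_step IH hX ρ hGn hcop hsolv hfpf

/-- **Main theorem** (internal form): if `G` is a solvable normal subgroup of order prime to 6
of the finite group `X`, and the image of `ρ : Perm (Fin 3) →* X` has no nontrivial fixed points
on `G`, then the derived subgroup of `G` is nilpotent. -/
theorem main_internal (ρ : Equiv.Perm (Fin 3) →* X) {G : Subgroup X} (hGn : G.Normal)
    (hcop : (Nat.card G).Coprime 6) (hsolv : Group.IsSolvable ↥G)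
    (hfpf : ∀ g ∈ G, (∀ σ, ρ σ * g = g * ρ σ) → g = 1) :
    Group.IsNilpotent ↥(⁅G, G⁆ : Subgroup X) :=
  main_upTo (Nat.card X) X le_rfl ρ G hGn hcop hsolv hfpf

end top

end Cfsg.Agent.Helper34.S3
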