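import Mathlib
import Cfsg.Agent.Helper87.SFDefs

set_option autoImplicit false
set_option linter.unusedVariables false

namespace Cfsg.Agent.Helper34

open Cfsg.Agent.Helper87 Cfsg.Agent.Helper87.SF

/-- HQC -/
theorem sf_hq_core {G : Type*} [Group G] [Finite G] (h : Cfsg.pCore 2 G = ⊥) (N : Subgroup G)
    [N.Normal] (hN : N ≤ Subgroup.center G) (hodd : Odd (Nat.card N)) :
    Cfsg.pCore 2 (G ⧸ N) = ⊥ := by
  classical
  have hp2 : Fact (Nat.Prime 2) := ⟨Nat.prime_two⟩
  rw [Cfsg.pCore, sSup_eq_bot]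
  rintro K ⟨hKn, hK2⟩
  set f : G →* G ⧸ N := QuotientGroup.mk' N with hf
  set P : Subgroup G := K.comap f with hP
  have hPn : P.Normal := hKn.comap f
  let φ : ↥P →* ↥K := f.subgroupComap K
  have hφs : Function.Surjective φ :=
    f.subgroupComap_surjective_of_surjective K (QuotientGroup.mk'_surjective N)
  have hker : φ.ker ≤ Subgroup.center ↥P := by
    intro x hx
    rw [MonoidHom.mem_ker] at hx
    have hxN : (x : G) ∈ N := by
      have h1 := congrArg Subtype.val hx
      have h2 : f (x : G) = 1 := h1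
      rwa [hf, QuotientGroup.mk'_apply, QuotientGroup.eq_one_iff] at h2
    rw [Subgroup.mem_center_iff]
    intro y
    apply Subtype.ext
    have h3 := Subgroup.mem_center_iff.mp (hN hxN) (y : G)
    simpa using h3
  have hKnil : Group.IsNilpotent ↥K := hK2.isNilpotent
  have hPnil : Group.IsNilpotent ↥P := Subgroup.isNilpotent_of_ker_le_center φ hker
  obtain S : Sylow 2 ↥P := default
  have hSn : (S : Subgroup ↥P).Normal := inferInstance
  have hSc : (S : Subgroup ↥P).Characteristic := Sylow.characteristic_of_normal S hSn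
  have hS'n : ((S : Subgroup ↥P).map P.subtype).Normal :=
    ConjAct.normal_of_characteristic_of_normal
  have hS'2 : IsPGroup 2 ((S : Subgroup ↥P).map P.subtype) := S.isPGroup'.map P.subtype
  have hS'le : (S : Subgroup ↥P).map P.subtype ≤ Cfsg.pCore 2 G := le_sSup ⟨hS'n, hS'2⟩
  rw [h, le_bot_iff] at hS'le
  have hSbot : (S : Subgroup ↥P) = ⊥ :=
    (Subgroup.map_eq_bot_iff_of_injective _ P.subtype_injective).mp hS'le
  have h2P : ¬ 2 ∣ Nat.card ↥P := fun hdvd => Sylow.ne_bot_of_dvd_card S hdvd hSbot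
  have hKdvd : Nat.card ↥K ∣ Nat.card ↥P := Subgroup.card_dvd_of_surjective φ hφs
  rcases hK2.card_eq_or_dvd with h1 | h2'
  · exact Subgroup.card_eq_one.mp h1
  · exact absurd (dvd_trans h2' hKdvd) h2P

end Cfsg.Agent.Helper34
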