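import Mathlib
import Cfsg.Agent.Helper87.SFDefs

set_option autoImplicit false

namespace Cfsg.Agent.Helper34

open Cfsg.Agent.Helper87 Cfsg.Agent.Helper87.SF

universe u

/-- HQK -/
theorem sf_hq_comp {G : Type u} [Group G] (K : ∀ (X : Type u) [Group X], Prop)
    (hK : ∀ (X Y : Type u) [Group X] [Group Y], (X ≃* Y) → K X → K Y)
    (h : Cfsg.IsCompositionKGroupWith K G) (N : Subgroup G) [N.Normal] :
    Cfsg.IsCompositionKGroupWith K (G ⧸ N) := by
  intro H' hH' N' hN' hsimp hnc
  set f : G →* G ⧸ N := QuotientGroup.mk' N with hf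
  set H : Subgroup G := H'.comap f with hH
  have hHsub : H.IsSubnormal := hH'.comap f
  let φ : ↥H →* ↥H' := f.subgroupComap H'
  have hφs : Function.Surjective φ :=
    f.subgroupComap_surjective_of_surjective H' (QuotientGroup.mk'_surjective N)
  let ψ : ↥H →* ↥H' ⧸ N' := (QuotientGroup.mk' N').comp φ
  have hψs : Function.Surjective ψ := (QuotientGroup.mk'_surjective N').comp hφs
  let e : ↥H ⧸ ψ.ker ≃* ↥H' ⧸ N' := QuotientGroup.quotientKerEquivOfSurjective ψ hψs
  have hsimp' : IsSimpleGroup (↥H ⧸ ψ.ker) := e.isSimpleGroup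
  have hnc' : ¬ IsMulCommutative (↥H ⧸ ψ.ker) := by
    intro hc
    apply hnc
    refine ⟨⟨fun x y => ?_⟩⟩
    have h1 := hc.is_comm.comm (e.symm x) (e.symm y)
    have h2 := congrArg e h1
    simpa using h2
  exact hK _ _ e (h H hHsub ψ.ker hsimp' hnc')

end Cfsg.Agent.Helper34
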