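import Mathlib

set_option autoImplicit false

namespace Cfsg.Agent.Helper34

/-- Brute force over the residues, `r = 3`. -/
theorem sfr_comb_key3 : ∀ a b c : Fin 3, (a.val + b.val + c.val) % 3 = 0 →
    ∃ t : Fin 3, ∀ j : Fin 3,
      ((if a.val = (t.val + j.val) % 3 then 1 else 0) + (if b.val = (t.val + j.val) % 3 then 1 else 0)
        + (if c.val = (t.val + j.val) % 3 then 1 else 0) : ℕ)
      = ((if (a.val + j.val) % 3 = t.val then 1 else 0) + (if (b.val + j.val) % 3 = t.val then 1 else 0)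
        + (if (c.val + j.val) % 3 = t.val then 1 else 0) : ℕ) := by
  decide

set_option maxRecDepth 100000 in
/-- Brute force over the residues, `r = 5`. -/
theorem sfr_comb_key5 : ∀ a b c d e : Fin 5, (a.val + b.val + c.val + d.val + e.val) % 5 = 0 →
    ∃ t : Fin 5, ∀ j : Fin 5,
      ((if a.val = (t.val + j.val) % 5 then 1 else 0) + (if b.val = (t.val + j.val) % 5 then 1 else 0)
        + (if c.val = (t.val + j.val) % 5 then 1 else 0) + (if d.val = (t.val + j.val) % 5 then 1 else 0)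
        + (if e.val = (t.val + j.val) % 5 then 1 else 0) : ℕ)
      = ((if (a.val + j.val) % 5 = t.val then 1 else 0) + (if (b.val + j.val) % 5 = t.val then 1 else 0)
        + (if (c.val + j.val) % 5 = t.val then 1 else 0) + (if (d.val + j.val) % 5 = t.val then 1 else 0)
        + (if (e.val + j.val) % 5 = t.val then 1 else 0) : ℕ) := by
  decide

/-- PIECE COMB (pure combinatorics). -/
theorem comb_sym (r : ℕ) (hr : r = 3 ∨ r = 5) (e : Fin r → ℕ) (h : r ∣ ∑ i, e i) :
    ∃ t : ℕ, ∀ j : ℕ, (Finset.univ.filter fun i => e i % r = (t + j) % r).card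
      = (Finset.univ.filter fun i => (e i + j) % r = t % r).card := by
  rcases hr with rfl | rfl
  · rw [Fin.sum_univ_three] at h
    obtain ⟨t, ht⟩ := sfr_comb_key3 ⟨e 0 % 3, Nat.mod_lt _ (by norm_num)⟩
      ⟨e 1 % 3, Nat.mod_lt _ (by norm_num)⟩ ⟨e 2 % 3, Nat.mod_lt _ (by norm_num)⟩
      (by simp only; omega)
    refine ⟨t.val, fun j => ?_⟩
    have h3 := ht ⟨j % 3, Nat.mod_lt _ (by norm_num)⟩
    simp only at h3
    have h1 : ∀ a : ℕ, (a % 3 = (t.val + j) % 3) ↔ (a % 3 = (t.val + j % 3) % 3) := by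
      intro a; omega
    have h2 : ∀ a : ℕ, ((a + j) % 3 = t.val % 3) ↔ ((a % 3 + j % 3) % 3 = t.val) := by
      intro a; have := t.isLt; omega
    rw [Finset.card_filter, Finset.card_filter, Fin.sum_univ_three, Fin.sum_univ_three]
    simp only [h1, h2]
    exact h3
  · rw [Fin.sum_univ_five] at h
    obtain ⟨t, ht⟩ := sfr_comb_key5 ⟨e 0 % 5, Nat.mod_lt _ (by norm_num)⟩
      ⟨e 1 % 5, Nat.mod_lt _ (by norm_num)⟩ ⟨e 2 % 5, Nat.mod_lt _ (by norm_num)⟩
      ⟨e 3 % 5, Nat.mod_lt _ (by norm_num)⟩ ⟨e 4 % 5, Nat.mod_lt _ (by norm_num)⟩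
      (by simp only; omega)
    refine ⟨t.val, fun j => ?_⟩
    have h3 := ht ⟨j % 5, Nat.mod_lt _ (by norm_num)⟩
    simp only at h3
    have h1 : ∀ a : ℕ, (a % 5 = (t.val + j) % 5) ↔ (a % 5 = (t.val + j % 5) % 5) := by
      intro a; omega
    have h2 : ∀ a : ℕ, ((a + j) % 5 = t.val % 5) ↔ ((a % 5 + j % 5) % 5 = t.val) := by
      intro a; have := t.isLt; omega
    rw [Finset.card_filter, Finset.card_filter, Fin.sum_univ_five, Fin.sum_univ_five]
    simp only [h1, h2]
    exact h3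

end Cfsg.Agent.Helper34
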