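import Mathlib

set_option autoImplicit false

namespace Cfsg.Agent.Helper34

open Polynomial

section fin
variable {F : Type*} [Field F] [Fintype F]

/-- PIECE FROB. -/
theorem frob_hom (F₀ : Subfield F) (q₀ : ℕ) (hF₀ : Nat.card ↥F₀ = q₀) :
    ∃ σ : F →+* F, (∀ t, σ t = t ^ q₀) ∧ (∀ t, σ t = t ↔ t ∈ F₀) := by
  classical
  obtain ⟨p, hp⟩ := CharP.exists F
  have := hp
  have : Fact p.Prime := ⟨CharP.char_is_prime F p⟩
  have : CharP ↥F₀ p := by
    exact (RingHom.charP_iff F₀.subtype Subtype.val_injective p).mpr hp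
  haveI : Fintype ↥F₀ := Fintype.ofFinite _
  obtain ⟨m, -, hm⟩ := FiniteField.card ↥F₀ p
  have hq : q₀ = p ^ (m : ℕ) := by rw [← hF₀, Nat.card_eq_fintype_card, hm]
  have hq1 : 1 < q₀ := by
    rw [← hF₀, Nat.card_eq_fintype_card]; exact Fintype.one_lt_card
  have hmem : ∀ t : F, t ∈ F₀ → t ^ q₀ = t := by
    intro t ht
    have h1 := FiniteField.pow_card (⟨t, ht⟩ : ↥F₀)
    rw [← Nat.card_eq_fintype_card, hF₀] at h1
    have h2 := congrArg (Subtype.val : ↥F₀ → F) h1
    simpa using h2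
  refine ⟨iterateFrobenius F p (m : ℕ), fun t => by rw [iterateFrobenius_def, hq], fun t => ?_⟩
  rw [iterateFrobenius_def, ← hq]
  refine ⟨fun ht => ?_, hmem t⟩
  have hdeg : (X ^ q₀ - X : F[X]).natDegree = q₀ := FiniteField.X_pow_card_sub_X_natDegree_eq F hq1
  have hne : (X ^ q₀ - X : F[X]) ≠ 0 := by
    intro h0; rw [h0, natDegree_zero] at hdeg; omega
  have hsub : (Finset.univ.image (Subtype.val : ↥F₀ → F)) ⊆ (X ^ q₀ - X : F[X]).roots.toFinset := by
    intro x hx
    obtain ⟨y, -, rfl⟩ := Finset.mem_image.mp hx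
    rw [Multiset.mem_toFinset, mem_roots hne]
    simp [IsRoot.def, hmem y.1 y.2]
  have hcard : (X ^ q₀ - X : F[X]).roots.toFinset.card
      ≤ (Finset.univ.image (Subtype.val : ↥F₀ → F)).card := by
    rw [Finset.card_image_of_injective _ Subtype.val_injective, Finset.card_univ,
      ← Nat.card_eq_fintype_card, hF₀]
    calc (X ^ q₀ - X : F[X]).roots.toFinset.card ≤ Multiset.card (X ^ q₀ - X : F[X]).roots :=
          Multiset.toFinset_card_le _
      _ ≤ (X ^ q₀ - X : F[X]).natDegree := card_roots' _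
      _ = q₀ := hdeg
  have heq := Finset.eq_of_subset_of_card_le hsub hcard
  have ht' : t ∈ (X ^ q₀ - X : F[X]).roots.toFinset := by
    rw [Multiset.mem_toFinset, mem_roots hne]
    simp [IsRoot.def, ht]
  rw [← heq] at ht'
  obtain ⟨y, -, rfl⟩ := Finset.mem_image.mp ht'
  exact y.2

end fin

end Cfsg.Agent.Helper34
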