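import Mathlib
import Cfsg.Prelude.Def_GeometricClasses
import Cfsg.Agent.Helper71.T4Defs
import Cfsg.Agent.Helper96.T5Defs

set_option autoImplicit false
set_option linter.unusedVariables false

namespace Cfsg.Agent.Helper34.T5T2D

open Matrix Cfsg Cfsg.Geo Cfsg.Agent.Helper71.T4 Cfsg.Agent.Helper96.T5
open scoped Kronecker

variable {F : Type*} [Field F] {a b : ℕ}

variable {J₁ : Matrix (Fin a) (Fin a) F} {J₂ : Matrix (Fin b) (Fin b) F}
  {Q : (Fin a × Fin b → F) → F}

/-- PIECE T2D -/
theorem t2d (hT : TQ J₁ J₂ Q) (u : Fin a → F) (x : Fin b → F) (hu : u ≠ 0) (hx : x ≠ 0)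
    (P : (Fin a × Fin b → F) → Prop) (h0 : P 0) (hadd : ∀ r r', P r → P r' → P (r + r'))
    (hpt : ∀ (s : Fin a → F) (w : Fin b → F), bf J₁ u s = 0 ∨ bf J₂ x w = 0 → P (pt s w)) :
    ∀ r, bf (J₁ ⊗ₖ J₂) (pt u x) r = 0 → P r := by
  classical
  obtain ⟨ut, hut⟩ := exists_bf_eq_one J₁ hT.det₁ u hu
  obtain ⟨xt, hxt⟩ := exists_bf_eq_one J₂ hT.det₂ x hx
  have key : ∀ r : Fin a × Fin b → F, P (r - bf (J₁ ⊗ₖ J₂) (pt u x) r • pt ut xt) := by
    intro r
    have hr : r = ∑ p : Fin a × Fin b, r p • pt (Pi.single p.1 (1 : F)) (Pi.single p.2 (1 : F)) := by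
      ext q
      simp only [Finset.sum_apply, Pi.smul_apply, pt, smul_eq_mul]
      rw [Finset.sum_eq_single q]
      · simp
      · intro p _ hp
        have hpq : p.1 ≠ q.1 ∨ p.2 ≠ q.2 := by
          by_contra h
          push Not at h
          exact hp (Prod.ext h.1 h.2)
        rcases hpq with h | h
        · simp [Pi.single_apply, h.symm]
        · simp [Pi.single_apply, h.symm]
      · simp
    have hterm : ∀ (c : F) (p : Fin a × Fin b),
        P (c • pt (Pi.single p.1 (1 : F)) (Pi.single p.2 (1 : F))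
          - bf (J₁ ⊗ₖ J₂) (pt u x) (c • pt (Pi.single p.1 (1 : F)) (Pi.single p.2 (1 : F)))
            • pt ut xt) := by
      intro c p
      rw [bf_smul_right, bf_kron_pt]
      set α := bf J₁ u (Pi.single p.1 (1 : F)) with hα
      set β := bf J₂ x (Pi.single p.2 (1 : F)) with hβ
      have heq : c • pt (Pi.single p.1 (1 : F)) (Pi.single p.2 (1 : F)) - (c * (α * β)) • pt ut xt
          = pt (c • (Pi.single p.1 (1 : F) - α • ut)) (Pi.single p.2 (1 : F))
            + pt ut ((c * α) • (Pi.single p.2 (1 : F) - β • xt)) := by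
        ext q
        simp only [pt, Pi.sub_apply, Pi.smul_apply, Pi.add_apply, smul_eq_mul]
        ring
      rw [heq]
      refine hadd _ _ (hpt _ _ (Or.inl ?_)) (hpt _ _ (Or.inr ?_))
      · rw [bf_smul_right, bf_sub_right, bf_smul_right, hut, ← hα]; ring
      · rw [bf_smul_right, bf_sub_right, bf_smul_right, hxt, ← hβ]; ring
    have hsum : ∀ S : Finset (Fin a × Fin b),
        P ((∑ p ∈ S, r p • pt (Pi.single p.1 (1 : F)) (Pi.single p.2 (1 : F)))
          - bf (J₁ ⊗ₖ J₂) (pt u x)
              (∑ p ∈ S, r p • pt (Pi.single p.1 (1 : F)) (Pi.single p.2 (1 : F))) • pt ut xt) := by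
      intro S
      induction S using Finset.induction_on with
      | empty =>
        rw [Finset.sum_empty, bf_zero_right, zero_smul, sub_zero]
        exact h0
      | insert p S hp ih =>
        rw [Finset.sum_insert hp, bf_add_right, add_smul, add_sub_add_comm]
        exact hadd _ _ (hterm (r p) p) ih
    have h1 := hsum Finset.univ
    rw [← hr] at h1
    exact h1
  intro r hr
  have h := key r
  rwa [hr, zero_smul, sub_zero] at h

end Cfsg.Agent.Helper34.T5T2D
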