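import Mathlib
import Cfsg.Prelude.Def_GeometricClasses
import Cfsg.Agent.Helper71.T4Defs
import Cfsg.Agent.Helper97.OForm
import Cfsg.Agent.Helper96.T5Defs

set_option autoImplicit false
set_option linter.unusedVariables false

namespace Cfsg.Agent.Helper34.T5UK

open Matrix Cfsg Cfsg.Geo Cfsg.Agent.Helper71.T4 Cfsg.Agent.Helper96.T5
open scoped Kronecker

variable {F : Type*} [Field F] {a b : ℕ}

variable {J₁ : Matrix (Fin a) (Fin a) F} {J₂ : Matrix (Fin b) (Fin b) F}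
  {Q : (Fin a × Fin b → F) → F}

theorem cnt_add_y (J₂ : Matrix (Fin b) (Fin b) F) (y y' : Fin b → F) (v : Fin a × Fin b → F) :
    cnt J₂ (y + y') v = cnt J₂ y v + cnt J₂ y' v := by
  ext i; simp [cnt, Matrix.mulVec_add, add_mul, Finset.sum_add_distrib]

theorem cnt_smul_y (J₂ : Matrix (Fin b) (Fin b) F) (c : F) (y : Fin b → F) (v : Fin a × Fin b → F) :
    cnt J₂ (c • y) v = c • cnt J₂ y v := by
  ext i; simp [cnt, Matrix.mulVec_smul, Finset.mul_sum, mul_assoc]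

theorem cnt_sub_v (J₂ : Matrix (Fin b) (Fin b) F) (y : Fin b → F) (v v' : Fin a × Fin b → F) :
    cnt J₂ y (v - v') = cnt J₂ y v - cnt J₂ y v' := by
  ext i; simp [cnt, mul_sub, Finset.sum_sub_distrib]

theorem ext_pt (X Y : Matrix (Fin a × Fin b) (Fin a × Fin b) F)
    (h : ∀ (u : Fin a → F) (y : Fin b → F), X *ᵥ pt u y = Y *ᵥ pt u y) : X = Y := by
  classical
  ext p q
  have h1 := congrFun (h (Pi.single q.1 1) (Pi.single q.2 1)) p
  have h2 : pt (Pi.single q.1 (1 : F)) (Pi.single q.2 (1 : F)) = Pi.single q 1 := by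
    ext r
    simp only [pt, Pi.single_apply]
    by_cases h1 : r.1 = q.1 <;> by_cases h2 : r.2 = q.2 <;> simp [h1, h2, Prod.ext_iff]
  rw [h2, Matrix.mulVec_single_one, Matrix.mulVec_single_one] at h1
  exact h1

/-- PIECE UK -/
theorem uk (hT : TQ J₁ J₂ Q) (ha : 1 ≤ a) (M : Subgroup (GL (Fin a × Fin b) F))
    (hMO : M ≤ isometryGroup F Q) (hR : HasR J₁ J₂ M) (hW : NSW J₂ M) (d dt : Fin b → F)
    (hd : d ≠ 0) (hdd : bf J₂ dt d = 1) (g : GL (Fin a × Fin b) F) (hg : g ∈ M)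
    (hU : InU J₂ d (g.1 - 1))
    (hsc : ∀ w : Fin b → F, bf J₂ w d = 0 →
      ∃ c : F, blk (g.1 - 1) (J₂ *ᵥ w) dt = c • (1 : Matrix (Fin a) (Fin a) F)) :
    IsKron g.1 := by
  classical
  obtain ⟨hU1, hU2, hU3⟩ := hU
  set Z : Matrix (Fin a × Fin b) (Fin a × Fin b) F := g.1 - 1 with hZ
  have hgZ : ∀ v, g.1 *ᵥ v = v + Z *ᵥ v := by
    intro v; rw [hZ, Matrix.sub_mulVec, Matrix.one_mulVec]; abel
  have hsw : ∀ x y, bf J₂ x y = - bf J₂ y x := bf_swap J₂ hT.alt₂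
  have hdd' : bf J₂ d dt = -1 := by rw [hsw, hdd]
  have hd0 : bf J₂ d d = 0 := hT.alt₂ d
  let i₀ : Fin a := ⟨0, ha⟩
  set u₀ : Fin a → F := Pi.single i₀ 1 with hu₀
  set w₀ : Fin b → F := fun k => (Z *ᵥ pt u₀ dt) (i₀, k) with hw₀
  have hcnt0 : ∀ w, cnt J₂ w (Z *ᵥ pt u₀ dt) i₀ = bf J₂ w₀ w := by
    intro w
    simp only [cnt, bf, dotProduct, hw₀]
    exact Finset.sum_congr rfl fun k _ => mul_comm _ _
  have hw₀d : bf J₂ w₀ d = 0 := by
    rw [← hcnt0 d, hU2]; rfl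
  have hdw₀ : bf J₂ d w₀ = 0 := by rw [hsw, hw₀d, neg_zero]
  have hc : ∀ w, bf J₂ w d = 0 → ∀ u, cnt J₂ w (Z *ᵥ pt u dt) = bf J₂ w₀ w • u := by
    intro w hw u
    obtain ⟨c, hc⟩ := hsc w hw
    have h1 : ∀ u, cnt J₂ w (Z *ᵥ pt u dt) = c • u := by
      intro u
      rw [← blk_mulVec_eq_cnt, hc, Matrix.smul_mulVec, Matrix.one_mulVec]
    have h2 : c = bf J₂ w₀ w := by
      rw [← hcnt0 w, h1 u₀]; simp [hu₀]
    rw [h1, h2]
  have hzero : ∀ v : Fin a × Fin b → F, (∀ w, bf J₂ w d = 0 → cnt J₂ w v = 0) →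
      cnt J₂ dt v = 0 → v = 0 := by
    intro v h1 h2
    have h3 : ∀ w, cnt J₂ w v = 0 := by
      intro w
      have hw : w = (w - bf J₂ w d • dt) + bf J₂ w d • dt := by abel
      rw [hw, cnt_add_y, cnt_smul_y,
        h1 _ (by rw [bf_sub_left, bf_smul_left, hdd]; ring), h2]
      simp
    ext ⟨i, k⟩
    have h4 := congrFun (h3 (J₂⁻¹ *ᵥ Pi.single k 1)) i
    simp only [cnt, Matrix.mulVec_mulVec,
      Matrix.mul_nonsing_inv _ (isUnit_iff_ne_zero.mpr hT.det₂), Matrix.one_mulVec] at h4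
    simpa [Pi.single_apply] using h4
  have hB : ∀ u, Z *ᵥ pt u dt
      = pt u w₀ + pt (bf J₂ w₀ dt • u - cnt J₂ dt (Z *ᵥ pt u dt)) d := by
    intro u
    rw [← sub_eq_zero]
    apply hzero
    · intro w hw
      rw [cnt_sub_v, cnt_add, hc w hw u, cnt_pt, cnt_pt, hsw d w, hw]
      simp
    · rw [cnt_sub_v, cnt_add, cnt_pt, cnt_pt, hdd']
      module
  have hC : ∀ y, bf J₂ y d = 0 → ∀ u, Z *ᵥ pt u y = bf J₂ y w₀ • pt u d := by
    intro y hy u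
    obtain ⟨t, ht⟩ := hU3 (pt u y) (by rw [cnt_pt, hy, zero_smul])
    have ht2 : t = bf J₂ y w₀ • u := by
      by_contra hne
      obtain ⟨u', hu'⟩ := exists_bf_eq_one J₁ hT.det₁ (t - bf J₂ y w₀ • u) (sub_ne_zero.mpr hne)
      have hiso := Cfsg.Agent.Helper97.Gen.polar_isometry (hMO hg) (pt u y) (pt u' dt)
      rw [hT.polar, hT.polar, hgZ, hgZ, ht, hB u'] at hiso
      simp only [bf_add_left, bf_add_right, bf_kron_pt] at hiso
      rw [hy, hdd', hd0, hdw₀] at hiso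
      rw [bf_sub_left, bf_smul_left] at hu'
      have h10 : (1 : F) = 0 := by linear_combination -hu' - hiso
      exact one_ne_zero h10
    rw [ht, ht2, pt_smul_left]
  have hD : ∀ u y, Z *ᵥ pt u y
      = bf J₂ y d • (pt u w₀ + pt (bf J₂ w₀ dt • u - cnt J₂ dt (Z *ᵥ pt u dt)) d)
        + bf J₂ (y - bf J₂ y d • dt) w₀ • pt u d := by
    intro u y
    have hy : y = (y - bf J₂ y d • dt) + bf J₂ y d • dt := by abel
    conv_lhs => rw [hy]
    rw [pt_add_right, pt_smul_right, Matrix.mulVec_add, Matrix.mulVec_smul,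
      hC _ (by rw [bf_sub_left, bf_smul_left, hdd]; ring)]
    conv_lhs => rw [hB]
    abel
  set B : Matrix (Fin b) (Fin b) F := tv J₂ (d + w₀) 1 * tv J₂ w₀ (-1) * tv J₂ d (-1) with hBdef
  have hBy : ∀ y, B *ᵥ y = y + bf J₂ y d • w₀ + bf J₂ y w₀ • d := by
    intro y
    rw [hBdef, ← Matrix.mulVec_mulVec, ← Matrix.mulVec_mulVec, tv_mulVec, tv_mulVec, tv_mulVec]
    simp only [bf_add_left, bf_add_right, bf_smul_left, hd0, hw₀d, hdw₀, hT.alt₂ w₀]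
    ext k
    simp only [Pi.add_apply, Pi.smul_apply, smul_eq_mul]
    ring
  have hH : InM M ((1 : Matrix (Fin a) (Fin a) F) ⊗ₖ B) := by
    have h1 := hR.1 (d + w₀) 1
    have h2 := hR.1 w₀ (-1)
    have h3 := hR.1 d (-1)
    have h4 := (h1.mul h2).mul h3
    rwa [← Matrix.mul_kronecker_mul, ← Matrix.mul_kronecker_mul, mul_one, mul_one] at h4
  set S' : Matrix (Fin a) (Fin a) F :=
    (2 * bf J₂ w₀ dt) • (1 : Matrix (Fin a) (Fin a) F) - blk Z (J₂ *ᵥ dt) dt with hS'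
  have hS'u : ∀ u, S' *ᵥ u = (2 * bf J₂ w₀ dt) • u - cnt J₂ dt (Z *ᵥ pt u dt) := by
    intro u
    rw [hS', Matrix.sub_mulVec, Matrix.smul_mulVec, Matrix.one_mulVec, blk_mulVec_eq_cnt]
  have hG : g.1 = (1 + S' ⊗ₖ rk J₂ d d) * ((1 : Matrix (Fin a) (Fin a) F) ⊗ₖ B) := by
    apply ext_pt
    intro u y
    rw [hgZ, hD, ← Matrix.mulVec_mulVec, kron_mulVec_pt, Matrix.add_mulVec, Matrix.one_mulVec,
      kron_mulVec_pt, Matrix.one_mulVec, hBy, rk_mulVec, hS'u]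
    simp only [bf_add_left, bf_sub_left, bf_smul_left, hd0, hw₀d, hsw dt w₀]
    ext ⟨i, k⟩
    simp only [pt, Pi.add_apply, Pi.smul_apply, Pi.sub_apply, smul_eq_mul]
    ring
  obtain ⟨h, hhM, hh⟩ := hH
  have hmem : InM M (1 + S' ⊗ₖ rk J₂ d d) := by
    refine ⟨g * h⁻¹, M.mul_mem hg (M.inv_mem hhM), ?_⟩
    rw [Units.val_mul, hG, ← hh, mul_assoc, Units.mul_inv, mul_one]
  obtain ⟨c, hcS⟩ := hW S' d hd hmem
  refine ⟨1, (1 + c • rk J₂ d d) * B, ?_⟩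
  rw [hG, hcS, Matrix.smul_kronecker, ← Matrix.kronecker_smul]
  have h5 : (1 : Matrix (Fin a × Fin b) (Fin a × Fin b) F)
      + (1 : Matrix (Fin a) (Fin a) F) ⊗ₖ (c • rk J₂ d d)
      = (1 : Matrix (Fin a) (Fin a) F) ⊗ₖ (1 + c • rk J₂ d d) := by
    rw [Matrix.kronecker_add, Matrix.one_kronecker_one]
  rw [h5, ← Matrix.mul_kronecker_mul, mul_one]

end Cfsg.Agent.Helper34.T5UK
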