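import Mathlib
import Cfsg.Prelude.Def_GeometricClasses

set_option autoImplicit false

namespace Cfsg.Agent.Helper34.TFG2

open Matrix Polynomial
open scoped Kronecker

theorem conj_apply {F : Type*} [Field F] {b : ℕ} (S G : Matrix (Fin b) (Fin b) F) (j j' : Fin b) :
    (Sᵀ * G * S) j j' = (fun i => S i j) ⬝ᵥ G *ᵥ (fun i => S i j') := by
  rw [Matrix.dotProduct_mulVec]
  simp [Matrix.mul_apply, dotProduct, Matrix.vecMul]

/-- Piece G2 -/
theorem gram_symm_diag {F : Type*} [Field F] (h2 : (2 : F) ≠ 0) {b : ℕ}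
    (f₂ : (Fin b → F) → (Fin b → F) → F) (hf₂ : Cfsg.Geo.IsSymmetricForm f₂) :
    ∃ (S S' : Matrix (Fin b) (Fin b) F) (γ : Fin b → F), S * S' = 1 ∧ S' * S = 1 ∧
      (∀ j, γ j ≠ 0) ∧ Sᵀ * Cfsg.Geo.gramMatrix f₂ * S = Matrix.diagonal γ := by
  classical
  set G : Matrix (Fin b) (Fin b) F := Cfsg.Geo.gramMatrix f₂ with hG
  have hbil := hf₂.bilinear
  have hsum : ∀ (x : Fin b → F), x = ∑ i, x i • (Pi.single i 1 : Fin b → F) := by
    intro x; funext k; simp [Finset.sum_apply, Pi.single_apply]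
  have hzl : ∀ v, f₂ 0 v = 0 := fun v => by simpa using hbil.smul_left 0 0 v
  have hzr : ∀ v, f₂ v 0 = 0 := fun v => by simpa using hbil.smul_right 0 v 0
  have hsl : ∀ (s : Finset (Fin b)) (x : Fin b → (Fin b → F)) (v : Fin b → F),
      f₂ (∑ i ∈ s, x i) v = ∑ i ∈ s, f₂ (x i) v := by
    intro s x v
    induction s using Finset.induction_on with
    | empty => simp [hzl]
    | insert a s ha ih => rw [Finset.sum_insert ha, Finset.sum_insert ha, hbil.add_left, ih]
  have hsr : ∀ (s : Finset (Fin b)) (x : Fin b → (Fin b → F)) (v : Fin b → F),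
      f₂ v (∑ i ∈ s, x i) = ∑ i ∈ s, f₂ v (x i) := by
    intro s x v
    induction s using Finset.induction_on with
    | empty => simp [hzr]
    | insert a s ha ih => rw [Finset.sum_insert ha, Finset.sum_insert ha, hbil.add_right, ih]
  have hf : ∀ x y, f₂ x y = x ⬝ᵥ G *ᵥ y := by
    intro x y
    conv_lhs => rw [hsum x, hsum y]
    rw [hsl]
    simp only [hsr, hbil.smul_left, hbil.smul_right]
    simp only [dotProduct, Matrix.mulVec, hG, Cfsg.Geo.gramMatrix, Finset.mul_sum]
    refine Finset.sum_congr rfl fun i _ => Finset.sum_congr rfl fun j _ => ?_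
    ring
  have hdet : G.det ≠ 0 := by
    intro h0
    obtain ⟨v, hv, hv0⟩ := Matrix.exists_mulVec_eq_zero_iff.mpr h0
    obtain ⟨x, hx⟩ := (hf₂.nondegenerate v hv).1
    apply hx
    rw [hf, hv0, dotProduct_zero]
  let B : LinearMap.BilinForm F (Fin b → F) := Matrix.toBilin' G
  have hBf : ∀ x y, B x y = f₂ x y := by
    intro x y
    rw [hf]
    exact Matrix.toBilin'_apply' G x y
  have hBs : LinearMap.IsSymm B := by
    refine ⟨fun x y => ?_⟩
    simp only [RingHom.id_apply]
    rw [hBf, hBf, hf₂.symm]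
  let _i2 : Invertible (2 : F) := invertibleOfNonzero h2
  obtain ⟨v, hv⟩ := LinearMap.BilinForm.exists_orthogonal_basis hBs
  have hfin : Module.finrank F (Fin b → F) = b := Module.finrank_fin_fun F
  let v' : Module.Basis (Fin b) F (Fin b → F) := v.reindex (finCongr hfin)
  have hv' : ∀ j j', j ≠ j' → B (v' j) (v' j') = 0 := by
    intro j j' hjj
    have h1 : (finCongr hfin).symm j ≠ (finCongr hfin).symm j' := fun h => hjj ((finCongr hfin).symm.injective h)
    have h2 := (LinearMap.isOrthoᵢ_def.mp hv) _ _ h1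
    simpa [v'] using h2
  let S : Matrix (Fin b) (Fin b) F := (Pi.basisFun F (Fin b)).toMatrix v'
  have hSeq : Sᵀ * G * S = Matrix.diagonal (fun j => B (v' j) (v' j)) := by
    ext j j'
    rw [conj_apply]
    have h3 : ∀ j, (fun i => S i j) = v' j := by
      intro j; funext i; simp [S, Module.Basis.toMatrix_apply]
    rw [h3, h3, ← Matrix.toBilin'_apply' G]
    by_cases hjj : j = j'
    · subst hjj; simp [B]
    · rw [Matrix.diagonal_apply_ne _ hjj]; exact hv' j j' hjj
  have hSS : S * v'.toMatrix (Pi.basisFun F (Fin b)) = 1 := Module.Basis.toMatrix_mul_toMatrix_flip _ _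
  have hSS' : v'.toMatrix (Pi.basisFun F (Fin b)) * S = 1 := Module.Basis.toMatrix_mul_toMatrix_flip _ _
  refine ⟨S, v'.toMatrix (Pi.basisFun F (Fin b)), fun j => B (v' j) (v' j), hSS, hSS', ?_, hSeq⟩
  intro j hj
  have hSdet : S.det ≠ 0 := Matrix.det_ne_zero_of_right_inverse hSS
  have h4 : (Sᵀ * G * S).det ≠ 0 := by
    rw [Matrix.det_mul, Matrix.det_mul, Matrix.det_transpose]
    exact mul_ne_zero (mul_ne_zero hSdet hdet) hSdet
  rw [hSeq, Matrix.det_diagonal] at h4
  exact h4 (Finset.prod_eq_zero (Finset.mem_univ j) hj)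

end Cfsg.Agent.Helper34.TFG2
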